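import Cfsg.Agent.Lib.Helper44.Dagger

set_option autoImplicit false

namespace Cfsg.Agent.Lib.Helper44

/-- Hilbert 90 in a finite commutative ring with involution, by counting -/
theorem hilbert90_comm {Z : Type*} [CommRing Z] [Finite Z] {τ : Z → Z} (hτ : IsDagger τ)
    (g W : Z) (hu : IsUnit ((g - τ g) * (g - τ g))) (hW : τ W * W = 1) :
    ∃ z : Z, IsUnit z ∧ z = τ z * W := by
  let τh : Z →* Z :=
    { toFun := τ
      map_one' := hτ.one
      map_mul' := fun x y => by rw [hτ.mul, mul_comm] }
  let τu : Zˣ →* Zˣ := Units.map τh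
  have hτu : ∀ u : Zˣ, ((τu u : Zˣ) : Z) = τ u := fun u => rfl
  have hτuu : ∀ u : Zˣ, τu (τu u) = u := fun u => Units.ext (hτ.invol _)
  let N : Zˣ →* Zˣ := τu * MonoidHom.id _
  let D : Zˣ →* Zˣ := MonoidHom.id _ * (τu⁻¹)
  have hN : ∀ u, N u = τu u * u := fun u => rfl
  have hD : ∀ u, D u = u * (τu u)⁻¹ := fun u => rfl
  have h1 : D.range ≤ N.ker := by
    rintro _ ⟨u, rfl⟩
    rw [MonoidHom.mem_ker, hN, hD, map_mul, map_inv, hτuu]
    group
  have h2 : D.ker = N.range := by
    ext u
    rw [MonoidHom.mem_ker, hD, mul_inv_eq_one]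
    constructor
    · intro h
      obtain ⟨R, hR, hRR⟩ := norm_solve_comm hτ (u : Z) g 1 (by rw [← hτu, ← h]) u.isUnit hτ.one
        (one_mul 1) (by simpa using hu)
      refine ⟨hR.unit, ?_⟩
      apply Units.ext
      rw [hN, Units.val_mul, hτu, IsUnit.unit_spec, hRR]
      ring
    · rintro ⟨v, rfl⟩
      rw [hN, map_mul, hτuu, mul_comm]
  have h3 : Nat.card D.ker * Nat.card D.range = Nat.card Zˣ := by
    rw [← Subgroup.index_ker, Subgroup.card_mul_index]
  have h4 : Nat.card N.ker * Nat.card N.range = Nat.card Zˣ := by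
    rw [← Subgroup.index_ker, Subgroup.card_mul_index]
  have h5 : Nat.card N.ker = Nat.card D.range := by
    rw [← h2, mul_comm, ← h3] at h4
    exact Nat.eq_of_mul_eq_mul_left Nat.card_pos h4
  have h6 : D.range = N.ker := Subgroup.eq_of_le_of_card_ge h1 h5.le
  let Wu : Zˣ := ⟨W, τ W, by rw [mul_comm]; exact hW, hW⟩
  have h7 : Wu ∈ N.ker := by
    rw [MonoidHom.mem_ker, hN]
    apply Units.ext
    exact hW
  rw [← h6] at h7
  obtain ⟨z, hz⟩ := h7
  refine ⟨z, z.isUnit, ?_⟩
  rw [hD, mul_inv_eq_iff_eq_mul] at hz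
  have := congrArg Units.val hz
  rw [Units.val_mul, hτu] at this
  rw [mul_comm]
  exact this

open scoped IsMulCommutative in
/-- making a sesquilinear form hermitian -/
theorem hilbert90 {M : Type*} [Ring M] [Finite M] {d : M → M} (hd : IsDagger d) (P P' g : M)
    (hP1 : P * P' = 1) (hP2 : P' * P = 1) (hg : ∀ c, Commute c g) (hg' : ∀ c, Commute c (d g))
    (hu : IsUnit ((g - d g) * (g - d g))) :
    ∃ z ∈ Subring.closure ({P' * d P, d P' * P, g, d g} : Set M), IsUnit z ∧ d (P * z) = P * z := by
  set W := P' * d P with hWdef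
  set W' := d P' * P with hW'def
  have hdP1 : d P * d P' = 1 := by rw [← hd.mul, hP2, hd.one]
  have hdP2 : d P' * d P = 1 := by rw [← hd.mul, hP1, hd.one]
  have hWW' : W * W' = 1 := by
    calc W * W' = P' * (d P * d P') * P := by simp only [hWdef, hW'def, mul_assoc]
      _ = 1 := by rw [hdP1, mul_one, hP2]
  have hW'W : W' * W = 1 := by
    calc W' * W = d P' * (P * P') * d P := by simp only [hWdef, hW'def, mul_assoc]
      _ = 1 := by rw [hP1, mul_one, hdP2]
  have hcomm : ∀ x ∈ ({W, W', g, d g} : Set M), ∀ y ∈ ({W, W', g, d g} : Set M), x * y = y * x := by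
    rintro x (rfl | rfl | rfl | rfl) y (rfl | rfl | rfl | rfl) <;>
    first
      | rfl | exact (hg _).eq | exact (hg _).eq.symm | exact (hg' _).eq | exact (hg' _).eq.symm
      | rw [hWW', hW'W]
  have := Subring.isMulCommutative_closure hcomm
  let star : M → M := fun x => P' * d x * P
  have hstar_mul : ∀ x y, star (x * y) = star y * star x := by
    intro x y
    calc P' * d (x * y) * P = P' * d y * 1 * d x * P := by rw [hd.mul]; simp only [mul_assoc, one_mul]
      _ = P' * d y * P * (P' * d x * P) := by rw [← hP1]; simp only [mul_assoc]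
  have hstarW : star W = W' := by
    change P' * d (P' * d P) * P = d P' * P
    rw [hd.mul, hd.invol, ← mul_assoc, hP2, one_mul]
  have hstarW' : star W' = W := by
    change P' * d (d P' * P) * P = P' * d P
    rw [hd.mul, hd.invol, mul_assoc, mul_assoc, hP2, mul_one]
  have hstarg : star g = d g := by
    change P' * d g * P = d g
    rw [mul_assoc, ← (hg' P).eq, ← mul_assoc, hP2, one_mul]
  have hstarg' : star (d g) = g := by
    change P' * d (d g) * P = g
    rw [hd.invol, mul_assoc, ← (hg P).eq, ← mul_assoc, hP2, one_mul]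
  have hdZ : ∀ x ∈ Subring.closure ({W, W', g, d g} : Set M),
      star x ∈ Subring.closure ({W, W', g, d g} : Set M) := by
    intro x hx
    induction hx using Subring.closure_induction with
    | mem x hx =>
      apply Subring.subset_closure
      rcases hx with rfl | rfl | rfl | rfl
      · rw [hstarW]; simp
      · rw [hstarW']; simp
      · rw [hstarg]; simp
      · rw [hstarg']; simp
    | zero =>
      have : star 0 = 0 := by simp [star, hd.zero]
      rw [this]; exact zero_mem _
    | one =>
      have : star 1 = 1 := by simp [star, hd.one, hP2]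
      rw [this]; exact one_mem _
    | add x y _ _ h1 h2 =>
      have : star (x + y) = star x + star y := by simp [star, hd.add, mul_add, add_mul]
      rw [this]; exact add_mem h1 h2
    | neg x _ h1 =>
      have : star (-x) = - star x := by simp [star, hd.neg]
      rw [this]; exact neg_mem h1
    | mul x y _ _ h1 h2 => rw [hstar_mul]; exact mul_mem h2 h1
  have hinvol : ∀ x ∈ Subring.closure ({W, W', g, d g} : Set M), star (star x) = x := by
    intro x hx
    have hc : Commute W x := by
      apply commute_of_mem_closure _ hx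
      intro y hy
      exact hcomm W (by simp) y hy
    calc P' * d (P' * d x * P) * P = W * x * W' := by
          rw [hd.mul, hd.mul, hd.invol]; simp only [hWdef, hW'def, mul_assoc]
      _ = x := by rw [hc.eq, mul_assoc, hWW', mul_one]
  let τ : ↥(Subring.closure ({W, W', g, d g} : Set M)) → ↥(Subring.closure ({W, W', g, d g} : Set M)) :=
    fun z => ⟨star z.1, hdZ z.1 z.2⟩
  have hτ : IsDagger τ :=
    ⟨fun x y => Subtype.ext (by simp [τ, star, hd.add, mul_add, add_mul]),
      fun x y => Subtype.ext (hstar_mul _ _),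
      Subtype.ext (by simp [τ, star, hd.one, hP2]), fun x => Subtype.ext (hinvol _ x.2)⟩
  have hunit : ∀ x : ↥(Subring.closure ({W, W', g, d g} : Set M)), IsUnit (x : M) → IsUnit x := by
    intro x hx
    obtain ⟨k, hk⟩ := exists_pow_eq_one_of_isUnit hx
    exact IsUnit.of_mul_eq_one (x ^ k) (Subtype.ext hk)
  obtain ⟨z, hz, hzz⟩ := hilbert90_comm hτ ⟨g, Subring.subset_closure (by simp)⟩
    ⟨W, Subring.subset_closure (by simp)⟩
    (hunit _ (by
      change IsUnit ((g - star g) * (g - star g))
      rw [hstarg]; exact hu))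
    (Subtype.ext (by
      change star W * W = 1
      rw [hstarW, hW'W]))
  refine ⟨z.1, z.2, hz.map (Subring.subtype _), ?_⟩
  have h1 : z.1 = P' * d z.1 * P * W := congrArg Subtype.val hzz
  have h2 : P * z.1 = d z.1 * d P := by
    calc P * z.1 = P * (P' * d z.1 * P * W) := by rw [← h1]
      _ = (P * P') * d z.1 * (P * P') * d P := by simp only [hWdef, mul_assoc]
      _ = d z.1 * d P := by rw [hP1, one_mul, mul_one]
  rw [hd.mul, ← h2]

/-- an element preserving some non-degenerate sesquilinear form is conjugate to a unitary one -/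
theorem exists_unitary_conj {M : Type*} [Ring M] [Finite M] {d : M → M} (hd : IsDagger d)
    (A A₁ P P' g : M) (hA1 : A * A₁ = 1) (hA2 : A₁ * A = 1)
    (hP1 : P * P' = 1) (hP2 : P' * P = 1) (hPA : d A * P * A = P)
    (hg : ∀ c, Commute c g) (hg' : ∀ c, Commute c (d g))
    (hu : IsUnit ((g - d g) * (g - d g))) :
    ∃ R R' : M, R * R' = 1 ∧ R' * R = 1 ∧ d (R * A * R') * (R * A * R') = 1 := by
  have hdA1 : d A₁ * d A = 1 := by rw [← hd.mul, hA1, hd.one]
  have hdP1 : d P * d P' = 1 := by rw [← hd.mul, hP2, hd.one]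
  have hdP2 : d P' * d P = 1 := by rw [← hd.mul, hP1, hd.one]
  have h1 : P * A = d A₁ * P := by
    calc P * A = d A₁ * d A * P * A := by rw [hdA1, one_mul]
      _ = d A₁ * (d A * P * A) := by simp only [mul_assoc]
      _ = d A₁ * P := by rw [hPA]
  have hPA' : d A * d P * A = d P := by
    have := congrArg d hPA
    rw [hd.mul, hd.mul, hd.invol, ← mul_assoc] at this
    exact this
  have h2 : d P * A = d A₁ * d P := by
    calc d P * A = d A₁ * d A * d P * A := by rw [hdA1, one_mul]
      _ = d A₁ * (d A * d P * A) := by simp only [mul_assoc]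
      _ = d A₁ * d P := by rw [hPA']
  have h3 : P' * d A₁ = A * P' := by
    calc P' * d A₁ = P' * (d A₁ * P) * P' := by rw [mul_assoc, mul_assoc, hP1, mul_one]
      _ = P' * (P * A) * P' := by rw [h1]
      _ = A * P' := by rw [← mul_assoc, hP2, one_mul]
  have hWA : Commute A (P' * d P) := by
    change A * (P' * d P) = P' * d P * A
    rw [mul_assoc, h2, ← mul_assoc, ← mul_assoc, h3]
  have hWW' : P' * d P * (d P' * P) = 1 := by
    calc P' * d P * (d P' * P) = P' * (d P * d P') * P := by simp only [mul_assoc]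
      _ = 1 := by rw [hdP1, mul_one, hP2]
  have hW'W : d P' * P * (P' * d P) = 1 := by
    calc d P' * P * (P' * d P) = d P' * (P * P') * d P := by simp only [mul_assoc]
      _ = 1 := by rw [hP1, mul_one, hdP2]
  have hW'A : Commute A (d P' * P) := by
    change A * (d P' * P) = d P' * P * A
    calc A * (d P' * P) = (d P' * P * (P' * d P)) * A * (d P' * P) := by rw [hW'W, one_mul]
      _ = d P' * P * (P' * d P * A) * (d P' * P) := by simp only [mul_assoc]
      _ = d P' * P * (A * (P' * d P)) * (d P' * P) := by rw [hWA.eq]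
      _ = d P' * P * A * (P' * d P * (d P' * P)) := by simp only [mul_assoc]
      _ = d P' * P * A := by rw [hWW', mul_one]
  obtain ⟨z, hz, hzu, hzH⟩ := hilbert90 hd P P' g hP1 hP2 hg hg' hu
  have hzA : Commute A z := by
    apply commute_of_mem_closure _ hz
    intro y hy
    simp only [Set.mem_insert_iff, Set.mem_singleton_iff] at hy
    rcases hy with h | h | h | h
    · rw [h]; exact hWA
    · rw [h]; exact hW'A
    · rw [h]; exact hg A
    · rw [h]; exact hg' A
  have hHu : IsUnit (P * z) := (IsUnit.mul ⟨⟨P, P', hP1, hP2⟩, rfl⟩ hzu)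
  have hHA : d A * (P * z) * A = P * z := by
    calc d A * (P * z) * A = d A * P * (z * A) := by simp only [mul_assoc]
      _ = d A * P * A * z := by rw [← hzA.eq]; simp only [mul_assoc]
      _ = P * z := by rw [hPA]
  obtain ⟨R, -, R', -, hR1, hR2, hR3⟩ := norm_solve hd (P * z) g 1 hzH hHu hd.one (one_mul 1)
    (hg _) (hg' _) (Commute.one_right _) (hg' _) (Commute.one_right _) (Commute.one_right _)
    (by simpa using hu)
  rw [mul_one, sub_self, add_zero] at hR3
  refine ⟨R, R', hR1, hR2, ?_⟩
  have h5 : d R' * d R = 1 := by rw [← hd.mul, hR1, hd.one]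
  calc d (R * A * R') * (R * A * R') = d R' * (d A * (d R * R) * A) * R' := by
        rw [hd.mul, hd.mul]; simp only [mul_assoc]
    _ = d R' * (d R * R) * R' := by rw [hR3, hHA]
    _ = (d R' * d R) * (R * R') := by simp only [mul_assoc]
    _ = 1 := by rw [h5, hR1, one_mul]

end Cfsg.Agent.Lib.Helper44
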