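import Cfsg.Agent.Lib.Helper44.GUConj
import Cfsg.Agent.Lib.Helper44.Hilbert90

set_option autoImplicit false

namespace Cfsg.Agent.Lib.Helper44

open Matrix

theorem GU_similar_iff {K : Type*} [Field K] [Fintype K] {q n : ℕ} (hK : Fintype.card K = q ^ 2)
    (A : GL (Fin n) K) :
    (∃ B : ↥(Cfsg.GU n K q), IsConj A (B : GL (Fin n) K)) ↔
      IsConj (A : Matrix (Fin n) (Fin n) K)
        (((A : Matrix (Fin n) (Fin n) K).map (fun x : K => x ^ q)).transpose)⁻¹ := by
  obtain ⟨σ, hσ, hσσ, w, hw⟩ := exists_frob_sq hK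
  have hσf : (fun x : K => x ^ q) = ⇑σ := funext (fun x => (hσ x).symm)
  rw [hσf]
  have hd := isDagger_conjTranspose (n := Fin n) σ hσσ
  set d : Matrix (Fin n) (Fin n) K → Matrix (Fin n) (Fin n) K := fun X => (X.map σ)ᵀ with hddef
  have hAA1 : (A : Matrix (Fin n) (Fin n) K) * ((A⁻¹ : GL (Fin n) K) : Matrix (Fin n) (Fin n) K) = 1 := by
    rw [← Units.val_mul]; simp
  have hA1A : ((A⁻¹ : GL (Fin n) K) : Matrix (Fin n) (Fin n) K) * (A : Matrix (Fin n) (Fin n) K) = 1 := by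
    rw [← Units.val_mul]; simp
  have h1 : d ((A⁻¹ : GL (Fin n) K) : Matrix (Fin n) (Fin n) K) * d (A : Matrix (Fin n) (Fin n) K) = 1 := by
    rw [← hd.mul, hAA1, hd.one]
  have h2 : d (A : Matrix (Fin n) (Fin n) K) * d ((A⁻¹ : GL (Fin n) K) : Matrix (Fin n) (Fin n) K) = 1 := by
    rw [← hd.mul, hA1A, hd.one]
  have hinv : (((A : Matrix (Fin n) (Fin n) K).map σ)ᵀ)⁻¹ =
      d ((A⁻¹ : GL (Fin n) K) : Matrix (Fin n) (Fin n) K) := Matrix.inv_eq_left_inv h1
  rw [hinv]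
  constructor
  · rintro ⟨B, h⟩
    obtain ⟨c, hc⟩ := isConj_iff.1 h
    have hB : d ((B : GL (Fin n) K) : Matrix (Fin n) (Fin n) K) *
        ((B : GL (Fin n) K) : Matrix (Fin n) (Fin n) K) = 1 :=
      (mem_GU_iff σ hσ (B : GL (Fin n) K)).1 B.2
    have hcA : (c : Matrix (Fin n) (Fin n) K) * (A : Matrix (Fin n) (Fin n) K) =
        ((B : GL (Fin n) K) : Matrix (Fin n) (Fin n) K) * (c : Matrix (Fin n) (Fin n) K) := by
      have h1 : c * A = (B : GL (Fin n) K) * c := by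
        rw [← hc]; group
      have := congrArg (fun x : GL (Fin n) K => (x : Matrix (Fin n) (Fin n) K)) h1
      simpa using this
    have hcc1 : (c : Matrix (Fin n) (Fin n) K) * ((c⁻¹ : GL (Fin n) K) : Matrix (Fin n) (Fin n) K) = 1 := by
      rw [← Units.val_mul]; simp
    have hc1c : ((c⁻¹ : GL (Fin n) K) : Matrix (Fin n) (Fin n) K) * (c : Matrix (Fin n) (Fin n) K) = 1 := by
      rw [← Units.val_mul]; simp
    have hdc1 : d (c : Matrix (Fin n) (Fin n) K) * d ((c⁻¹ : GL (Fin n) K) : Matrix (Fin n) (Fin n) K) = 1 := by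
      rw [← hd.mul, hc1c, hd.one]
    have hdc2 : d ((c⁻¹ : GL (Fin n) K) : Matrix (Fin n) (Fin n) K) * d (c : Matrix (Fin n) (Fin n) K) = 1 := by
      rw [← hd.mul, hcc1, hd.one]
    refine ⟨⟨d (c : Matrix (Fin n) (Fin n) K) * c,
      ((c⁻¹ : GL (Fin n) K) : Matrix (Fin n) (Fin n) K) * d ((c⁻¹ : GL (Fin n) K) : Matrix (Fin n) (Fin n) K),
      ?_, ?_⟩, ?_⟩
    · calc d (c : Matrix (Fin n) (Fin n) K) * c * (((c⁻¹ : GL (Fin n) K) : Matrix (Fin n) (Fin n) K) *
            d ((c⁻¹ : GL (Fin n) K) : Matrix (Fin n) (Fin n) K))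
          = d (c : Matrix (Fin n) (Fin n) K) * ((c : Matrix (Fin n) (Fin n) K) *
            ((c⁻¹ : GL (Fin n) K) : Matrix (Fin n) (Fin n) K)) *
            d ((c⁻¹ : GL (Fin n) K) : Matrix (Fin n) (Fin n) K) := by simp only [mul_assoc]
        _ = 1 := by rw [hcc1, mul_one, hdc1]
    · calc ((c⁻¹ : GL (Fin n) K) : Matrix (Fin n) (Fin n) K) *
            d ((c⁻¹ : GL (Fin n) K) : Matrix (Fin n) (Fin n) K) * (d (c : Matrix (Fin n) (Fin n) K) * c)
          = ((c⁻¹ : GL (Fin n) K) : Matrix (Fin n) (Fin n) K) *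
            (d ((c⁻¹ : GL (Fin n) K) : Matrix (Fin n) (Fin n) K) * d (c : Matrix (Fin n) (Fin n) K)) * c := by
            simp only [mul_assoc]
        _ = 1 := by rw [hdc2, mul_one, hc1c]
    · change d (c : Matrix (Fin n) (Fin n) K) * c * (A : Matrix (Fin n) (Fin n) K) =
        d ((A⁻¹ : GL (Fin n) K) : Matrix (Fin n) (Fin n) K) * (d (c : Matrix (Fin n) (Fin n) K) * c)
      have h3 : d (A : Matrix (Fin n) (Fin n) K) * (d (c : Matrix (Fin n) (Fin n) K) * c *
          (A : Matrix (Fin n) (Fin n) K)) = d (c : Matrix (Fin n) (Fin n) K) * c := by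
        calc d (A : Matrix (Fin n) (Fin n) K) * (d (c : Matrix (Fin n) (Fin n) K) * c *
              (A : Matrix (Fin n) (Fin n) K))
            = d ((c : Matrix (Fin n) (Fin n) K) * A) * ((c : Matrix (Fin n) (Fin n) K) * A) := by
              rw [hd.mul]; simp only [mul_assoc]
          _ = d (c : Matrix (Fin n) (Fin n) K) * (d ((B : GL (Fin n) K) : Matrix (Fin n) (Fin n) K) *
              ((B : GL (Fin n) K) : Matrix (Fin n) (Fin n) K)) * c := by
              rw [hcA, hd.mul]; simp only [mul_assoc]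
          _ = _ := by rw [hB, mul_one]
      calc d (c : Matrix (Fin n) (Fin n) K) * c * (A : Matrix (Fin n) (Fin n) K)
          = d ((A⁻¹ : GL (Fin n) K) : Matrix (Fin n) (Fin n) K) * d (A : Matrix (Fin n) (Fin n) K) *
            (d (c : Matrix (Fin n) (Fin n) K) * c * (A : Matrix (Fin n) (Fin n) K)) := by
            rw [h1, one_mul]
        _ = _ := by rw [mul_assoc, h3]
  · rintro ⟨c, hc⟩
    have hc' : (c : Matrix (Fin n) (Fin n) K) * (A : Matrix (Fin n) (Fin n) K) =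
        d ((A⁻¹ : GL (Fin n) K) : Matrix (Fin n) (Fin n) K) * (c : Matrix (Fin n) (Fin n) K) := hc
    have hPA : d (A : Matrix (Fin n) (Fin n) K) * (c : Matrix (Fin n) (Fin n) K) *
        (A : Matrix (Fin n) (Fin n) K) = c := by
      rw [mul_assoc, hc', ← mul_assoc, h2, one_mul]
    have hdg : d (w • (1 : Matrix (Fin n) (Fin n) K)) = σ w • (1 : Matrix (Fin n) (Fin n) K) := by
      ext i j
      by_cases hij : i = j
      · subst hij; simp [hddef]
      · simp [hddef, hij, Ne.symm hij]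
    obtain ⟨R, R', hR1, hR2, hR3⟩ := exists_unitary_conj hd (A : Matrix (Fin n) (Fin n) K)
      ((A⁻¹ : GL (Fin n) K) : Matrix (Fin n) (Fin n) K) (c : Matrix (Fin n) (Fin n) K)
      ((c⁻¹ : (Matrix (Fin n) (Fin n) K)ˣ) : Matrix (Fin n) (Fin n) K) (w • 1) hAA1 hA1A
      (Units.mul_inv c) (Units.inv_mul c) hPA
      (fun c => by
        change c * (w • 1) = (w • 1) * c
        simp)
      (fun c => by
        change c * d (w • 1) = d (w • 1) * c
        rw [hdg]; simp)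
      (by
        rw [hdg, ← sub_smul]
        have hne : w - σ w ≠ 0 := sub_ne_zero.2 (Ne.symm hw)
        have hun : IsUnit ((w - σ w) • (1 : Matrix (Fin n) (Fin n) K)) := by
          refine ⟨⟨(w - σ w) • 1, (w - σ w)⁻¹ • 1, ?_, ?_⟩, rfl⟩ <;> simp [smul_smul, hne]
        exact hun.mul hun)
    let r : GL (Fin n) K := ⟨R, R', hR1, hR2⟩
    have hmem : r * A * r⁻¹ ∈ Cfsg.GU n K q := by
      rw [mem_GU_iff σ hσ]
      exact hR3
    exact ⟨⟨r * A * r⁻¹, hmem⟩, isConj_iff.2 ⟨r, rfl⟩⟩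

end Cfsg.Agent.Lib.Helper44
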