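import Cfsg.Agent.Lib.Helper44.GraphInv

set_option autoImplicit false

namespace Cfsg.Agent.Lib.Helper44

open QuadraticMap Module Matrix

universe u

theorem comm_mem_of_equiv {Γ : Type*} [Group Γ] (N Γ₀ : Subgroup Γ) [N.Normal] {X : Type*}
    [CommGroup X] (e : (↥Γ₀ ⧸ N.subgroupOf Γ₀) ≃* X) {a b : Γ} (ha : a ∈ Γ₀) (hb : b ∈ Γ₀) :
    a * b * a⁻¹ * b⁻¹ ∈ N := by
  have h1 : ((QuotientGroup.mk ((⟨a, ha⟩ : ↥Γ₀) * ⟨b, hb⟩ * (⟨a, ha⟩ : ↥Γ₀)⁻¹ * (⟨b, hb⟩ : ↥Γ₀)⁻¹) :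
      ↥Γ₀ ⧸ N.subgroupOf Γ₀)) = 1 := by
    apply e.injective
    simp only [QuotientGroup.mk_mul, QuotientGroup.mk_inv, map_mul, map_inv, map_one]
    rw [mul_comm (e _) (e _)]
    simp
  rw [QuotientGroup.eq_one_iff, Subgroup.mem_subgroupOf] at h1
  exact h1

variable {F : Type u} [Field F] {ι : Type} [Fintype ι] [DecidableEq ι]

theorem splitCount_graph [Fintype F] (h2 : (2 : F) ≠ 0) (Q : QuadraticForm F (ι → F))
    (hQ : (polarBilin Q).Nondegenerate) (hn : 5 ≤ Fintype.card ι) (hex : ∃ v, Q v ≠ 0) (m : ℕ)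
    (hm : Fintype.card ι = 2 * m) (δ : ↥(Cfsg.Geo.quadSimilarityGroup ⇑Q))
    (hδ1 : ¬ IsSquare (multF Q δ : F)) (hδ2 : δ ∈ (chi2 h2 hQ hex m hm).ker)
    (g : ↥(Cfsg.Geo.quadSimilarityGroup ⇑Q)) (hχ : chi2 h2 hQ hex m hm g ≠ 1)
    (hord : orderOf (conjPOmega ⇑Q g) = 2) :
    (Cfsg.splitClassCount ((chi2 h2 hQ hex m hm).ker.map (conjPOmega ⇑Q))
        (Cfsg.Inn (Cfsg.POmega F ⇑Q)) (conjPOmega ⇑Q g) = 1 ∨
      Cfsg.splitClassCount ((chi2 h2 hQ hex m hm).ker.map (conjPOmega ⇑Q))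
        (Cfsg.Inn (Cfsg.POmega F ⇑Q)) (conjPOmega ⇑Q g) = 2) ∧
    (negOneO Q ∈ Cfsg.Omega F ⇑Q →
      Cfsg.splitClassCount ((chi2 h2 hQ hex m hm).ker.map (conjPOmega ⇑Q))
        (Cfsg.Inn (Cfsg.POmega F ⇑Q)) (conjPOmega ⇑Q g) = 2) := by
  have hM := ker_psi1_eq' h2 hQ hn hex m hm
  have hMΓ := ker_psi1_le_chi2 h2 hQ hex m hm
  have hrel := relIndex_ker_psi1_chi2 h2 hQ hex m hm δ hδ1 hδ2
  have hNM : Oms Q ⊔ (conjPOmega ⇑Q).ker ≤ (psi1 h2 hQ hex m hm).ker := by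
    rw [hM]; exact sup_le_sup_right (Oms_le_SOs Q) _
  have hkerM : (conjPOmega ⇑Q).ker ≤ (psi1 h2 hQ hex m hm).ker := le_sup_right.trans hNM
  have hδM : δ ∉ (psi1 h2 hQ hex m hm).ker := by
    intro h
    exact hδ1 ((mem_ker_psi1_iff h2 hQ hex m hm δ).1 h).1
  have hK : Cfsg.Inn (Cfsg.POmega F ⇑Q) = (Oms Q ⊔ (conjPOmega ⇑Q).ker).map (conjPOmega ⇑Q) := by
    rw [map_sup_ker_eq, ← inn_eq']
  have hKH : Cfsg.Inn (Cfsg.POmega F ⇑Q) ≤ (chi2 h2 hQ hex m hm).ker.map (conjPOmega ⇑Q) := by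
    rw [hK]; exact Subgroup.map_mono (hNM.trans hMΓ)
  have hrelmap : ((psi1 h2 hQ hex m hm).ker.map (conjPOmega ⇑Q)).relIndex
      ((chi2 h2 hQ hex m hm).ker.map (conjPOmega ⇑Q)) = 2 := by
    rw [Subgroup.relIndex_map_map, sup_eq_left.2 hkerM, sup_eq_left.2 (hkerM.trans hMΓ), hrel]
  rw [splitClassCount_eq_relIndex _ _ hKH]
  have main : negOneO Q ∈ Cfsg.Omega F ⇑Q →
      (Cfsg.Inn (Cfsg.POmega F ⇑Q) ⊔ (Subgroup.centralizer {conjPOmega ⇑Q g} ⊓
        (chi2 h2 hQ hex m hm).ker.map (conjPOmega ⇑Q))).relIndex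
        ((chi2 h2 hQ hex m hm).ker.map (conjPOmega ⇑Q)) = 2 := by
    intro hneg
    have hrelN : (Oms Q ⊔ (conjPOmega ⇑Q).ker).relIndex (psi1 h2 hQ hex m hm).ker = 2 := by
      rw [hM]; exact relIndex_sup_ker h2 Q hQ hn hneg
    have hinf := sup_ker_inf_SOs h2 Q hQ hn hneg
    -- the scalar
    obtain ⟨μ, hμ⟩ : ∃ μ : F, ((g : GL ι F) : Matrix ι ι F) * ((g : GL ι F) : Matrix ι ι F)
        = μ • (1 : Matrix ι ι F) := by
      have h1 : g * g ∈ (conjPOmega ⇑Q).ker := by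
        rw [MonoidHom.mem_ker, map_mul, ← pow_two, ← hord, pow_orderOf_eq_one]
      obtain ⟨μ, hμ⟩ := (mem_ker_conjPOmega_iff h2 Q hQ hn _).1 h1
      exact ⟨μ, by rw [← hμ]; simp⟩
    obtain ⟨s, hs1, hs2, hs3⟩ := exists_commuting_not_Omega h2 Q hQ (by omega) hex m hm g hμ hχ
    have hsM : ofO Q s ∈ (psi1 h2 hQ hex m hm).ker := by
      rw [hM]; exact Subgroup.mem_sup_left (ofO_mem_SOs.2 hs1)
    have hsN : ofO Q s ∉ Oms Q ⊔ (conjPOmega ⇑Q).ker := by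
      intro h
      have : ofO Q s ∈ Oms Q := by
        rw [← hinf]; exact ⟨h, ofO_mem_SOs.2 hs1⟩
      exact hs2 (ofO_mem_Oms.1 this)
    -- commutativity of the quotient
    have hcomm : ∀ a b, a ∈ (chi2 h2 hQ hex m hm).ker → b ∈ (chi2 h2 hQ hex m hm).ker →
        a * b * a⁻¹ * b⁻¹ ∈ Oms Q ⊔ (conjPOmega ⇑Q).ker := by
      intro a b ha hb
      by_cases hδδ : δ * δ ∈ Oms Q ⊔ (conjPOmega ⇑Q).ker
      · obtain ⟨e⟩ := quot_klein _ _ _ hNM hMΓ hrel hrelN δ hδ2 hδM hδδ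
        exact comm_mem_of_equiv _ _ e ha hb
      · obtain ⟨e⟩ := quot_four _ _ _ hNM hMΓ hrel hrelN δ hδ2 hδδ
        exact comm_mem_of_equiv _ _ e ha hb
    have hL : Cfsg.Inn (Cfsg.POmega F ⇑Q) ⊔ (Subgroup.centralizer {conjPOmega ⇑Q g} ⊓
        (chi2 h2 hQ hex m hm).ker.map (conjPOmega ⇑Q))
        = (psi1 h2 hQ hex m hm).ker.map (conjPOmega ⇑Q) := by
      apply le_antisymm
      · apply sup_le
        · rw [hK]; exact Subgroup.map_mono hNM
        · rintro y ⟨hy1, h, hh, rfl⟩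
          refine ⟨h, ?_, rfl⟩
          by_contra hhM
          have hy1' := Subgroup.mem_centralizer_singleton_iff.1 hy1
          have hsqh : ¬ IsSquare (multF Q h : F) := by
            intro hsq
            apply hhM
            exact (mem_ker_psi1_iff h2 hQ hex m hm h).2
              ⟨hsq, (chi2_eq_one_iff h2 hQ hex m hm h).1 hh⟩
          obtain ⟨v, hv⟩ := hex
          set R := ofO Q (reflElt Q v) with hR
          have hRR : R * R = 1 := by rw [hR, ← map_mul, reflElt_mul_self, map_one]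
          have hRinv : R⁻¹ = R := inv_eq_of_mul_eq_one_left hRR
          have hχR : chi2 h2 hQ ⟨v, hv⟩ m hm R = -1 := by
            have := psi1_reflElt h2 hQ ⟨v, hv⟩ m hm hv
            rw [psi1, MonoidHom.prod_apply, Prod.mk.injEq] at this
            exact this.2
          have hχg : chi2 h2 hQ ⟨v, hv⟩ m hm g = -1 := by
            rcases Int.units_eq_one_or (chi2 h2 hQ ⟨v, hv⟩ m hm g) with h' | h'
            · exact absurd h' hχ
            · exact h'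
          have hg1 : R * g ∈ (chi2 h2 hQ ⟨v, hv⟩ m hm).ker := by
            rw [MonoidHom.mem_ker, map_mul, hχR, hχg]; rfl
          have c1 := hcomm h (R * g) hh hg1
          have c2 : h * g * h⁻¹ * g⁻¹ ∈ Oms Q ⊔ (conjPOmega ⇑Q).ker := by
            apply Subgroup.mem_sup_right
            rw [MonoidHom.mem_ker, map_mul, map_mul, map_mul, map_inv, map_inv, hy1']
            group
          have c3 : h * R * h⁻¹ * R⁻¹ ∈ Oms Q ⊔ (conjPOmega ⇑Q).ker := by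
            have e : h * R * h⁻¹ * R⁻¹ = (h * (R * g) * h⁻¹ * (R * g)⁻¹) *
                (R * (h * g * h⁻¹ * g⁻¹)⁻¹ * R⁻¹) := by group
            rw [e]
            exact mul_mem c1 (Subgroup.Normal.conj_mem inferInstance _ (inv_mem c2) _)
          rw [hRinv, hR, conj_ofO_reflElt, ← map_mul] at c3
          have hv' : Q (((h : GL ι F) : Matrix ι ι F) *ᵥ v) ≠ 0 := by
            rw [multF_spec]; exact mul_ne_zero (Units.ne_zero _) hv
          obtain ⟨p1, p2⟩ := pair_props h2 Q hQ hv' hv (by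
            rw [multF_spec]
            rintro ⟨r, hr⟩
            apply hsqh
            refine ⟨r / Q v, ?_⟩
            field_simp
            linear_combination hr)
          apply p2
          rw [← ofO_mem_Oms, ← hinf]
          exact ⟨c3, ofO_mem_SOs.2 p1⟩
      · rintro _ ⟨h, hh, rfl⟩
        by_cases hhN : h ∈ Oms Q ⊔ (conjPOmega ⇑Q).ker
        · apply Subgroup.mem_sup_left
          rw [hK]; exact ⟨h, hhN, rfl⟩
        · have h3 : h * ofO Q s ∈ Oms Q ⊔ (conjPOmega ⇑Q).ker := by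
            rw [mul_mem_iff_of_relIndex_two hrelN hh hsM]
            tauto
          have e : h = (h * ofO Q s) * (ofO Q s)⁻¹ := by group
          rw [e, map_mul]
          refine mul_mem (Subgroup.mem_sup_left ?_) (Subgroup.mem_sup_right ?_)
          · rw [hK]; exact ⟨_, h3, rfl⟩
          · rw [map_inv]
            refine inv_mem (Subgroup.mem_inf.2 ⟨?_, ⟨_, hMΓ hsM, rfl⟩⟩)
            rw [Subgroup.mem_centralizer_singleton_iff, ← map_mul, ← map_mul, hs3]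
    rw [hL, hrelmap]
  refine ⟨?_, main⟩
  by_cases hneg : negOneO Q ∈ Cfsg.Omega F ⇑Q
  · exact Or.inr (main hneg)
  · have hN : Oms Q ⊔ (conjPOmega ⇑Q).ker = (psi1 h2 hQ hex m hm).ker := by
      rw [hM]
      exact le_antisymm (sup_le_sup_right (Oms_le_SOs Q) _)
        (sup_le (SOs_le_sup_ker h2 Q hQ hn m hm hneg) le_sup_right)
    have hdvd := Subgroup.relIndex_dvd_of_le_left ((chi2 h2 hQ hex m hm).ker.map (conjPOmega ⇑Q))
      (le_sup_left : Cfsg.Inn (Cfsg.POmega F ⇑Q) ≤ Cfsg.Inn (Cfsg.POmega F ⇑Q) ⊔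
        (Subgroup.centralizer {conjPOmega ⇑Q g} ⊓
          (chi2 h2 hQ hex m hm).ker.map (conjPOmega ⇑Q)))
    conv at hdvd => rhs; rw [hK, hN, hrelmap]
    exact (Nat.dvd_prime Nat.prime_two).1 hdvd

end Cfsg.Agent.Lib.Helper44
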