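import Cfsg.Agent.Lib.Helper44.Avg

/-!
# The Cayley transform in a ring with an anti-involution
-/

set_option autoImplicit false

namespace Cfsg.Agent.Lib.Helper44

section

variable {M : Type*} [Ring M]

/-- the Cayley transform. -/
noncomputable def cay (x : M) : M := (1 - x) * Ring.inverse (1 + x)

theorem ringInverse_eq {y z : M} (h1 : y * z = 1) (h2 : z * y = 1) : Ring.inverse y = z :=
  Ring.inverse_unit ⟨y, z, h1, h2⟩

theorem commute_ringInverse {c y : M} (hy : IsUnit y) (h : Commute c y) :
    Commute c (Ring.inverse y) := by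
  show c * Ring.inverse y = Ring.inverse y * c
  calc c * Ring.inverse y = Ring.inverse y * (y * c) * Ring.inverse y := by
        rw [← mul_assoc, Ring.inverse_mul_cancel _ hy, one_mul]
    _ = Ring.inverse y * c * (y * Ring.inverse y) := by
        rw [← h.eq]; simp only [mul_assoc]
    _ = Ring.inverse y * c := by rw [Ring.mul_inverse_cancel _ hy, mul_one]

theorem commute_cay {c x : M} (hx : IsUnit (1 + x)) (h : Commute c x) : Commute c (cay x) :=
  ((Commute.one_right c).sub_right h).mul_right
    (commute_ringInverse hx ((Commute.one_right c).add_right h))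

theorem one_add_cay {x : M} (hx : IsUnit (1 + x)) : 1 + cay x = 2 * Ring.inverse (1 + x) := by
  unfold cay
  nth_rewrite 1 [← Ring.mul_inverse_cancel _ hx]
  rw [← add_mul]
  congr 1
  rw [one_add_one_eq_two.symm]
  abel

theorem one_sub_cay {x : M} (hx : IsUnit (1 + x)) :
    1 - cay x = 2 * (x * Ring.inverse (1 + x)) := by
  unfold cay
  nth_rewrite 1 [← Ring.mul_inverse_cancel _ hx]
  rw [← sub_mul, ← mul_assoc]
  congr 1
  rw [two_mul]
  abel

variable {t : M} (ht : 2 * t = 1) (htc : ∀ y : M, Commute t y)

include ht htc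

theorem inverse_one_add_cay {x : M} (hx : IsUnit (1 + x)) :
    (1 + cay x) * (t * (1 + x)) = 1 ∧ (t * (1 + x)) * (1 + cay x) = 1 := by
  rw [one_add_cay hx]
  have h2c : ∀ y : M, Commute (2 : M) y := fun y => by
    have := (Nat.cast_commute 2 y)
    simpa using this
  constructor
  · calc 2 * Ring.inverse (1 + x) * (t * (1 + x))
        = 2 * (Ring.inverse (1 + x) * t) * (1 + x) := by simp only [mul_assoc]
      _ = 2 * (t * Ring.inverse (1 + x)) * (1 + x) := by rw [(htc _).eq]
      _ = (2 * t) * (Ring.inverse (1 + x) * (1 + x)) := by simp only [mul_assoc]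
      _ = 1 := by rw [ht, Ring.inverse_mul_cancel _ hx, mul_one]
  · calc t * (1 + x) * (2 * Ring.inverse (1 + x))
        = t * ((1 + x) * 2) * Ring.inverse (1 + x) := by simp only [mul_assoc]
      _ = t * (2 * (1 + x)) * Ring.inverse (1 + x) := by rw [(h2c _).eq]
      _ = (t * 2) * ((1 + x) * Ring.inverse (1 + x)) := by simp only [mul_assoc]
      _ = 1 := by rw [(htc 2).eq, ht, Ring.mul_inverse_cancel _ hx, mul_one]

theorem isUnit_one_add_cay {x : M} (hx : IsUnit (1 + x)) : IsUnit (1 + cay x) :=
  ⟨⟨_, _, (inverse_one_add_cay ht htc hx).1, (inverse_one_add_cay ht htc hx).2⟩, rfl⟩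

theorem cay_cay {x : M} (hx : IsUnit (1 + x)) : cay (cay x) = x := by
  have h1 := inverse_one_add_cay ht htc hx
  have e : cay (cay x) = (1 - cay x) * Ring.inverse (1 + cay x) := rfl
  rw [e, ringInverse_eq h1.1 h1.2, one_sub_cay hx]
  calc 2 * (x * Ring.inverse (1 + x)) * (t * (1 + x))
      = 2 * x * (Ring.inverse (1 + x) * t) * (1 + x) := by simp only [mul_assoc]
    _ = 2 * x * (t * Ring.inverse (1 + x)) * (1 + x) := by rw [(htc _).eq]
    _ = 2 * (x * t) * (Ring.inverse (1 + x) * (1 + x)) := by simp only [mul_assoc]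
    _ = x := by rw [← (htc x).eq, ← mul_assoc 2 t x, ht, one_mul, Ring.inverse_mul_cancel _ hx, mul_one]

theorem isUnit_one_add_of_unip {a : M} (ha : IsNilpotent (a - 1)) : IsUnit (1 + a) := by
  have h2 : IsUnit (2 : M) := ⟨⟨2, t, ht, by rw [(htc 2).eq, ht]⟩, rfl⟩
  have h2c : Commute (a - 1) (2 : M) := by
    have := (Nat.cast_commute 2 (a - 1)).symm
    simpa using this
  have := ha.isUnit_add_left_of_commute h2 h2c
  have e : (2 : M) + (a - 1) = 1 + a := by
    rw [← one_add_one_eq_two]; abel
  rwa [e] at this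

omit ht htc

theorem isNilpotent_cay_sub_one {x : M} (hx : IsNilpotent x) : IsNilpotent (cay x - 1) := by
  have hu := hx.isUnit_one_add
  have e : cay x - 1 = x * (-(2 * Ring.inverse (1 + x))) := by
    have h1 := one_sub_cay hu
    have h2c : Commute (2 : M) x := by
      have := (Nat.cast_commute 2 x)
      simpa using this
    rw [← neg_sub, h1, mul_neg, ← mul_assoc, h2c.eq, mul_assoc]
  rw [e]
  apply Commute.isNilpotent_mul_right _ hx
  apply Commute.neg_right
  apply Commute.mul_right
  · have := (Nat.cast_commute 2 x).symm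
    simpa using this
  · exact commute_ringInverse hu ((Commute.one_right x).add_right (Commute.refl x))

theorem isNilpotent_cay {a : M} (hu : IsUnit (1 + a)) (ha : IsNilpotent (a - 1)) :
    IsNilpotent (cay a) := by
  unfold cay
  have h1 : IsNilpotent (1 - a) := by
    rw [← neg_sub]; exact ha.neg
  apply Commute.isNilpotent_mul_right _ h1
  apply commute_ringInverse hu
  exact ((Commute.one_left _).sub_left ((Commute.one_right a).add_right (Commute.refl a)))

variable {d : M → M} (hd : IsDagger d)

include hd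

theorem dagger_ringInverse {y : M} (hy : IsUnit y) : d (Ring.inverse y) = Ring.inverse (d y) := by
  symm
  apply ringInverse_eq
  · rw [← hd.mul, Ring.inverse_mul_cancel _ hy, hd.one]
  · rw [← hd.mul, Ring.mul_inverse_cancel _ hy, hd.one]

theorem dagger_cay_mul {x : M} (hx : IsNilpotent x) (hdx : d x = -x) : d (cay x) * cay x = 1 := by
  have hu := hx.isUnit_one_add
  have hu' := hx.isUnit_one_sub
  unfold cay
  rw [hd.mul, dagger_ringInverse hd hu, hd.add, hd.sub, hd.one, hdx, sub_neg_eq_add,
    ← sub_eq_add_neg]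
  calc Ring.inverse (1 - x) * (1 + x) * ((1 - x) * Ring.inverse (1 + x))
      = Ring.inverse (1 - x) * ((1 + x) * (1 - x)) * Ring.inverse (1 + x) := by
        simp only [mul_assoc]
    _ = Ring.inverse (1 - x) * ((1 - x) * (1 + x)) * Ring.inverse (1 + x) := by
        congr 2
        simp only [mul_sub, add_mul, sub_mul, mul_add, one_mul, mul_one]
        abel
    _ = (Ring.inverse (1 - x) * (1 - x)) * ((1 + x) * Ring.inverse (1 + x)) := by
        simp only [mul_assoc]
    _ = 1 := by rw [Ring.inverse_mul_cancel _ hu', Ring.mul_inverse_cancel _ hu, one_mul]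

theorem dagger_cay {a : M} (hu : IsUnit (1 + a)) (h1 : d a * a = 1) (h2 : a * d a = 1) :
    d (cay a) = -cay a := by
  have hca : Commute a (Ring.inverse (1 + a)) :=
    commute_ringInverse hu ((Commute.one_right a).add_right (Commute.refl a))
  have hcda : Commute (d a) (Ring.inverse (1 + a)) := by
    apply commute_ringInverse hu
    apply (Commute.one_right _).add_right
    show d a * a = a * d a
    rw [h1, h2]
  have hinv : Ring.inverse (1 + d a) = a * Ring.inverse (1 + a) := by
    apply ringInverse_eq
    · rw [← mul_assoc, add_mul, one_mul, h1, add_comm, Ring.mul_inverse_cancel _ hu]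
    · rw [hca.eq, mul_assoc, mul_add, mul_one, h2, add_comm a 1, Ring.inverse_mul_cancel _ hu]
  unfold cay
  rw [hd.mul, dagger_ringInverse hd hu, hd.add, hd.sub, hd.one, hinv, hca.eq, mul_assoc, mul_sub,
    mul_one, h2]
  have hc2 : Commute (a - 1) (Ring.inverse (1 + a)) := hca.sub_left (Commute.one_left _)
  rw [← hc2.eq, ← neg_mul, neg_sub]

end

end Cfsg.Agent.Lib.Helper44
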