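import Mathlib

set_option autoImplicit false

namespace Cfsg.Agent.Lib.Helper44

theorem mul_mem_iff_of_relIndex_two {Γ : Type*} [Group Γ] {H G : Subgroup Γ} (h : H.relIndex G = 2)
    {a b : Γ} (ha : a ∈ G) (hb : b ∈ G) : a * b ∈ H ↔ (a ∈ H ↔ b ∈ H) := by
  have := Subgroup.mul_mem_iff_of_index_two (H := H.subgroupOf G) h (a := ⟨a, ha⟩) (b := ⟨b, hb⟩)
  simpa [Subgroup.mem_subgroupOf] using this

/-- a cyclic quotient of order `2` or `4` is generated by any element outside the subgroup of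
index two -/
theorem exists_mul_pow_mem {Γ : Type*} [Group Γ] (N M Γ₀ : Subgroup Γ) [hN : N.Normal]
    [hM : M.Normal] (hNM : N ≤ M) (hMΓ : M ≤ Γ₀) (h1 : M.relIndex Γ₀ = 2)
    (h2 : N = M ∨ N.relIndex M = 2) (δ₁ : Γ) (hδ₁ : δ₁ ∈ Γ₀) (hδ₁M : δ₁ ∉ M)
    (hsq : N ≠ M → δ₁ * δ₁ ∉ N) (δ : Γ) (hδ : δ ∈ Γ₀) (hδM : δ ∉ M) (k : Γ) (hk : k ∈ Γ₀) :
    ∃ i : ℕ, k * δ ^ i ∈ N := by
  have step2 : ∀ k₁ ∈ M, ∃ i : ℕ, k₁ * δ ^ i ∈ N := by
    intro k₁ hk₁
    rcases h2 with h2 | h2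
    · exact ⟨0, by rw [h2]; simpa using hk₁⟩
    · by_cases hk₁N : k₁ ∈ N
      · exact ⟨0, by simpa using hk₁N⟩
      · have hne : N ≠ M := by
          intro h
          rw [h, Subgroup.relIndex_self] at h2
          omega
        have hδδM : δ * δ ∈ M := (mul_mem_iff_of_relIndex_two h1 hδ hδ).2 Iff.rfl
        have hδδN : δ * δ ∉ N := by
          intro hc
          apply hsq hne
          have hμ : δ⁻¹ * δ₁ ∈ M := by
            rw [mul_mem_iff_of_relIndex_two h1 (inv_mem hδ) hδ₁, inv_mem_iff]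
            exact ⟨fun h => absurd h hδM, fun h => absurd h hδ₁M⟩
          have hμ' : δ⁻¹ * (δ⁻¹ * δ₁) * δ ∈ M := by
            have := hM.conj_mem _ hμ δ⁻¹
            simpa using this
          have h3 : δ⁻¹ * (δ⁻¹ * δ₁) * δ * (δ⁻¹ * δ₁) ∈ N := by
            rw [mul_mem_iff_of_relIndex_two h2 hμ' hμ]
            constructor
            · intro h
              have := hN.conj_mem _ h δ
              simpa [mul_assoc] using this
            · intro h
              have := hN.conj_mem _ h δ⁻¹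
              simpa using this
          have e : δ₁ * δ₁ = (δ * δ) * (δ⁻¹ * (δ⁻¹ * δ₁) * δ * (δ⁻¹ * δ₁)) := by group
          rw [e]
          exact mul_mem hc h3
        refine ⟨2, ?_⟩
        rw [pow_two, mul_mem_iff_of_relIndex_two h2 hk₁ hδδM]
        exact ⟨fun h => absurd h hk₁N, fun h => absurd h hδδN⟩
  by_cases hkM : k ∈ M
  · exact step2 k hkM
  · have h3 : k * δ ∈ M := by
      rw [mul_mem_iff_of_relIndex_two h1 hk hδ]
      exact ⟨fun h => absurd h hkM, fun h => absurd h hδM⟩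
    obtain ⟨i, hi⟩ := step2 _ h3
    exact ⟨i + 1, by rw [pow_succ', ← mul_assoc]; exact hi⟩

end Cfsg.Agent.Lib.Helper44
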