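import Cfsg.Agent.Lib.Helper44.SpConj

set_option autoImplicit false

namespace Cfsg.Agent.Lib.Helper44

open Matrix Module

theorem det_of_symp_simil_matrix {F : Type*} [Field F] (n : ℕ)
    (H : Matrix (Fin n ⊕ Fin n) (Fin n ⊕ Fin n) F) (c : F) (hc : c ≠ 0)
    (h : ∀ u v, (H *ᵥ u) ⬝ᵥ (J (Fin n) F *ᵥ (H *ᵥ v)) = c * (u ⬝ᵥ (J (Fin n) F *ᵥ v))) :
    H.det = c ^ n := by
  set D : Matrix (Fin n ⊕ Fin n) (Fin n ⊕ Fin n) F :=
    Matrix.diagonal (Sum.elim (fun _ => c⁻¹) (fun _ => 1)) with hD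
  have h1 : ∀ u v, (D *ᵥ u) ⬝ᵥ (J (Fin n) F *ᵥ (D *ᵥ v)) = c⁻¹ * (u ⬝ᵥ (J (Fin n) F *ᵥ v)) := by
    intro u v
    rw [Cfsg.Agent.Lib.Helper45.dotProduct_J_mulVec, Cfsg.Agent.Lib.Helper45.dotProduct_J_mulVec]
    simp only [hD, Matrix.mulVec_diagonal, Sum.elim_inl, Sum.elim_inr, one_mul]
    rw [mul_sub, Finset.mul_sum, Finset.mul_sum]
    congr 1 <;> refine Finset.sum_congr rfl fun i _ => ?_ <;> ring
  have h2 : H * D ∈ Matrix.symplecticGroup (Fin n) F := by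
    rw [Cfsg.Agent.Lib.Helper45.mem_symplecticGroup_iff_form]
    intro u v
    rw [← Matrix.mulVec_mulVec, ← Matrix.mulVec_mulVec, h, h1, ← mul_assoc, mul_inv_cancel₀ hc,
      one_mul]
  have h3 := SymplecticGroup.det_eq_one h2
  rw [Matrix.det_mul, hD, Matrix.det_diagonal, Fintype.prod_sum_type] at h3
  simp only [Sum.elim_inl, Sum.elim_inr, Finset.prod_const, Finset.card_univ, Fintype.card_fin,
    one_pow, mul_one, inv_pow] at h3
  exact eq_of_mul_inv_eq_one h3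

theorem det_of_alt_simil {F V : Type*} [Field F] [AddCommGroup V] [Module F V]
    [FiniteDimensional F V] (β : LinearMap.BilinForm F V) (hβ : β.Nondegenerate) (halt : β.IsAlt)
    (n : ℕ) (hn : finrank F V = 2 * n) (h : V →ₗ[F] V) (c : F) (hc : c ≠ 0)
    (hh : ∀ x y, β (h x) (h y) = c * β x y) : LinearMap.det h = c ^ n := by
  obtain ⟨φ, hφ⟩ := exists_alt_isometry β (Cfsg.Agent.Lib.Helper94.sympB n F) hβ
    (Cfsg.Agent.Lib.Helper94.sympB_nondegenerate n) halt (Cfsg.Agent.Lib.Helper94.sympB_isAlt n)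
    (by rw [hn, Module.finrank_fintype_fun_eq_card]; simp; omega)
  have hB : ∀ u v, Cfsg.Agent.Lib.Helper94.sympB n F u v =
      u ⬝ᵥ (Matrix.J (Fin n) F).mulVec v := by
    intro u v
    simp [Cfsg.Agent.Lib.Helper94.sympB, Matrix.toBilin'_apply']
  rw [← LinearMap.det_conj h φ, ← LinearMap.det_toMatrix']
  apply det_of_symp_simil_matrix n _ c hc
  intro u v
  rw [LinearMap.toMatrix'_mulVec, LinearMap.toMatrix'_mulVec, ← hB, ← hB]
  simp only [LinearMap.comp_apply, LinearEquiv.coe_coe]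
  rw [hφ, hh, ← hφ, LinearEquiv.apply_symm_apply, LinearEquiv.apply_symm_apply]

end Cfsg.Agent.Lib.Helper44
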