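import Cfsg.Agent.Lib.Helper44.Inndiag
import Cfsg.Agent.Lib.Helper44.InvolChar2
import Cfsg.Agent.Lib.Helper44.SympSimil
import Cfsg.Agent.Lib.Helper44.FusionGrp

set_option autoImplicit false

namespace Cfsg.Agent.Lib.Helper44

open QuadraticMap Module Matrix

universe u

variable {F : Type u} [Field F] {ι : Type} [Fintype ι] [DecidableEq ι]

theorem multF_scalSimil {Q : QuadraticForm F (ι → F)} (hex : ∃ v, Q v ≠ 0) (t : Fˣ) :
    multF Q (scalSimil Q t) = t * t := by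
  apply Units.ext
  rw [multF_of_scalar hex _ (t : F) (scalSimil_coe Q t), Units.val_mul]

theorem scalSimil_mem_ker [Fintype F] (h2 : (2 : F) ≠ 0) (Q : QuadraticForm F (ι → F))
    (hQ : (polarBilin Q).Nondegenerate) (hn : 5 ≤ Fintype.card ι) (t : Fˣ) :
    scalSimil Q t ∈ (conjPOmega ⇑Q).ker := by
  rw [mem_ker_conjPOmega_iff h2 Q hQ hn]
  exact ⟨t, scalSimil_coe Q t⟩

theorem exists_ofO_of_multF_eq_one (Q : QuadraticForm F (ι → F))
    (g : ↥(Cfsg.Geo.quadSimilarityGroup ⇑Q)) (hg : multF Q g = 1) :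
    ∃ s : ↥(Cfsg.isometryGroup F ⇑Q), ofO Q s = g := by
  refine ⟨⟨g.1, mem_isometryGroup.2 fun v => ?_⟩, Subtype.ext rfl⟩
  rw [multF_spec, hg]; simp

/-- an automorphism of odd order induced by a similarity is induced by an isometry of the
same order -/
theorem exists_isometry_of_order [Fintype F] (h2 : (2 : F) ≠ 0) (Q : QuadraticForm F (ι → F))
    (hQ : (polarBilin Q).Nondegenerate) (hn : 5 ≤ Fintype.card ι) (hex : ∃ v, Q v ≠ 0)
    (g : ↥(Cfsg.Geo.quadSimilarityGroup ⇑Q)) (r : ℕ) (hr : Odd r)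
    (hg : (conjPOmega ⇑Q g) ^ r = 1) :
    ∃ ω : ↥(Cfsg.isometryGroup F ⇑Q), conjPOmega ⇑Q (ofO Q ω) = conjPOmega ⇑Q g ∧ ω ^ r = 1 := by
  have h1 : g ^ r ∈ (conjPOmega ⇑Q).ker := by rw [MonoidHom.mem_ker, map_pow, hg]
  obtain ⟨μ, hμ⟩ := (mem_ker_conjPOmega_iff h2 Q hQ hn _).1 h1
  have h3 : ((multF Q g : Fˣ) : F) ^ r = μ * μ := by
    rw [← multF_of_scalar hex _ μ hμ, ← multHom_apply Q hex, ← multHom_apply Q hex, map_pow,
      Units.val_pow_eq_pow_val]
  have hμ0 : μ ≠ 0 := by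
    intro h
    rw [h, mul_zero] at h3
    exact (pow_ne_zero r (multF Q g).ne_zero) h3
  obtain ⟨l, hl⟩ := hr
  set lam : F := ((multF Q g : Fˣ) : F) with hlam
  have hlam0 : lam ≠ 0 := (multF Q g).ne_zero
  let t : Fˣ := Units.mk0 (μ⁻¹ * lam ^ l) (mul_ne_zero (inv_ne_zero hμ0) (pow_ne_zero l hlam0))
  have ht : (t : F) = μ⁻¹ * lam ^ l := rfl
  have htt : lam * ((t : F) * t) = 1 := by
    rw [ht]
    have : lam * (μ⁻¹ * lam ^ l * (μ⁻¹ * lam ^ l)) = lam ^ r * (μ * μ)⁻¹ := by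
      rw [hl]; field_simp; ring
    rw [this, h3, mul_inv_cancel₀ (mul_ne_zero hμ0 hμ0)]
  have hmul : multF Q (g * scalSimil Q t) = 1 := by
    rw [← multHom_apply Q hex, map_mul, multHom_apply, multHom_apply, multF_scalSimil hex]
    apply Units.ext
    rw [Units.val_mul, Units.val_mul, Units.val_one]
    exact htt
  obtain ⟨ω, hω⟩ := exists_ofO_of_multF_eq_one Q _ hmul
  refine ⟨ω, ?_, ?_⟩
  · rw [hω, map_mul, (MonoidHom.mem_ker).1 (scalSimil_mem_ker h2 Q hQ hn t), mul_one]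
  · apply isometryGroup_ext
    have e1 : ((ω : GL ι F) : Matrix ι ι F) = ((g : GL ι F) : Matrix ι ι F) * ((t : F) • 1) := by
      rw [← ofO_coe, hω, Subgroup.coe_mul, Units.val_mul, scalSimil_coe]
    have e2 : (((g ^ r : ↥(Cfsg.Geo.quadSimilarityGroup ⇑Q)) : GL ι F) : Matrix ι ι F) =
        ((g : GL ι F) : Matrix ι ι F) ^ r := by simp
    rw [Subgroup.coe_pow, Units.val_pow_eq_pow_val, e1, Commute.mul_pow
      (by change _ * _ = _ * _; simp), ← e2, hμ, smul_pow, one_pow]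
    simp only [Algebra.mul_smul_comm, mul_one, smul_smul, OneMemClass.coe_one, Units.val_one]
    have : (t : F) ^ r * μ = 1 := by
      have h4 : (t : F) ^ r = t * ((t : F) * t) ^ l := by rw [hl]; ring
      have h5 : (t : F) * t = lam⁻¹ := eq_inv_of_mul_eq_one_right htt
      rw [h4, h5, ht, inv_pow]
      field_simp
    rw [this, one_smul]

/-- conjugacy in `O(Q)` from conjugacy in `GL`, for elements of odd order prime to the
characteristic -/
theorem isometryGroup_conj_of_gl [Finite F] (Q : QuadraticForm F (ι → F))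
    (hQ : (polarBilin Q).Nondegenerate) (A B : ↥(Cfsg.isometryGroup F ⇑Q)) (c : GL ι F)
    (hc : c * (A : GL ι F) = (B : GL ι F) * c) (j k : ℕ) (hk : Odd k)
    (hjk : (j : F) * (k : F) = 1) (hAk : A ^ k = 1) :
    ∃ h : ↥(Cfsg.isometryGroup F ⇑Q), h * A = B * h := by
  let T := Matrix.toLinAlgEquiv' (R := F) (n := ι)
  obtain ⟨g, hg1, hg2⟩ := orth_conj Q hQ
    (T ((A : GL ι F) : Matrix ι ι F)) (T ((B : GL ι F) : Matrix ι ι F))
    (T (c : Matrix ι ι F)) (T ((c⁻¹ : GL ι F) : Matrix ι ι F))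
    (fun v => by
      rw [Matrix.toLinAlgEquiv'_apply]
      exact mem_isometryGroup.1 A.2 v)
    (fun v => by
      rw [Matrix.toLinAlgEquiv'_apply]
      exact mem_isometryGroup.1 B.2 v)
    j k hk hjk
    (by
      rw [← map_pow, ← Units.val_pow_eq_pow_val, ← Subgroup.coe_pow, hAk]
      simp)
    (by rw [← map_mul, Units.mul_inv, map_one])
    (by rw [← map_mul, Units.inv_mul, map_one])
    (by rw [← map_mul, ← map_mul, ← Units.val_mul, ← Units.val_mul, hc])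
  refine ⟨(isoEquiv Q).symm ⟨g, hg1⟩, ?_⟩
  apply (isoEquiv Q).injective
  rw [map_mul, map_mul, MulEquiv.apply_symm_apply]
  apply Subtype.ext
  ext1 v
  change g ((isoEquiv Q A : (ι → F) ≃ₗ[F] (ι → F)) v) =
    (isoEquiv Q B : (ι → F) ≃ₗ[F] (ι → F)) (g v)
  rw [isoEquiv_apply, isoEquiv_apply]
  have := hg2 v
  rwa [Matrix.toLinAlgEquiv'_apply, Matrix.toLinAlgEquiv'_apply] at this

/-- a similarity with prescribed multiplier commuting with a given isometry of odd order -/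
theorem exists_commuting_simil [Finite F] (Q : QuadraticForm F (ι → F))
    (hQ : (polarBilin Q).Nondegenerate) (hex : ∃ v, Q v ≠ 0) (ω : ↥(Cfsg.isometryGroup F ⇑Q))
    (j k : ℕ) (hk : Odd k) (hjk : (j : F) * (k : F) = 1) (hωk : ω ^ k = 1)
    (δ₁ : ↥(Cfsg.Geo.quadSimilarityGroup ⇑Q)) :
    ∃ δ : ↥(Cfsg.Geo.quadSimilarityGroup ⇑Q), Commute δ (ofO Q ω) ∧ multF Q δ = multF Q δ₁ := by
  obtain ⟨h, hh⟩ := isometryGroup_conj_of_gl Q hQ ω
    ⟨(δ₁ : GL ι F) * (ω : GL ι F) * (δ₁ : GL ι F)⁻¹, conj_mem_isometryGroup δ₁.2 ω.2⟩ (δ₁ : GL ι F)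
    (by simp) j k hk hjk hωk
  refine ⟨(ofO Q h)⁻¹ * δ₁, ?_, ?_⟩
  · have h1 : ofO Q h * ofO Q ω = δ₁ * ofO Q ω * δ₁⁻¹ * ofO Q h := by
      rw [← map_mul, hh, map_mul]
      congr 1
    change (ofO Q h)⁻¹ * δ₁ * ofO Q ω = ofO Q ω * ((ofO Q h)⁻¹ * δ₁)
    have h2 : ofO Q ω = (ofO Q h)⁻¹ * (δ₁ * ofO Q ω * δ₁⁻¹) * ofO Q h := by
      rw [mul_assoc, ← h1]; group
    conv_rhs => rw [h2]
    group
  · rw [← multHom_apply Q hex, map_mul, map_inv, multHom_apply, multHom_apply,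
      multF_eq_one_of_isometry hex _ h.2]
    simp

theorem avg_apply_of_fixed {V : Type*} [AddCommGroup V] [Module F V] {j k : ℕ}
    (hjk : (j : F) * (k : F) = 1) {C : Module.End F V} {v : V} (hv : C v = v) :
    avg j k C v = v := by
  have h1 : ∀ i : ℕ, (C ^ i) v = v := by
    intro i
    induction i with
    | zero => simp
    | succ i ih => rw [pow_succ, Module.End.mul_apply, hv, ih]
  unfold avg
  rw [Module.End.mul_apply, LinearMap.sum_apply, Finset.sum_congr rfl (fun i _ => h1 i),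
    Finset.sum_const, Finset.card_range, Module.End.natCast_apply, ← Nat.cast_smul_eq_nsmul F,
    ← Nat.cast_smul_eq_nsmul F k, smul_smul, hjk, one_smul]

/-- a non-singular fixed vector -/
theorem exists_nonsingular_fixed (Q : QuadraticForm F (ι → F))
    (hQ : (polarBilin Q).Nondegenerate) (ω : ↥(Cfsg.isometryGroup F ⇑Q))
    (j k : ℕ) (hjk : (j : F) * (k : F) = 1) (hωk : ω ^ k = 1)
    (v : ι → F) (hv0 : v ≠ 0) (hv : ((ω : GL ι F) : Matrix ι ι F) *ᵥ v = v) :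
    ∃ u : ι → F, ((ω : GL ι F) : Matrix ι ι F) *ᵥ u = u ∧ Q u ≠ 0 := by
  let T := Matrix.toLinAlgEquiv' (R := F) (n := ι)
  set A : Module.End F (ι → F) := T ((ω : GL ι F) : Matrix ι ι F) with hA
  have hAap : ∀ x, A x = ((ω : GL ι F) : Matrix ι ι F) *ᵥ x := fun x =>
    Matrix.toLinAlgEquiv'_apply _ _
  have hAk : A ^ k = 1 := by
    rw [hA, ← map_pow, ← Units.val_pow_eq_pow_val, ← Subgroup.coe_pow, hωk]
    simp
  have hβA : ∀ x y, polarBilin Q (A x) (A y) = polarBilin Q x y := by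
    intro x y
    simp only [polarBilin_apply_apply, QuadraticMap.polar, hAap, ← Matrix.mulVec_add,
      mem_isometryGroup.1 ω.2]
  have hε : ∀ x y, polarBilin Q x y = 1 * polarBilin Q y x := by
    intro x y
    rw [one_mul, polarBilin_apply_apply, polarBilin_apply_apply, polar_comm]
  have hsa := selfAdj_avg (polarBilin Q) hQ 1 hε (one_mul 1) hβA hjk hAk
  obtain ⟨w, hw⟩ : ∃ w, polarBilin Q v w ≠ 0 := by
    by_contra hcon
    push Not at hcon
    exact hv0 (hQ.1 v hcon)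
  have hev : avg j k A v = v := avg_apply_of_fixed hjk (by rw [hAap, hv])
  have hw' : polarBilin Q v (avg j k A w) ≠ 0 := by
    rw [← hsa, hev]; exact hw
  have hAw : ((ω : GL ι F) : Matrix ι ι F) *ᵥ (avg j k A w) = avg j k A w := by
    rw [← hAap]
    exact LinearMap.congr_fun (mul_avg (j := j) hAk) w
  by_cases h1 : Q v = 0
  · by_cases h3 : Q (avg j k A w) = 0
    · refine ⟨v + avg j k A w, by rw [Matrix.mulVec_add, hv, hAw], ?_⟩
      rw [QuadraticMap.map_add Q, h1, h3, zero_add, zero_add]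
      exact hw'
    · exact ⟨_, hAw, h3⟩
  · exact ⟨v, hv, h1⟩

/-- a similarity commuting with a fixed-point-free isometry of odd order has determinant
`(multiplier)^m` -/
theorem det_of_commute_fixedPointFree (Q : QuadraticForm F (ι → F))
    (hQ : (polarBilin Q).Nondegenerate) (m : ℕ) (hm : Fintype.card ι = 2 * m)
    (ω : ↥(Cfsg.isometryGroup F ⇑Q)) (k : ℕ) (hk : Odd k) (hωk : ω ^ k = 1)
    (hfix : ∀ v, ((ω : GL ι F) : Matrix ι ι F) *ᵥ v = v → v = 0)
    (δ : ↥(Cfsg.Geo.quadSimilarityGroup ⇑Q)) (hδ : Commute δ (ofO Q ω)) :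
    ((δ : GL ι F) : Matrix ι ι F).det = (multF Q δ : F) ^ m := by
  let T := Matrix.toLinAlgEquiv' (R := F) (n := ι)
  set A : Module.End F (ι → F) := T ((ω : GL ι F) : Matrix ι ι F) with hA
  set A' : Module.End F (ι → F) := T (((ω⁻¹ : ↥(Cfsg.isometryGroup F ⇑Q)) : GL ι F) : Matrix ι ι F)
    with hA'
  set D : Module.End F (ι → F) := T ((δ : GL ι F) : Matrix ι ι F) with hD
  have hAap : ∀ x, A x = ((ω : GL ι F) : Matrix ι ι F) *ᵥ x := fun x =>
    Matrix.toLinAlgEquiv'_apply _ _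
  have hDap : ∀ x, D x = ((δ : GL ι F) : Matrix ι ι F) *ᵥ x := fun x =>
    Matrix.toLinAlgEquiv'_apply _ _
  have hAk : A ^ k = 1 := by
    rw [hA, ← map_pow, ← Units.val_pow_eq_pow_val, ← Subgroup.coe_pow, hωk]
    simp
  have hAA' : A * A' = 1 := by
    rw [hA, hA', ← map_mul, ← Units.val_mul, ← Subgroup.coe_mul, mul_inv_cancel]
    simp
  have hA'A : A' * A = 1 := by
    rw [hA, hA', ← map_mul, ← Units.val_mul, ← Subgroup.coe_mul, inv_mul_cancel]
    simp
  have hβA : ∀ x y, polarBilin Q (A x) (A y) = polarBilin Q x y := by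
    intro x y
    simp only [polarBilin_apply_apply, QuadraticMap.polar, hAap, ← Matrix.mulVec_add,
      mem_isometryGroup.1 ω.2]
  have hDA : D * A = A * D := by
    rw [hD, hA, ← map_mul, ← map_mul, ← Units.val_mul, ← Units.val_mul]
    have := congrArg (fun z : ↥(Cfsg.Geo.quadSimilarityGroup ⇑Q) => (z : GL ι F)) hδ.eq
    simp only [Subgroup.coe_mul, ofO_coe] at this
    rw [this]
  have hDA' : D * A' = A' * D := by
    calc D * A' = A' * A * D * A' := by rw [hA'A, one_mul]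
      _ = A' * (D * A) * A' := by rw [hDA]; simp only [mul_assoc]
      _ = A' * D * (A * A') := by simp only [mul_assoc]
      _ = A' * D := by rw [hAA', mul_one]
  have hinj : Function.Injective (A - A') := by
    rw [← LinearMap.ker_eq_bot, LinearMap.ker_eq_bot']
    intro x hx
    apply hfix
    rw [← hAap]
    have h1 : A x = A' x := by
      rw [LinearMap.sub_apply] at hx
      exact sub_eq_zero.1 hx
    have h3 : (A * A) x = x := by
      rw [Module.End.mul_apply, h1, ← Module.End.mul_apply, hAA']; rfl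
    obtain ⟨l, hl⟩ := hk
    have h4 : ∀ i : ℕ, ((A * A) ^ i) x = x := by
      intro i
      induction i with
      | zero => simp
      | succ i ih => rw [pow_succ, Module.End.mul_apply, h3, ih]
    have h5 : A = (A * A) ^ (l + 1) := by
      rw [← pow_two, ← pow_mul, show 2 * (l + 1) = k + 1 by omega, pow_succ, hAk, one_mul]
    calc A x = ((A * A) ^ (l + 1)) x := by rw [← h5]
      _ = x := h4 _
  have hsurj : Function.Surjective (A - A') :=
    LinearMap.surjective_of_injective hinj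
  have hnd : (LinearMap.BilinForm.compLeft (polarBilin Q) (A - A')).Nondegenerate := by
    constructor
    · intro x hx
      have h1 : (A - A') x = 0 := hQ.1 _ (fun y => hx y)
      exact hinj (by rw [h1, map_zero])
    · intro y hy
      apply hQ.2
      intro z
      obtain ⟨x, rfl⟩ := hsurj z
      exact hy x
  have halt : (LinearMap.BilinForm.compLeft (polarBilin Q) (A - A')).IsAlt := by
    intro x
    change polarBilin Q ((A - A') x) x = 0
    have h1 : polarBilin Q (A' x) x = polarBilin Q (A x) x := by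
      rw [← hβA (A' x) x, ← Module.End.mul_apply, hAA', polarBilin_apply_apply,
        polarBilin_apply_apply, polar_comm]
      rfl
    rw [LinearMap.sub_apply, map_sub, LinearMap.sub_apply, h1, sub_self]
  have hdet := det_of_alt_simil _ hnd halt m (by rw [Module.finrank_fintype_fun_eq_card, hm]) D
    (multF Q δ : F) (multF Q δ).ne_zero (by
      intro x y
      change polarBilin Q ((A - A') (D x)) (D y) = _ * polarBilin Q ((A - A') x) y
      have h1 : (A - A') (D x) = D ((A - A') x) := by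
        have : (A - A') * D = D * (A - A') := by rw [sub_mul, mul_sub, hDA, hDA']
        exact LinearMap.congr_fun this x
      rw [h1, hDap, hDap, polarBilin_apply_apply, polarBilin_apply_apply, polar_mulVec_simil])
  rw [← hdet]
  exact (LinearMap.det_toLin' _).symm

theorem exists_commuting_simil_chi2 [Fintype F] (h2 : (2 : F) ≠ 0) {Q : QuadraticForm F (ι → F)}
    (hQ : (polarBilin Q).Nondegenerate) (hex : ∃ v, Q v ≠ 0) (m : ℕ)
    (hm : Fintype.card ι = 2 * m) (ω : ↥(Cfsg.isometryGroup F ⇑Q))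
    (j k : ℕ) (hk : Odd k) (hjk : (j : F) * (k : F) = 1) (hωk : ω ^ k = 1)
    (δ₁ : ↥(Cfsg.Geo.quadSimilarityGroup ⇑Q)) :
    ∃ δ : ↥(Cfsg.Geo.quadSimilarityGroup ⇑Q), Commute δ (ofO Q ω) ∧ multF Q δ = multF Q δ₁ ∧
      chi2 h2 hQ hex m hm δ = 1 := by
  obtain ⟨δ, hδc, hδm⟩ := exists_commuting_simil Q hQ hex ω j k hk hjk hωk δ₁
  by_cases hfix : ∀ v, ((ω : GL ι F) : Matrix ι ι F) *ᵥ v = v → v = 0
  · refine ⟨δ, hδc, hδm, ?_⟩
    rw [chi2_eq_one_iff]
    exact det_of_commute_fixedPointFree Q hQ m hm ω k hk hωk hfix δ hδc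
  · push Not at hfix
    obtain ⟨v, hv, hv0⟩ := hfix
    obtain ⟨u, hu, hQu⟩ := exists_nonsingular_fixed Q hQ ω j k hjk hωk v hv0 hv
    rcases Int.units_eq_one_or (chi2 h2 hQ hex m hm δ) with h | h
    · exact ⟨δ, hδc, hδm, h⟩
    · have h3 := psi1_reflElt h2 hQ hex m hm hQu
      have h4 : chi2 h2 hQ hex m hm (ofO Q (reflElt Q u)) = -1 := congrArg Prod.snd h3
      refine ⟨δ * ofO Q (reflElt Q u), ?_, ?_, ?_⟩
      · apply hδc.mul_left
        have h5 := reflElt_commute_of_fixed Q ω u hu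
        rw [mul_inv_eq_iff_eq_mul] at h5
        change ofO Q (reflElt Q u) * ofO Q ω = ofO Q ω * ofO Q (reflElt Q u)
        rw [← map_mul, ← map_mul, h5]
      · have hmul : multF Q (ofO Q (reflElt Q u)) = 1 :=
          multF_eq_one_of_isometry hex _ (reflElt Q u).2
        rw [← multHom_apply Q hex, map_mul, multHom_apply, multHom_apply, hmul, mul_one, hδm]
      · rw [map_mul, h, h4]; rfl

/-- similarities with square multiplier act as isometries -/
theorem exists_ofO_conj_eq [Fintype F] (h2 : (2 : F) ≠ 0) (Q : QuadraticForm F (ι → F))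
    (hQ : (polarBilin Q).Nondegenerate) (hn : 5 ≤ Fintype.card ι) (hex : ∃ v, Q v ≠ 0)
    (k : ↥(Cfsg.Geo.quadSimilarityGroup ⇑Q)) (hk : IsSquare (multF Q k : F)) :
    ∃ s : ↥(Cfsg.isometryGroup F ⇑Q), conjPOmega ⇑Q (ofO Q s) = conjPOmega ⇑Q k := by
  obtain ⟨κ, hκ⟩ := hk
  have hκ0 : κ ≠ 0 := by
    intro h
    rw [h, mul_zero] at hκ
    exact (multF Q k).ne_zero hκ
  let t : Fˣ := Units.mk0 κ⁻¹ (inv_ne_zero hκ0)
  have hmul : multF Q (k * scalSimil Q t) = 1 := by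
    rw [← multHom_apply Q hex, map_mul, multHom_apply, multHom_apply, multF_scalSimil hex]
    apply Units.ext
    rw [Units.val_mul, Units.val_mul, Units.val_one, hκ]
    change κ * κ * (κ⁻¹ * κ⁻¹) = 1
    field_simp
  obtain ⟨s, hs⟩ := exists_ofO_of_multF_eq_one Q _ hmul
  refine ⟨s, ?_⟩
  rw [hs, map_mul, (MonoidHom.mem_ker).1 (scalSimil_mem_ker h2 Q hQ hn t), mul_one]

/-- fusion of classes of semisimple elements of odd order, when `Inndiag / Inn` is cyclic -/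
theorem fusion_cyclic [Fintype F] (h2 : (2 : F) ≠ 0) (Q : QuadraticForm F (ι → F))
    (hQ : (polarBilin Q).Nondegenerate) (hn : 5 ≤ Fintype.card ι) (hex : ∃ v, Q v ≠ 0) (m : ℕ)
    (hm : Fintype.card ι = 2 * m) (δ₁ : ↥(Cfsg.Geo.quadSimilarityGroup ⇑Q))
    (hδ1 : ¬ IsSquare (multF Q δ₁ : F)) (hδ2 : δ₁ ∈ (chi2 h2 hQ hex m hm).ker)
    (hsq : negOneO Q ∈ Cfsg.Omega F ⇑Q → δ₁ * δ₁ ∉ Oms Q ⊔ (conjPOmega ⇑Q).ker)
    (x : MulAut (Cfsg.POmega F ⇑Q)) (hx : x ∈ (conjPOmega ⇑Q).range) (j r : ℕ) (hr : Odd r)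
    (hjr : (j : F) * (r : F) = 1) (hxr : x ^ r = 1) :
    (∀ k ∈ (chi2 h2 hQ hex m hm).ker, ∃ n ∈ Oms Q,
      conjPOmega ⇑Q k * x * (conjPOmega ⇑Q k)⁻¹ = conjPOmega ⇑Q n * x * (conjPOmega ⇑Q n)⁻¹) ∧
    (∀ k : ↥(Cfsg.Geo.quadSimilarityGroup ⇑Q), ∃ s : ↥(Cfsg.isometryGroup F ⇑Q),
      conjPOmega ⇑Q k * x * (conjPOmega ⇑Q k)⁻¹ =
        conjPOmega ⇑Q (ofO Q s) * x * (conjPOmega ⇑Q (ofO Q s))⁻¹) := by
  obtain ⟨g, rfl⟩ := hx
  obtain ⟨ω, hω1, hω2⟩ := exists_isometry_of_order h2 Q hQ hn hex g r hr hxr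
  rw [← hω1]
  obtain ⟨δ, hδc, hδm, hδχ⟩ := exists_commuting_simil_chi2 h2 hQ hex m hm ω j r hr hjr hω2 δ₁
  have hM := ker_psi1_eq' h2 hQ hn hex m hm
  have hMΓ := ker_psi1_le_chi2 h2 hQ hex m hm
  have hrel := relIndex_ker_psi1_chi2 h2 hQ hex m hm δ₁ hδ1 hδ2
  have hNM : Oms Q ⊔ (conjPOmega ⇑Q).ker ≤ (psi1 h2 hQ hex m hm).ker := by
    rw [hM]; exact sup_le_sup_right (Oms_le_SOs Q) _
  have hδ₁M : δ₁ ∉ (psi1 h2 hQ hex m hm).ker := by
    intro h
    exact hδ1 ((mem_ker_psi1_iff h2 hQ hex m hm δ₁).1 h).1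
  have hδM : δ ∉ (psi1 h2 hQ hex m hm).ker := by
    intro h
    apply hδ1
    rw [← hδm]
    exact ((mem_ker_psi1_iff h2 hQ hex m hm δ).1 h).1
  have hcδ : ∀ i : ℕ, conjPOmega ⇑Q (δ ^ i) * conjPOmega ⇑Q (ofO Q ω) =
      conjPOmega ⇑Q (ofO Q ω) * conjPOmega ⇑Q (δ ^ i) := by
    intro i
    rw [← map_mul, ← map_mul, (hδc.pow_left i).eq]
  constructor
  · intro k hk
    have hcase : Oms Q ⊔ (conjPOmega ⇑Q).ker = (psi1 h2 hQ hex m hm).ker ∨
        (Oms Q ⊔ (conjPOmega ⇑Q).ker).relIndex (psi1 h2 hQ hex m hm).ker = 2 := by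
      by_cases hneg : negOneO Q ∈ Cfsg.Omega F ⇑Q
      · right
        rw [hM]; exact relIndex_sup_ker h2 Q hQ hn hneg
      · left
        rw [hM]
        exact le_antisymm (sup_le_sup_right (Oms_le_SOs Q) _)
          (sup_le (SOs_le_sup_ker h2 Q hQ hn m hm hneg) le_sup_right)
    have hsq' : Oms Q ⊔ (conjPOmega ⇑Q).ker ≠ (psi1 h2 hQ hex m hm).ker →
        δ₁ * δ₁ ∉ Oms Q ⊔ (conjPOmega ⇑Q).ker := by
      intro hne
      apply hsq
      by_contra hneg
      apply hne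
      rw [hM]
      exact le_antisymm (sup_le_sup_right (Oms_le_SOs Q) _)
        (sup_le (SOs_le_sup_ker h2 Q hQ hn m hm hneg) le_sup_right)
    obtain ⟨i, hi⟩ := exists_mul_pow_mem (Oms Q ⊔ (conjPOmega ⇑Q).ker) (psi1 h2 hQ hex m hm).ker
      (chi2 h2 hQ hex m hm).ker hNM hMΓ hrel hcase δ₁ hδ2 hδ₁M hsq' δ (MonoidHom.mem_ker.2 hδχ) hδM k hk
    obtain ⟨n, hn1, z, hz, hnz⟩ := Subgroup.mem_sup_of_normal_right.1 hi
    refine ⟨n, hn1, ?_⟩
    have h5 : conjPOmega ⇑Q k = conjPOmega ⇑Q n * (conjPOmega ⇑Q (δ ^ i))⁻¹ := by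
      have h6 : conjPOmega ⇑Q (k * δ ^ i) = conjPOmega ⇑Q n := by
        rw [← hnz, map_mul, (MonoidHom.mem_ker).1 hz, mul_one]
      rw [← h6, map_mul]; group
    rw [h5]
    have h7 : (conjPOmega ⇑Q (δ ^ i))⁻¹ * conjPOmega ⇑Q (ofO Q ω) * conjPOmega ⇑Q (δ ^ i) =
        conjPOmega ⇑Q (ofO Q ω) := by
      rw [mul_assoc, ← hcδ i]; group
    calc conjPOmega ⇑Q n * (conjPOmega ⇑Q (δ ^ i))⁻¹ * conjPOmega ⇑Q (ofO Q ω) *
          (conjPOmega ⇑Q n * (conjPOmega ⇑Q (δ ^ i))⁻¹)⁻¹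
        = conjPOmega ⇑Q n * ((conjPOmega ⇑Q (δ ^ i))⁻¹ * conjPOmega ⇑Q (ofO Q ω) *
          conjPOmega ⇑Q (δ ^ i)) * (conjPOmega ⇑Q n)⁻¹ := by group
      _ = _ := by rw [h7]
  · intro k
    by_cases hk : IsSquare (multF Q k : F)
    · obtain ⟨s, hs⟩ := exists_ofO_conj_eq h2 Q hQ hn hex k hk
      exact ⟨s, by rw [hs]⟩
    · have hk' : IsSquare (multF Q (k * δ) : F) := by
        rw [← chi1_eq_one_iff Q hex, map_mul]
        have e1 : chi1 Q hex k = -1 := by
          rcases Int.units_eq_one_or (chi1 Q hex k) with h | h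
          · exact absurd ((chi1_eq_one_iff Q hex k).1 h) hk
          · exact h
        have e2 : chi1 Q hex δ = -1 := by
          rcases Int.units_eq_one_or (chi1 Q hex δ) with h | h
          · exact absurd (by rw [← hδm]; exact (chi1_eq_one_iff Q hex δ).1 h) hδ1
          · exact h
        rw [e1, e2]; rfl
      obtain ⟨s, hs⟩ := exists_ofO_conj_eq h2 Q hQ hn hex _ hk'
      refine ⟨s, ?_⟩
      rw [hs, map_mul]
      have h7 := hcδ 1
      rw [pow_one] at h7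
      calc conjPOmega ⇑Q k * conjPOmega ⇑Q (ofO Q ω) * (conjPOmega ⇑Q k)⁻¹
          = conjPOmega ⇑Q k * (conjPOmega ⇑Q (ofO Q ω) * conjPOmega ⇑Q δ) * (conjPOmega ⇑Q δ)⁻¹ *
            (conjPOmega ⇑Q k)⁻¹ := by group
        _ = conjPOmega ⇑Q k * (conjPOmega ⇑Q δ * conjPOmega ⇑Q (ofO Q ω)) * (conjPOmega ⇑Q δ)⁻¹ *
            (conjPOmega ⇑Q k)⁻¹ := by rw [h7]
        _ = _ := by group

end Cfsg.Agent.Lib.Helper44
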