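import Cfsg.Agent.Lib.Helper44.Fusion
import Cfsg.Agent.Lib.Helper44.InndiagMinus

set_option autoImplicit false

namespace Cfsg.Agent.Lib.Helper44

open QuadraticMap Module Matrix

universe u

variable {F : Type u} [Field F]

theorem fusion_statement {ι : Type} [Fintype ι] [DecidableEq ι] [Fintype F] (h2 : (2 : F) ≠ 0)
    (Q : QuadraticForm F (ι → F))
    (hQ : (polarBilin Q).Nondegenerate) (hn : 5 ≤ Fintype.card ι) (hex : ∃ v, Q v ≠ 0) (m : ℕ)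
    (hm : Fintype.card ι = 2 * m) (δ₁ : ↥(Cfsg.Geo.quadSimilarityGroup ⇑Q))
    (hδ1 : ¬ IsSquare (multF Q δ₁ : F)) (hδ2 : δ₁ ∈ (chi2 h2 hQ hex m hm).ker)
    (hsq : negOneO Q ∈ Cfsg.Omega F ⇑Q → δ₁ * δ₁ ∉ Oms Q ⊔ (conjPOmega ⇑Q).ker)
    (j r : ℕ) (hr : Odd r) (hjr : (j : F) * (r : F) = 1)
    (x : MulAut (Cfsg.POmega F ⇑Q)) (hx : x ∈ Cfsg.pgoAut F ⇑Q) (hxr : x ^ r = 1) :
    (∀ y : MulAut (Cfsg.POmega F ⇑Q),
      (Cfsg.IsConjUnder (Cfsg.Inn (Cfsg.POmega F ⇑Q)) x y ↔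
        Cfsg.IsConjUnder ((chi2 h2 hQ hex m hm).ker.map (conjPOmega ⇑Q)) x y) ∧
      (Cfsg.IsConjUnder (Cfsg.psoAut F ⇑Q) x y ↔
        Cfsg.IsConjUnder ((chi2 h2 hQ hex m hm).ker.map (conjPOmega ⇑Q)) x y)) ∧
    (∀ y : MulAut (Cfsg.POmega F ⇑Q),
      Cfsg.IsConjUnder (Cfsg.poAut F ⇑Q) x y ↔ Cfsg.IsConjUnder (Cfsg.pgoAut F ⇑Q) x y) := by
  rw [pgoAut_eq] at hx
  obtain ⟨k1, k2⟩ := fusion_cyclic h2 Q hQ hn hex m hm δ₁ hδ1 hδ2 hsq x hx j r hr hjr hxr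
  have hM := ker_psi1_eq' h2 hQ hn hex m hm
  have hMΓ := ker_psi1_le_chi2 h2 hQ hex m hm
  have hSO : SOs Q ≤ (chi2 h2 hQ hex m hm).ker := by
    refine le_trans ?_ hMΓ
    rw [hM]; exact le_sup_left
  have mono : ∀ {H K : Subgroup (MulAut (Cfsg.POmega F ⇑Q))}, H ≤ K → ∀ y,
      Cfsg.IsConjUnder H x y → Cfsg.IsConjUnder K x y := by
    rintro H K hHK y ⟨h, hh, rfl⟩
    exact ⟨h, hHK hh, rfl⟩
  have back : ∀ y, Cfsg.IsConjUnder ((chi2 h2 hQ hex m hm).ker.map (conjPOmega ⇑Q)) x y →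
      Cfsg.IsConjUnder (Cfsg.Inn (Cfsg.POmega F ⇑Q)) x y := by
    rintro y ⟨_, ⟨k, hk, rfl⟩, rfl⟩
    obtain ⟨n, hn1, hn2⟩ := k1 k hk
    rw [inn_eq']
    exact ⟨_, ⟨n, hn1, rfl⟩, hn2⟩
  have hInnPso : Cfsg.Inn (Cfsg.POmega F ⇑Q) ≤ Cfsg.psoAut F ⇑Q := by
    rw [inn_eq', psoAut_eq']
    exact Subgroup.map_mono (Oms_le_SOs Q)
  have hPsoD : Cfsg.psoAut F ⇑Q ≤ (chi2 h2 hQ hex m hm).ker.map (conjPOmega ⇑Q) := by
    rw [psoAut_eq']
    exact Subgroup.map_mono hSO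
  refine ⟨fun y => ⟨⟨mono (hInnPso.trans hPsoD) y, back y⟩,
    ⟨mono hPsoD y, fun h => mono hInnPso y (back y h)⟩⟩, fun y => ⟨?_, ?_⟩⟩
  · apply mono
    rw [poAut_eq, pgoAut_eq]
    exact Subgroup.map_le_range _ _
  · rw [pgoAut_eq, poAut_eq]
    rintro ⟨_, ⟨k, rfl⟩, rfl⟩
    obtain ⟨s, hs⟩ := k2 k
    exact ⟨_, ⟨ofO Q s, s.2, rfl⟩, hs⟩

theorem minus_delta [Fintype F] (hodd : Odd (Fintype.card F)) (m : ℕ) (hm : 3 ≤ m) (a b : F)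
    (hab : ∀ z₁ z₂ : F, z₁ ^ 2 + a * z₁ * z₂ + b * z₂ ^ 2 = 0 → z₁ = 0 ∧ z₂ = 0) :
    ∃ δ : ↥(Cfsg.Geo.quadSimilarityGroup ⇑(minusQF m F a b)),
      ¬ IsSquare (multF (minusQF m F a b) δ : F) ∧
      δ ∈ (chi2 (two_ne_zero_of_odd_card hodd) (minusQF_nondeg m F hab) (minus_hex (F := F) m a b)
        (m + 1) (minus_card m)).ker ∧
      (negOneO (minusQF m F a b) ∈ Cfsg.Omega F ⇑(minusQF m F a b) →
        δ * δ ∉ Oms (minusQF m F a b) ⊔ (conjPOmega ⇑(minusQF m F a b)).ker) := by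
  have h2 : (2 : F) ≠ 0 := two_ne_zero_of_odd_card hodd
  have hQ := minusQF_nondeg m F hab
  have hex := minus_hex (F := F) m a b
  have hn : 5 ≤ Fintype.card ((Fin m ⊕ Fin m) ⊕ Fin 2) := by rw [minus_card]; omega
  obtain ⟨ν, hν⟩ := exists_nonsquare_unit h2
  obtain ⟨δ, u₁, u₂, hu, hδ1, hδ2⟩ := minus_exists_simil' h2 m hab ν
  have hδk : δ ∈ (chi2 h2 hQ hex (m + 1) (minus_card m)).ker := by
    rw [MonoidHom.mem_ker, chi2_eq_one_iff, hδ1, hδ2, det_minus_simil m a b u₁ u₂ ν hu]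
  refine ⟨δ, by rw [hδ2]; exact hν, hδk, ?_⟩
  intro hneg
  have hev : Even m := ((minus_negOneO_mem_iff hodd m a b hab).1 hneg).1
  obtain ⟨s, hs1, hs2⟩ := exists_sq_isometry hQ δ
  rw [sq_mem_iff h2 (minusQF m F a b) hQ hn hneg δ s hs1 _ hs2]
  obtain ⟨s₁, hs₁, hs₁m⟩ := plus_exists_Omega_diag (F := F) m (by omega) (Or.inr (by omega)) ν
    (hev.isSquare_pow _)
  have h0 : (ν : F) ≠ 0 := ν.ne_zero
  apply not_mem_Omega_of_blocks h2 (plusQF m F) (binQF a b) (minusQF m F a b)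
    (minusQF_eq_sumQF m a b) hQ s s₁ hs₁ ![u₁, u₂] ![1, 0]
  · rw [binQF_apply]; simp only [Matrix.cons_val_zero, Matrix.cons_val_one]
    rw [hu]; exact h0
  · rw [binQF_apply]; simp
  · rw [binQF_apply, binQF_apply]
    simp only [Matrix.cons_val_zero, Matrix.cons_val_one]
    rw [hu]
    simpa using hν
  · rw [hs2, hδ1, hδ2, hs₁m, ← bin_rotation a b u₁ u₂ ν hu h0, Matrix.fromBlocks_multiply,
      Matrix.fromBlocks_smul]
    simp only [Matrix.mul_zero, Matrix.zero_mul, add_zero, zero_add, smul_zero,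
      Matrix.diagonal_mul_diagonal, Units.val_inv_eq_inv_val]
    congr 1
    rw [← Matrix.diagonal_smul]
    congr 1
    funext k
    rcases k with k | k
    · simp only [Pi.smul_apply, Sum.elim_inl, smul_eq_mul]
      field_simp
    · simp only [Pi.smul_apply, Sum.elim_inr, smul_eq_mul, mul_one]

theorem minus_fusion [Fintype F] {p : ℕ} [Fact p.Prime] [CharP F p] (hp : p ≠ 2) {m : ℕ}
    (hm : 3 ≤ m) (a b : F)
    (hab : (∀ z₁ z₂ : F, z₁ ^ 2 + a * z₁ * z₂ + b * z₂ ^ 2 = 0 → z₁ = 0 ∧ z₂ = 0))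
    (x : MulAut (Cfsg.POmega F (Cfsg.quadFormMinus m F a b)))
    (hx : x ∈ Cfsg.pgoAut F (Cfsg.quadFormMinus m F a b)) {r : ℕ} (hr : r.Prime) (hro : Odd r)
    (hrp : r ≠ p) (hxr : orderOf x = r) :
    (∀ y : MulAut (Cfsg.POmega F (Cfsg.quadFormMinus m F a b)),
      (Cfsg.IsConjUnder (Cfsg.Inn (Cfsg.POmega F (Cfsg.quadFormMinus m F a b))) x y ↔
        Cfsg.IsConjUnder (Cfsg.inndiagPOmegaMinus m F a b) x y) ∧
      (Cfsg.IsConjUnder (Cfsg.psoAut F (Cfsg.quadFormMinus m F a b)) x y ↔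
        Cfsg.IsConjUnder (Cfsg.inndiagPOmegaMinus m F a b) x y)) ∧
    (∀ y : MulAut (Cfsg.POmega F (Cfsg.quadFormMinus m F a b)),
      Cfsg.IsConjUnder (Cfsg.poAut F (Cfsg.quadFormMinus m F a b)) x y ↔
        Cfsg.IsConjUnder (Cfsg.pgoAut F (Cfsg.quadFormMinus m F a b)) x y) := by
  have hodd : Odd (Fintype.card F) := by
    rw [Nat.odd_iff]
    apply FiniteField.odd_card_of_char_ne_two
    rw [ringChar.eq F p]; exact hp
  have h2 : (2 : F) ≠ 0 := two_ne_zero_of_odd_card hodd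
  have hQ := minusQF_nondeg m F hab
  have hex := minus_hex (F := F) m a b
  have hn : 5 ≤ Fintype.card ((Fin m ⊕ Fin m) ⊕ Fin 2) := by rw [minus_card]; omega
  obtain ⟨δ, hδ1, hδ2, hsq⟩ := minus_delta hodd m hm a b hab
  obtain ⟨j, -, hj⟩ := Nat.exists_mul_mod_eq_one_of_coprime
    ((Nat.coprime_primes hr (Fact.out : p.Prime)).2 hrp) (Fact.out : p.Prime).one_lt
  have hjr : (j : F) * (r : F) = 1 := by
    rw [mul_comm, ← Nat.cast_mul, CharP.cast_eq_mod F p, hj, Nat.cast_one]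
  have key := fusion_statement h2 (minusQF m F a b) hQ hn hex (m + 1) (minus_card m) δ hδ1 hδ2 hsq
    j r hro hjr
  have heq := autSubgroupOf_eq_map_ker ⇑(minusQF m F a b) (chi2 h2 hQ hex (m + 1) (minus_card m))
    (fun g => Cfsg.PreservesSingularClassesMinus m a b
      (g : Matrix ((Fin m ⊕ Fin m) ⊕ Fin 2) ((Fin m ⊕ Fin m) ⊕ Fin 2) F)) (fun g => by
      rw [minus_preserves_iff h2 m hab, chi2_eq_one_iff])
  rw [← heq] at key
  clear heq hsq hδ2 hδ1 δ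
  rw [minusQF_coe] at key
  exact key x hx (by rw [← hxr]; exact pow_orderOf_eq_one x)

end Cfsg.Agent.Lib.Helper44
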