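import Cfsg.Agent.Lib.Helper44.InvolOmegaStd

set_option autoImplicit false

namespace Cfsg.Agent.Lib.Helper44

open QuadraticMap Module

variable {F V : Type*} [Field F] [AddCommGroup V] [Module F V]

/-- generation by reflections when there is no totally singular plane -/
theorem gen_aux_witt_one [FiniteDimensional F V] {Q : QuadraticForm F V}
    (hQ : (polarBilin Q).Nondegenerate)
    (hW : ∀ u₁ u₂ : V, Q u₁ = 0 → Q u₂ = 0 → polar Q u₁ u₂ = 0 → ¬ LinearIndependent F ![u₁, u₂])
    (k : ℕ) :
    ∀ g ∈ OQ Q, finrank F V ≤ finrank F (fixSp g) + k → g ∈ reflSubgroup Q := by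
  induction k with
  | zero =>
    intro g _ hk
    have htop : fixSp g = ⊤ := Submodule.eq_top_of_finrank_eq (le_antisymm (Submodule.finrank_le _) hk)
    have : g = 1 := by
      ext x
      have : x ∈ fixSp g := by rw [htop]; trivial
      exact mem_fixSp.1 this
    rw [this]; exact one_mem _
  | succ k ih =>
    intro g hg hk
    have step : ∀ t ∈ reflSubgroup Q, ∀ x, g x ≠ x → t x = g x → (∀ y, g y = y → t y = y) →
        g ∈ reflSubgroup Q := by
      intro t ht x hx htx hfix
      have hlt : fixSp g < fixSp (t⁻¹ * g) := by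
        have key : ∀ y, t y = g y → (t⁻¹ * g) y = y := by
          intro y hy
          rw [LinearEquiv.mul_apply, ← hy, ← LinearEquiv.mul_apply, inv_mul_cancel]; rfl
        refine lt_of_le_of_ne ?_ ?_
        · intro y hy
          rw [mem_fixSp] at hy ⊢
          exact key y (by rw [hfix y hy, hy])
        · intro heq
          apply hx
          rw [← mem_fixSp, heq, mem_fixSp]
          exact key x htx
      have h2 := Submodule.finrank_lt_finrank_of_lt hlt
      have h3 : t⁻¹ * g ∈ reflSubgroup Q :=
        ih _ (mul_mem (inv_mem (reflSubgroup_le Q ht)) hg) (by omega)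
      have : g = t * (t⁻¹ * g) := by group
      rw [this]; exact mul_mem ht h3
    by_cases h1 : ∃ x, Q (g x - x) ≠ 0
    · obtain ⟨x, hx⟩ := h1
      refine step (refl Q (g x - x)) (refl_mem_reflSubgroup Q hx) x ?_ ?_ ?_
      · intro h0; apply hx; rw [h0]; simp
      · have := refl_sub_apply (Q := Q) (x := x) (y := g x) (mem_OQ.1 hg x) hx
        have h4 := congrArg (refl Q (g x - x)) this
        rw [← LinearEquiv.mul_apply, refl_mul_self] at h4
        exact h4.symm
      · intro y hy
        apply refl_apply_of_polar_eq_zero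
        rw [polar_sub_left]
        conv_lhs => rw [← hy]
        rw [OQ_polar hg, hy]; simp
    · push Not at h1
      by_cases h2 : ∀ x, g x = x
      · have : g = 1 := by ext x; exact h2 x
        rw [this]; exact one_mem _
      · exfalso
        push Not at h2
        obtain ⟨x₂, hx₂⟩ := h2
        obtain ⟨x₁, hx₁⟩ := polar_nondeg_exists hQ (sub_ne_zero.2 hx₂)
        set u₁ := g x₁ - x₁ with hu₁
        set u₂ := g x₂ - x₂ with hu₂
        have hQu₁ : Q u₁ = 0 := h1 x₁
        have hQu₂ : Q u₂ = 0 := h1 x₂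
        have hself : ∀ x, polar Q x (g x - x) = 0 := by
          intro x
          have e1 : Q (g x) = Q (x + (g x - x)) := by congr 1; abel
          rw [QuadraticMap.map_add (⇑Q), mem_OQ.1 hg, h1 x] at e1
          simpa using e1.symm
        have hu₁u₂ : polar Q u₁ u₂ = 0 := by
          have e1 : u₁ + u₂ = g (x₁ + x₂) - (x₁ + x₂) := by rw [hu₁, hu₂, map_add]; abel
          rw [polar, e1, h1, hQu₁, hQu₂]; simp
        have h11 : polar Q u₁ x₁ = 0 := by rw [polar_comm]; exact hself x₁
        have h21 : polar Q x₂ u₁ = -1 := by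
          have e1 := hself (x₁ + x₂)
          have e2 : g (x₁ + x₂) - (x₁ + x₂) = u₁ + u₂ := by rw [hu₁, hu₂, map_add]; abel
          rw [e2, polar_add_left, polar_add_right, polar_add_right, hself x₁, hself x₂, hx₁] at e1
          linear_combination e1
        have hli : LinearIndependent F ![u₁, u₂] := by
          rw [LinearIndependent.pair_iff]
          intro a b hab
          have e1 := congrArg (polar Q x₁) hab
          have e2 := congrArg (polar Q x₂) hab
          rw [polar_add_right, polar_smul_right, polar_smul_right] at e1 e2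
          rw [polar_comm Q x₁ u₁, h11, hx₁] at e1
          rw [h21, hself x₂] at e2
          simp only [smul_eq_mul, mul_zero, mul_one, zero_add, polar_zero_right, mul_neg,
            add_zero, neg_eq_zero] at e1 e2
          exact ⟨e2, e1⟩
        exact hW u₁ u₂ hQu₁ hQu₂ hu₁u₂ hli

/-- every isometry is a product of reflections -/
def GenRefl (Q : QuadraticForm F V) : Prop :=
  ∀ g ∈ OQ Q, ∃ l : List V, (∀ v ∈ l, Q v ≠ 0) ∧ g = (l.map (refl Q)).prod

theorem genRefl_of_witt_one [FiniteDimensional F V] {Q : QuadraticForm F V}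
    (hQ : (polarBilin Q).Nondegenerate)
    (hW : ∀ u₁ u₂ : V, Q u₁ = 0 → Q u₂ = 0 → polar Q u₁ u₂ = 0 → ¬ LinearIndependent F ![u₁, u₂]) :
    GenRefl Q := fun g hg =>
  exists_list_of_mem_reflSubgroup (gen_aux_witt_one hQ hW (finrank F V) g hg (by omega))

/-- The Dickson/parity character, from generation by reflections. -/
noncomputable def parityCharG [FiniteDimensional F V] (Q : QuadraticForm F V)
    (hQ : (polarBilin Q).Nondegenerate) (h : GenRefl Q) :
    ↥(OQ Q) →* ℤˣ where
  toFun g := (-1) ^ (finrank F V + finrank F (fixSp g.1))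
  map_one' := by
    have : fixSp ((1 : ↥(OQ Q)) : V ≃ₗ[F] V) = ⊤ := fixSp_one
    rw [this, finrank_top]
    exact Even.neg_one_pow ⟨_, rfl⟩
  map_mul' a b := by
    obtain ⟨l₁, h₁, e₁⟩ := h a a.2
    obtain ⟨l₂, h₂, e₂⟩ := h b b.2
    have hab : ((a * b : ↥(OQ Q)) : V ≃ₗ[F] V) = ((l₁ ++ l₂).map (refl Q)).prod := by
      rw [List.map_append, List.prod_append, ← e₁, ← e₂]; rfl
    have k₁ := even_finrank_fixSp_prod hQ l₁ h₁
    have k₂ := even_finrank_fixSp_prod hQ l₂ h₂
    have k₃ := even_finrank_fixSp_prod hQ (l₁ ++ l₂) (by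
      intro v hv
      rcases List.mem_append.1 hv with h | h
      · exact h₁ v h
      · exact h₂ v h)
    rw [← e₁] at k₁
    rw [← e₂] at k₂
    rw [← hab, List.length_append] at k₃
    rw [← pow_add]
    have key : ∀ x y : ℕ, Even (x + y) → ((-1 : ℤˣ)) ^ x = (-1) ^ y := by
      intro x y hxy
      rcases Nat.even_or_odd x with hx | hx
      · have hy : Even y := by
          rw [Nat.even_iff] at hxy hx ⊢; omega
        rw [hx.neg_one_pow, hy.neg_one_pow]
      · have hy : Odd y := by
          rw [Nat.even_iff] at hxy; rw [Nat.odd_iff] at hx ⊢; omega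
        rw [hx.neg_one_pow, hy.neg_one_pow]
    apply key
    rw [Nat.even_iff] at k₁ k₂ k₃ ⊢
    omega

theorem mem_commutator_iff_of_gen [Fintype F] [CharP F 2] [FiniteDimensional F V]
    {Q : QuadraticForm F V} (hQ : (polarBilin Q).Nondegenerate) (h : GenRefl Q) (g : ↥(OQ Q)) :
    g ∈ commutator ↥(OQ Q) ↔ Even (finrank F V + finrank F (fixSp g.1)) := by
  constructor
  · intro hg
    have h1 : parityCharG Q hQ h g = 1 := Abelianization.commutator_subset_ker _ hg
    exact (neg_one_pow_eq_one_iff_even _).1 h1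
  · intro he
    obtain ⟨l, hl, e⟩ := h g g.2
    have k := even_finrank_fixSp_prod hQ l hl
    rw [← e] at k
    have hlen : Even l.length := by
      rw [Nat.even_add] at k
      exact k.1 he
    have : g = (l.map (reflO Q)).prod := Subtype.ext (by rw [prod_reflO_coe]; exact e)
    rw [this]
    exact prod_reflO_mem_commutator hQ l hl hlen
      (FiniteField.isSquare_of_char_two (ringChar.eq F 2) _)

theorem omegaEvenRank_of_gen [Fintype F] [CharP F 2] {ι : Type} [Fintype ι] [DecidableEq ι]
    (Q : QuadraticForm F (ι → F)) (hQ : (polarBilin Q).Nondegenerate) (h : GenRefl Q) :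
    OmegaEvenRank Q := by
  intro g
  rw [mem_Omega_iff, mem_commutator_iff_of_gen hQ h]
  have h1 := rank_sub_one_add_finrank_fixSp (g : Matrix.GeneralLinearGroup ι F)
  have h2 : finrank F (ι → F) = Fintype.card ι := by simp
  have h3 : ((isoEquiv Q g : ↥(OQ Q)) : (ι → F) ≃ₗ[F] (ι → F))
      = glEquiv (g : Matrix.GeneralLinearGroup ι F) := rfl
  rw [h2, h3, ← h1, Nat.even_add, Nat.even_add]
  tauto

theorem minus_omegaEvenRank [Fintype F] [CharP F 2] (k : ℕ) {a b : F}
    (hab : ∀ z₁ z₂ : F, z₁ ^ 2 + a * z₁ * z₂ + b * z₂ ^ 2 = 0 → z₁ = 0 ∧ z₂ = 0) :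
    OmegaEvenRank (minusQF k F a b) := by
  have hQ := minusQF_nondeg k F hab
  by_cases hk : k = 1
  · subst hk
    apply omegaEvenRank_of_gen _ hQ
    apply genRefl_of_witt_one hQ
    intro u₁ u₂ h1 h2 h12 hli
    have hspan := finrank_span_eq_card hli
    have hsing : ∀ w ∈ Submodule.span F (Set.range ![u₁, u₂]), minusQF 1 F a b w = 0 := by
      intro w hw
      obtain ⟨c, rfl⟩ := (Submodule.mem_span_range_iff_exists_fun F).1 hw
      simp only [Fin.sum_univ_two, Matrix.cons_val_zero, Matrix.cons_val_one]
      rw [QuadraticMap.map_add (⇑(minusQF 1 F a b)), QuadraticMap.map_smul, QuadraticMap.map_smul,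
        polar_smul_left, polar_smul_right, h1, h2, h12]
      simp
    have := minus_finrank_sing_le hab _ hsing
    rw [hspan] at this
    simp at this
  · apply omegaEvenRank_of_generic _ hQ
    right
    simp only [Fintype.card_sum, Fintype.card_fin]
    omega

end Cfsg.Agent.Lib.Helper44
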