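import Cfsg.Agent.Lib.Helper44.GraphPSLSplit
import Cfsg.Agent.Lib.Helper5.GOPlusOdd
import Cfsg.Agent.Lib.Helper5.GOMinus
import Cfsg.Agent.Lib.Helper5.SpOrder

/-!
# Orders of the projective similarity groups
-/

set_option autoImplicit false

namespace Cfsg.Agent.Lib.Helper44

open Matrix Cfsg.Agent.Lib.Helper43.PA QuadraticMap

variable {F : Type*} [Field F]

theorem card_projQuot_gram [Fintype F] {ι : Type} [Fintype ι] [DecidableEq ι] [Nonempty ι]
    (H : Subgroup (GL ι F)) (M : Matrix ι ι F) (hM : M ≠ 0)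
    (hH : ∀ h : GL ι F, h ∈ H ↔ ∃ u : Fˣ, h.1ᵀ * M * h.1 = (u : F) • M)
    (hsurj : ∀ u : Fˣ, ∃ h : GL ι F, h.1ᵀ * M * h.1 = (u : F) • M) :
    Nat.card (Cfsg.projQuot H) = Nat.card {h : GL ι F // h.1ᵀ * M * h.1 = M} := by
  classical
  have huniq : ∀ u u' : Fˣ, (u : F) • M = (u' : F) • M → u = u' := by
    intro u u' h
    have h1 : ((u : F) - u') • M = 0 := by rw [sub_smul, h, sub_self]
    rcases smul_eq_zero.1 h1 with h | h
    · exact Units.ext (sub_eq_zero.1 h)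
    · exact absurd h hM
  let μ₀ : ↥H → Fˣ := fun h => Classical.choose ((hH h.1).1 h.2)
  have hμ₀ : ∀ h : ↥H, h.1.1ᵀ * M * h.1.1 = (μ₀ h : F) • M :=
    fun h => Classical.choose_spec ((hH h.1).1 h.2)
  let μ : ↥H →* Fˣ := MonoidHom.mk' μ₀ (by
    intro a b
    apply huniq
    rw [← hμ₀]
    have : (a * b : ↥H).1.1 = a.1.1 * b.1.1 := rfl
    rw [this, transpose_mul]
    calc b.1.1ᵀ * a.1.1ᵀ * M * (a.1.1 * b.1.1) = b.1.1ᵀ * (a.1.1ᵀ * M * a.1.1) * b.1.1 := by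
          simp only [Matrix.mul_assoc]
      _ = ((μ₀ a * μ₀ b : Fˣ) : F) • M := by
          rw [hμ₀, Matrix.mul_smul, Matrix.smul_mul, hμ₀, smul_smul, Units.val_mul])
  have hμ : ∀ h : ↥H, h.1.1ᵀ * M * h.1.1 = (μ h : F) • M := hμ₀
  have hμs : Function.Surjective μ := by
    intro u
    obtain ⟨h, hh⟩ := hsurj u
    refine ⟨⟨h, (hH h).2 ⟨u, hh⟩⟩, ?_⟩
    apply huniq
    rw [← hμ]
    exact hh
  have h1 : Nat.card ↥H = Nat.card ↥μ.ker * Nat.card Fˣ := by
    rw [← Subgroup.card_mul_index μ.ker, Subgroup.index_ker, MonoidHom.range_eq_top.2 hμs,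
      Subgroup.card_top]
  have h2 : Nat.card ↥μ.ker = Nat.card {h : GL ι F // h.1ᵀ * M * h.1 = M} := by
    refine Nat.card_congr
      { toFun := fun k => ⟨k.1.1, by
          have := hμ k.1
          rw [MonoidHom.mem_ker.1 k.2, Units.val_one, one_smul] at this
          exact this⟩
        invFun := fun h => ⟨⟨h.1, (hH h.1).2 ⟨1, by rw [h.2, Units.val_one, one_smul]⟩⟩, by
          rw [MonoidHom.mem_ker]
          apply huniq
          rw [← hμ]
          have h9 : ((1 : Fˣ) : F) • M = M := by rw [Units.val_one, one_smul]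
          exact h.2.trans h9.symm⟩
        left_inv := fun k => rfl
        right_inv := fun h => rfl }
  have h3 : Nat.card ↥H = Nat.card (Cfsg.projQuot H) *
      Nat.card ↥((Cfsg.Geo.scalars ι F).subgroupOf H) :=
    Subgroup.card_eq_card_quotient_mul_card_subgroup _
  have hle : Cfsg.Geo.scalars ι F ≤ H := by
    intro z hz
    obtain ⟨c, hc⟩ := (Cfsg.Geo.mem_scalars_iff z).1 hz
    rw [hH]
    refine ⟨c * c, ?_⟩
    rw [hc]
    simp [smul_smul]
  have h4 : Nat.card ↥((Cfsg.Geo.scalars ι F).subgroupOf H) = Nat.card Fˣ := by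
    rw [Nat.card_congr (Subgroup.subgroupOfEquivOfLe hle).toEquiv]
    unfold Cfsg.Geo.scalars
    refine (Nat.card_congr (MonoidHom.ofInjective ?_).toEquiv).symm
    intro c c' h
    have h5 := congrArg Units.val h
    obtain ⟨i⟩ := ‹Nonempty ι›
    have h6 := congrFun (congrFun h5 i) i
    apply Units.ext
    simpa using h6
  have hpos : 0 < Nat.card Fˣ := Nat.card_pos
  rw [h1, h4, h2] at h3
  exact (Nat.eq_of_mul_eq_mul_right hpos h3).symm

theorem card_gram_J (m : ℕ) :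
    Nat.card {h : GL (Fin m ⊕ Fin m) F // h.1ᵀ * Matrix.J (Fin m) F * h.1 = Matrix.J (Fin m) F} =
      Nat.card ↥(Matrix.symplecticGroup (Fin m) F) := by
  rw [Nat.card_congr (MonoidHom.ofInjective (spToGL_injective (F := F) (m := m))).toEquiv]
  exact Nat.card_congr (Equiv.subtypeEquivRight (fun h => (mem_range_spToGL h).symm))

theorem card_gram_Q (h2 : (2 : F) ≠ 0) {ι : Type} [Fintype ι] [DecidableEq ι]
    (Q : QuadraticForm F (ι → F)) :
    Nat.card {h : GL ι F // h.1ᵀ * gramM Q * h.1 = gramM Q} =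
      Nat.card ↥(Cfsg.isometryGroup F ⇑Q) := by
  refine Nat.card_congr (Equiv.subtypeEquivRight (fun h => ?_))
  rw [mem_isometryGroup]
  exact ⟨isometry_of_gram_congr h2 Q h, gram_congr_of_isometry Q h⟩

theorem exists_simil_of_fin {n : ℕ} {ι : Type} [Fintype ι] [DecidableEq ι] (e : ι ≃ Fin n)
    (M : GL ι F) (u : Fˣ)
    (h : ∃ g : GL (Fin n) F, (u : F) • (reGL e M).1 = g.1 * (reGL e M).1 * g.1ᵀ) :
    ∃ h : GL ι F, h.1ᵀ * M.1 * h.1 = (u : F) • M.1 := by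
  obtain ⟨g, hg⟩ := h
  refine ⟨(reGL e).symm ((invTGL g)⁻¹), ?_⟩
  have h1 := reGL_congr e ((reGL e).symm ((invTGL g)⁻¹)) M
  rw [MulEquiv.apply_symm_apply, invTGL_inv_coe, transpose_transpose, ← hg] at h1
  have h2 : (u : F) • (reGL e M).1 = Matrix.reindex e e ((u : F) • M.1) := by
    ext i j
    simp [reGL_coe]
  rw [h2] at h1
  exact ((Matrix.reindex e e).injective h1).symm

theorem card_PGSp [Fintype F] (m : ℕ) (hm : 1 ≤ m) :
    Nat.card (Cfsg.PGSp m F) = Nat.card ↥(Matrix.symplecticGroup (Fin m) F) := by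
  have : Nonempty (Fin m ⊕ Fin m) := ⟨Sum.inl ⟨0, hm⟩⟩
  rw [← card_gram_J]
  apply card_projQuot_gram _ (Matrix.J (Fin m) F)
  · intro h
    have h1 := Matrix.J_squared (Fin m) F
    rw [h, Matrix.mul_zero] at h1
    have h2 := congrFun (congrFun h1 (Sum.inl ⟨0, hm⟩)) (Sum.inl ⟨0, hm⟩)
    simp at h2
  · exact mem_similarityGroup_iff (Matrix.J (Fin m) F) _ (fun _ _ => rfl)
  · intro u
    apply exists_simil_of_fin (Fintype.equivFin (Fin m ⊕ Fin m)) (JGL m F) u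
    have halt : ∀ x, x ⬝ᵥ (reGL (Fintype.equivFin (Fin m ⊕ Fin m)) (JGL m F)).1 *ᵥ x = 0 := by
      intro x
      rw [reGL_coe, reindex_bilin, JGL_coe, J_alt]
    obtain ⟨g, hg⟩ := exists_congr_alt _
      (scGL u * reGL (Fintype.equivFin (Fin m ⊕ Fin m)) (JGL m F)) halt (by
        intro x
        rw [scGL_mul_coe, Matrix.smul_mulVec, dotProduct_smul, halt, smul_zero])
    rw [scGL_mul_coe] at hg
    exact ⟨g, hg⟩

theorem card_PGO [Fintype F] (h2 : (2 : F) ≠ 0) {ι : Type} [Fintype ι] [DecidableEq ι] [Nonempty ι]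
    (Q : QuadraticForm F (ι → F)) (hQ : (polarBilin Q).Nondegenerate)
    (hev : Even (Fintype.card ι)) :
    Nat.card (Cfsg.PGO F ⇑Q) = Nat.card ↥(Cfsg.isometryGroup F ⇑Q) := by
  rw [← card_gram_Q h2]
  apply card_projQuot_gram _ (gramM Q)
  · intro h
    apply gramM_det_ne_zero hQ
    rw [h, Matrix.det_zero]
  · exact mem_quadSimilarityGroup_iff h2 Q
  · intro u
    apply exists_simil_of_fin (Fintype.equivFin ι) (gramGL Q hQ) u
    obtain ⟨k, hk⟩ := hev
    obtain ⟨g, hg⟩ := exists_congr_sym h2 (reGL (Fintype.equivFin ι) (gramGL Q hQ))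
      (scGL u * reGL (Fintype.equivFin ι) (gramGL Q hQ)) (reGL_gram_transpose _ Q hQ)
      (by rw [scGL_mul_coe, transpose_smul, reGL_gram_transpose])
      (by
        rw [scGL_mul_coe, det_smul, Fintype.card_fin]
        have : (u : F) ^ Fintype.card ι = (u : F) ^ k * (u : F) ^ k := by
          rw [← pow_add, ← hk]
        rw [this]
        exact ⟨(u : F) ^ k * (reGL (Fintype.equivFin ι) (gramGL Q hQ)).1.det, by ring⟩)
    rw [scGL_mul_coe] at hg
    exact ⟨g, hg⟩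

theorem prod_pos_aux (q k : ℕ) (hq : 2 ≤ q) :
    0 < ∏ i ∈ Finset.range k, (q ^ (2 * (i + 1)) - 1) := by
  apply Finset.prod_pos
  intro i _
  have : 1 < q ^ (2 * (i + 1)) := Nat.one_lt_pow (by omega) (by omega)
  omega

theorem not_iso_plus [Fintype F] (hodd : Odd (Fintype.card F)) (m : ℕ) (hm : 1 ≤ m) :
    IsEmpty (Cfsg.PGO F (Cfsg.quadFormPlus m F) ≃* Cfsg.PGSp m F) := by
  constructor
  intro f
  have h2 : (2 : F) ≠ 0 := two_ne_zero_of_odd_card hodd
  have : Nonempty (Fin m ⊕ Fin m) := ⟨Sum.inl ⟨0, hm⟩⟩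
  have h1 := Nat.card_congr f.toEquiv
  have h3 := card_PGO h2 (plusQF m F) (plusQF_nondeg m F) ⟨m, by simp⟩
  rw [plusQF_coe] at h3
  rw [h3, card_PGSp m hm, Cfsg.Agent.Lib.Helper5.card_symplecticGroup] at h1
  have h4 := Cfsg.Agent.Lib.Helper5.card_GO_plus_mul (F := F) m
  rw [h1] at h4
  have hq : 3 ≤ Fintype.card F := by
    have := Fintype.one_lt_card (α := F)
    obtain ⟨k, hk⟩ := hodd
    omega
  generalize Fintype.card F = q at h4 hq
  have hP := prod_pos_aux q m (by omega)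
  generalize ∏ i ∈ Finset.range m, (q ^ (2 * (i + 1)) - 1) = P at h4 hP
  have h5 : q ^ (m ^ 2) = q ^ (m * (m - 1)) * q ^ m := by
    rw [← pow_add]
    congr 1
    obtain ⟨j, rfl⟩ : ∃ j, m = j + 1 := ⟨m - 1, by omega⟩
    simp
    ring
  rw [h5] at h4
  have ht : 3 ≤ q ^ m := le_trans hq (Nat.le_self_pow (by omega) q)
  have ha : 0 < q ^ (m * (m - 1)) := Nat.pow_pos (by omega)
  generalize q ^ m = t at h4 ht
  generalize q ^ (m * (m - 1)) = a at h4 ha
  have haP : 0 < a * P := Nat.mul_pos ha hP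
  have h6 : (a * P) * (t * (t + 1)) = (a * P) * 2 := by
    linarith [h4]
  have h7 := Nat.eq_of_mul_eq_mul_left haP h6
  nlinarith

theorem not_iso_minus [Fintype F] (hodd : Odd (Fintype.card F)) (k : ℕ) {a b : F}
    (hab : ∀ z₁ z₂ : F, z₁ ^ 2 + a * z₁ * z₂ + b * z₂ ^ 2 = 0 → z₁ = 0 ∧ z₂ = 0) :
    IsEmpty (Cfsg.PGO F (Cfsg.quadFormMinus k F a b) ≃* Cfsg.PGSp (k + 1) F) := by
  constructor
  intro f
  have h2 : (2 : F) ≠ 0 := two_ne_zero_of_odd_card hodd
  have : Nonempty ((Fin k ⊕ Fin k) ⊕ Fin 2) := ⟨Sum.inr 0⟩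
  have h1 := Nat.card_congr f.toEquiv
  have h3 := card_PGO h2 (minusQF k F a b) (minusQF_nondeg k F hab) ⟨k + 1, by simp; ring⟩
  rw [minusQF_coe] at h3
  rw [h3, card_PGSp (k + 1) (by omega), Cfsg.Agent.Lib.Helper5.card_symplecticGroup,
    Cfsg.Agent.Lib.Helper5.card_GO_minus hab, Finset.prod_range_succ] at h1
  have hq : 3 ≤ Fintype.card F := by
    have := Fintype.one_lt_card (α := F)
    obtain ⟨k, hk⟩ := hodd
    omega
  generalize Fintype.card F = q at h1 hq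
  have hP := prod_pos_aux q k (by omega)
  generalize ∏ i ∈ Finset.range k, (q ^ (2 * (i + 1)) - 1) = P at h1 hP
  have h5 : q ^ ((k + 1) ^ 2) = q ^ ((k + 1) * k) * q ^ (k + 1) := by
    rw [← pow_add]
    congr 1
    ring
  have h6 : q ^ (2 * (k + 1)) = q ^ (k + 1) * q ^ (k + 1) := by
    rw [← pow_add]
    congr 1
    ring
  rw [h5, h6] at h1
  have ht : 3 ≤ q ^ (k + 1) := le_trans hq (Nat.le_self_pow (by omega) q)
  have ha : 0 < q ^ ((k + 1) * k) := Nat.pow_pos (by omega)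
  generalize q ^ (k + 1) = t at h1 ht
  generalize q ^ ((k + 1) * k) = c at h1 ha
  obtain ⟨s, hs⟩ : ∃ s, t * t = s + 1 := ⟨t * t - 1, by
    have : 0 < t * t := Nat.mul_pos (by omega) (by omega)
    omega⟩
  rw [hs, Nat.add_sub_cancel] at h1
  have hcP : 0 < c * P := Nat.mul_pos ha hP
  have h7 : (c * P) * (2 * (t + 1)) = (c * P) * (t * s) := by
    linarith [h1]
  have h8 := Nat.eq_of_mul_eq_mul_left hcP h7
  nlinarith

theorem sym_cases [Fintype F] (h2 : (2 : F) ≠ 0) {n m : ℕ} (hm : 1 ≤ m) (hnm : n = 2 * m)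
    (e₁ : Fin m ⊕ Fin m ≃ Fin n) (e₃ : (Fin (m - 1) ⊕ Fin (m - 1)) ⊕ Fin 2 ≃ Fin n) {a b : F}
    (hab : ∀ z₁ z₂ : F, z₁ ^ 2 + a * z₁ * z₂ + b * z₂ ^ 2 = 0 → z₁ = 0 ∧ z₂ = 0)
    (A : GL (Fin n) F) (hA : A.1ᵀ = A.1) :
    Cfsg.IsConjUnder (Cfsg.inndiagPSL n F)
        (gr (reGL e₁ (gramGL (plusQF m F) (plusQF_nondeg m F)))) (gr A) ∨
      Cfsg.IsConjUnder (Cfsg.inndiagPSL n F)
        (gr (reGL e₃ (gramGL (minusQF (m - 1) F a b) (minusQF_nondeg (m - 1) F hab)))) (gr A) := by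
  have hn1 : 1 ≤ n := by omega
  set A₂ : GL (Fin n) F := reGL e₁ (gramGL (plusQF m F) (plusQF_nondeg m F))
  set A₃ : GL (Fin n) F := reGL e₃ (gramGL (minusQF (m - 1) F a b) (minusQF_nondeg (m - 1) F hab))
  have hA₂ : A₂.1ᵀ = A₂.1 := reGL_gram_transpose e₁ _ _
  have hA₃ : A₃.1ᵀ = A₃.1 := reGL_gram_transpose e₃ _ _
  have hd₂ : A₂.1.det = (-1) ^ m := by
    rw [reGL_det, gramGL_coe, gramM_plus_det]
  have hd₃ : A₃.1.det = (-1) ^ m * (a ^ 2 - 4 * b) := by
    rw [reGL_det, gramGL_coe, gramM_minus_det, Nat.sub_add_cancel hm]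
  have hns : ¬ IsSquare (A₂.1.det * A₃.1.det) := by
    rw [hd₂, hd₃]
    have h1 : (-1 : F) ^ m * ((-1) ^ m * (a ^ 2 - 4 * b)) = a ^ 2 - 4 * b := by
      rw [← mul_assoc, ← mul_pow]
      simp
    rw [h1]
    exact not_isSquare_disc_of_anisotropic h2 hab
  by_cases hs : IsSquare (A₂.1.det * A.1.det)
  · exact Or.inl (conj_of_sym h2 hn1 hA₂ hA hs)
  · refine Or.inr (conj_of_sym h2 hn1 hA₃ hA ?_)
    obtain ⟨r, hr⟩ := Cfsg.Agent.Lib.Helper14.isSquare_mul_of_not F hns hs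
    have hd0 : A₂.1.det ≠ 0 := ((Matrix.isUnit_iff_isUnit_det _).1 A₂.isUnit).ne_zero
    refine ⟨r / A₂.1.det, ?_⟩
    field_simp
    linear_combination hr

theorem index_zpowers_neg_one [Fintype F] (h2 : (2 : F) ≠ 0) :
    2 * (Subgroup.zpowers (-1 : Fˣ)).index = Nat.card Fˣ := by
  rw [← Subgroup.card_mul_index (Subgroup.zpowers (-1 : Fˣ)), Nat.card_zpowers]
  congr 1
  symm
  apply orderOf_eq_prime
  · simp
  · intro h
    have h1 := congrArg Units.val h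
    rw [Units.val_neg, Units.val_one] at h1
    apply h2
    linear_combination -h1

end Cfsg.Agent.Lib.Helper44
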