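import Cfsg.Agent.Lib.Helper44.GraphOdd
import Cfsg.Agent.Lib.Helper44.SympSimil
import Cfsg.Agent.Lib.Helper44.SOIndex

/-!
# Splitting of the classes of involutory graph automorphisms of `PSL_n(F)`
-/

set_option autoImplicit false

namespace Cfsg.Agent.Lib.Helper44

open Matrix Cfsg.Agent.Lib.Helper43.PA QuadraticMap

variable {F : Type*} [Field F] {n : ℕ}

/-- determinants of the matrices inducing automorphisms commuting with `gr A`. -/
noncomputable def DA (A : GL (Fin n) F) : Subgroup Fˣ :=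
  ((Subgroup.centralizer {gr A}).comap cG).map
    (Matrix.GeneralLinearGroup.det : GL (Fin n) F →* Fˣ)

theorem mem_DA (hn : 1 ≤ n) (A : GL (Fin n) F) (w : Fˣ) :
    w ∈ DA A ↔ ∃ (g : GL (Fin n) F) (u : Fˣ), g.1 * A.1 * g.1ᵀ = (u : F) • A.1 ∧
      g.1.det = (w : F) := by
  constructor
  · rintro ⟨g, hg, rfl⟩
    obtain ⟨u, hu⟩ := (mem_cent_gr_iff hn A g).1 hg
    exact ⟨g, u, hu, rfl⟩
  · rintro ⟨g, u, hu, hw⟩
    exact ⟨g, (mem_cent_gr_iff hn A g).2 ⟨u, hu⟩, Units.ext hw⟩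

theorem map_comap_cent_conj_le {G X A : Type*} [Group G] [Group X] [CommGroup A] (c : G →* X)
    (d : G →* A) (x : X) (P : G) :
    ((Subgroup.centralizer {x}).comap c).map d ≤
      ((Subgroup.centralizer {c P * x * (c P)⁻¹}).comap c).map d := by
  rintro _ ⟨g, hg, rfl⟩
  have hg' : c g * x = x * c g := Subgroup.mem_centralizer_singleton_iff.1 hg
  refine ⟨P * g * P⁻¹, ?_, ?_⟩
  · show c (P * g * P⁻¹) ∈ Subgroup.centralizer {c P * x * (c P)⁻¹}
    apply Subgroup.mem_centralizer_singleton_iff.2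
    simp only [map_mul, map_inv]
    have e1 : c P * c g * (c P)⁻¹ * (c P * x * (c P)⁻¹) = c P * (c g * x) * (c P)⁻¹ := by group
    have e2 : c P * x * (c P)⁻¹ * (c P * c g * (c P)⁻¹) = c P * (x * c g) * (c P)⁻¹ := by group
    rw [e1, e2, hg']
  · simp only [map_mul, map_inv]
    rw [mul_comm (d P), mul_assoc, mul_inv_cancel, mul_one]

theorem DA_eq_of_conj {A B : GL (Fin n) F}
    (h : Cfsg.IsConjUnder (Cfsg.inndiagPSL n F) (gr A) (gr B)) : DA A = DA B := by
  rw [inndiagPSL_eq] at h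
  obtain ⟨_, ⟨P, rfl⟩, hB⟩ := h
  apply le_antisymm
  · unfold DA
    rw [hB]
    exact map_comap_cent_conj_le _ _ _ _
  · have hA : gr A = cG P⁻¹ * gr B * (cG P⁻¹)⁻¹ := by
      rw [hB, map_inv]
      group
    unfold DA
    rw [hA]
    exact map_comap_cent_conj_le _ _ _ _

theorem split_eq_index (hn : 1 ≤ n) (A : GL (Fin n) F) :
    Cfsg.splitClassCount (Cfsg.inndiagPSL n F)
      (Cfsg.Inn (ProjectiveSpecialLinearGroup (Fin n) F)) (gr A) = (DA A).index := by
  rw [inndiagPSL_eq, inn_eq_map hn, splitClassCount_eq_index _ _ (det_surjective hn)]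
  rfl

theorem pow_mem_DA (hn : 1 ≤ n) (A : GL (Fin n) F) (u : Fˣ) : u ^ n ∈ DA A := by
  refine ⟨scGL u, ?_, det_scGL u⟩
  show cG (scGL u) ∈ Subgroup.centralizer {gr A}
  rw [cG_scGL]
  exact Subgroup.one_mem _

theorem det_sq_of_simil {A g : GL (Fin n) F} {u : Fˣ} (h : g.1 * A.1 * g.1ᵀ = (u : F) • A.1) :
    g.1.det * g.1.det = (u : F) ^ n := by
  have hdet : A.1.det ≠ 0 := ((Matrix.isUnit_iff_isUnit_det _).1 A.isUnit).ne_zero
  have h1 := congrArg Matrix.det h
  rw [det_mul, det_mul, det_transpose, det_smul, Fintype.card_fin] at h1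
  apply mul_right_cancel₀ hdet
  linear_combination h1

/-- `n` odd: the determinants are the `n`-th powers. -/
theorem DA_odd (hn : 1 ≤ n) (hodd : Odd n) (A : GL (Fin n) F) :
    DA A = (powMonoidHom n : Fˣ →* Fˣ).range := by
  apply le_antisymm
  · intro w hw
    obtain ⟨g, u, hu, hw⟩ := (mem_DA hn A w).1 hw
    have h1 := det_sq_of_simil hu
    rw [hw] at h1
    obtain ⟨k, hk⟩ := hodd
    -- `u = (w / u ^ k) ^ 2`
    have h2 : w * w = u ^ n := Units.ext (by simpa using h1)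
    obtain ⟨v, hv⟩ : ∃ v : Fˣ, v = w * (u ^ k)⁻¹ := ⟨_, rfl⟩
    have h3 : v * v = u := by
      have : u ^ n = u ^ k * u ^ k * u := by
        rw [← pow_add, ← pow_succ]; congr 1; omega
      rw [hv]
      calc w * (u ^ k)⁻¹ * (w * (u ^ k)⁻¹) = (w * w) * ((u ^ k)⁻¹ * (u ^ k)⁻¹) := by
            rw [mul_mul_mul_comm]
        _ = u := by rw [h2, this]; group
    have h4 : (w * (v ^ n)⁻¹) * (w * (v ^ n)⁻¹) = 1 := by
      calc (w * (v ^ n)⁻¹) * (w * (v ^ n)⁻¹) = (w * w) * ((v * v) ^ n)⁻¹ := by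
            rw [mul_mul_mul_comm, ← _root_.mul_inv, ← mul_pow]
        _ = 1 := by rw [h3, h2, mul_inv_cancel]
    have h5 : w * (v ^ n)⁻¹ = 1 ∨ w * (v ^ n)⁻¹ = -1 := by
      have h6 : ((w * (v ^ n)⁻¹ : Fˣ) : F) * ((w * (v ^ n)⁻¹ : Fˣ) : F) = 1 := by
        rw [← Units.val_mul, h4, Units.val_one]
      rcases mul_self_eq_one_iff.1 h6 with h | h
      · exact Or.inl (Units.ext h)
      · exact Or.inr (Units.ext (by rw [h]; simp))
    rcases h5 with h5 | h5
    · exact ⟨v, by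
        show v ^ n = w
        rw [mul_inv_eq_one] at h5
        exact h5.symm⟩
    · refine ⟨-v, ?_⟩
      show (-v) ^ n = w
      rw [mul_inv_eq_iff_eq_mul] at h5
      have hodd' : Odd n := ⟨k, hk⟩
      rw [h5, hodd'.neg_pow, neg_one_mul]
  · rintro _ ⟨u, rfl⟩
    exact pow_mem_DA hn A u

/-- characteristic two: the determinants are the `n`-th powers. -/
theorem DA_two [CharP F 2] (hperf : ∀ x : F, ∃ y, y * y = x) (hn : 1 ≤ n) (A : GL (Fin n) F) :
    DA A = (powMonoidHom n : Fˣ →* Fˣ).range := by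
  apply le_antisymm
  · intro w hw
    obtain ⟨g, u, hu, hw⟩ := (mem_DA hn A w).1 hw
    have h1 := det_sq_of_simil hu
    rw [hw] at h1
    obtain ⟨y, hy⟩ := hperf (u : F)
    have hy0 : y ≠ 0 := by
      rintro rfl
      rw [mul_zero] at hy
      exact u.ne_zero hy.symm
    refine ⟨Units.mk0 y hy0, Units.ext ?_⟩
    show ((Units.mk0 y hy0 ^ n : Fˣ) : F) = w
    rw [Units.val_pow_eq_pow_val, Units.val_mk0]
    apply mul_self_inj_char_two
    rw [h1, ← hy, mul_pow]
  · rintro _ ⟨u, rfl⟩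
    exact pow_mem_DA hn A u

/-- alternating case: the determinants are the `m`-th powers, `n = 2m`. -/
theorem DA_alt (hn : 1 ≤ n) {m : ℕ} (hnm : n = 2 * m) (A : GL (Fin n) F)
    (hA : ∀ x, x ⬝ᵥ A.1 *ᵥ x = 0) : DA A = (powMonoidHom m : Fˣ →* Fˣ).range := by
  have hdet : A.1.det ≠ 0 := ((Matrix.isUnit_iff_isUnit_det _).1 A.isUnit).ne_zero
  have key : ∀ (g : GL (Fin n) F) (u : Fˣ), g.1 * A.1 * g.1ᵀ = (u : F) • A.1 →
      g.1.det = (u : F) ^ m := by
    intro g u hu
    have := det_of_alt_simil (Matrix.toBilin' A.1)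
      (LinearMap.BilinForm.nondegenerate_toBilin'_iff_det_ne_zero.2 hdet)
      (fun x => by rw [Matrix.toBilin'_apply']; exact hA x) m (by simp [hnm])
      (Matrix.toLin' g.1ᵀ) u u.ne_zero (by
        intro x y
        rw [Matrix.toBilin'_apply', Matrix.toBilin'_apply', Matrix.toLin'_apply, Matrix.toLin'_apply,
          bilin_congr, transpose_transpose, hu, Matrix.smul_mulVec, dotProduct_smul, smul_eq_mul])
    rwa [LinearMap.det_toLin', det_transpose] at this
  apply le_antisymm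
  · intro w hw
    obtain ⟨g, u, hu, hw⟩ := (mem_DA hn A w).1 hw
    refine ⟨u, Units.ext ?_⟩
    show ((u ^ m : Fˣ) : F) = w
    rw [← hw, key g u hu, Units.val_pow_eq_pow_val]
  · rintro _ ⟨u, rfl⟩
    obtain ⟨g, hg⟩ := exists_congr_alt A (scGL u * A) hA (by
      intro x
      rw [scGL_mul_coe, Matrix.smul_mulVec, dotProduct_smul, hA, smul_zero])
    rw [scGL_mul_coe] at hg
    refine (mem_DA hn A _).2 ⟨g, u, hg.symm, ?_⟩
    rw [key g u hg.symm]
    show (u : F) ^ m = ((u ^ m : Fˣ) : F)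
    rw [Units.val_pow_eq_pow_val]

/-- symmetric case, even dimension, odd characteristic. -/
theorem DA_sym [Fintype F] (h2 : (2 : F) ≠ 0) (hn : 1 ≤ n) {m : ℕ} (hnm : n = 2 * m)
    (A : GL (Fin n) F) (hA : A.1ᵀ = A.1) (hneg : (-1 : Fˣ) ∈ DA A) :
    DA A = (powMonoidHom m : Fˣ →* Fˣ).range ⊔ Subgroup.zpowers (-1) := by
  have hpow : ∀ u : Fˣ, (u : F) ^ n = (u : F) ^ m * (u : F) ^ m := by
    intro u
    rw [← pow_add]; congr 1; omega
  have key : ∀ (g : GL (Fin n) F) (u w : Fˣ), g.1 * A.1 * g.1ᵀ = (u : F) • A.1 →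
      g.1.det = (w : F) → w = u ^ m ∨ w = -1 * u ^ m := by
    intro g u w hu hw
    have h1 := det_sq_of_simil hu
    rw [hw, hpow] at h1
    rcases mul_self_eq_mul_self_iff.1 h1 with h | h
    · left
      exact Units.ext (by rw [h, Units.val_pow_eq_pow_val])
    · right
      exact Units.ext (by rw [h]; simp)
  apply le_antisymm
  · intro w hw
    obtain ⟨g, u, hu, hw⟩ := (mem_DA hn A w).1 hw
    rcases key g u w hu hw with h | h
    · rw [h]
      exact Subgroup.mem_sup_left ⟨u, rfl⟩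
    · rw [h]
      exact Subgroup.mul_mem _ (Subgroup.mem_sup_right (Subgroup.mem_zpowers _))
        (Subgroup.mem_sup_left ⟨u, rfl⟩)
  · rw [sup_le_iff]
    constructor
    · rintro _ ⟨u, rfl⟩
      obtain ⟨g, hg⟩ := exists_congr_sym h2 A (scGL u * A) hA
        (by rw [scGL_mul_coe, transpose_smul, hA])
        (by
          rw [scGL_mul_coe, det_smul, Fintype.card_fin, hpow]
          exact ⟨(u : F) ^ m * A.1.det, by ring⟩)
      rw [scGL_mul_coe] at hg
      have hmem : Matrix.GeneralLinearGroup.det g ∈ DA A :=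
        (mem_DA hn A _).2 ⟨g, u, hg.symm, rfl⟩
      show u ^ m ∈ DA A
      rcases key g u (Matrix.GeneralLinearGroup.det g) hg.symm rfl with h | h
      · rw [← h]; exact hmem
      · have h3 : u ^ m = -1 * Matrix.GeneralLinearGroup.det g := by
          rw [h]; simp
        rw [h3]
        exact Subgroup.mul_mem _ hneg hmem
    · rw [Subgroup.zpowers_le]
      exact hneg

section gram

variable {ι : Type} [Fintype ι] [DecidableEq ι]

theorem reGL_congr (e : ι ≃ Fin n) (h M : GL ι F) :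
    (reGL e h).1ᵀ * (reGL e M).1 * (reGL e h).1 = Matrix.reindex e e (h.1ᵀ * M.1 * h.1) := by
  simp only [reGL_coe, Matrix.reindex_apply, Matrix.transpose_submatrix, Matrix.submatrix_mul_equiv]

theorem gram_congr_of_isometry (Q : QuadraticForm F (ι → F)) (h : GL ι F)
    (hh : ∀ v, Q (h.1 *ᵥ v) = Q v) : h.1ᵀ * gramM Q * h.1 = gramM Q := by
  apply matrix_eq_of_bilin
  intro x y
  rw [← bilin_congr, gramM_bilin, gramM_bilin]
  unfold polar
  rw [← Matrix.mulVec_add, hh, hh, hh]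

theorem isometry_of_gram_congr (h2 : (2 : F) ≠ 0) (Q : QuadraticForm F (ι → F)) (h : GL ι F)
    (hh : h.1ᵀ * gramM Q * h.1 = gramM Q) (v : ι → F) : Q (h.1 *ᵥ v) = Q v := by
  have h1 := bilin_congr (gramM Q) h.1 v v
  rw [hh, gramM_bilin, gramM_bilin, polar_self, polar_self, two_nsmul, two_nsmul] at h1
  have h3 : (2 : F) * Q (h.1 *ᵥ v) = 2 * Q v := by linear_combination h1
  exact mul_left_cancel₀ h2 h3

theorem exists_ne_zero_of_nondeg [Nonempty ι] {Q : QuadraticForm F (ι → F)}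
    (hQ : (polarBilin Q).Nondegenerate) : ∃ v, Q v ≠ 0 := by
  by_contra hcon
  push Not at hcon
  obtain ⟨i⟩ := ‹Nonempty ι›
  have h1 : (Pi.single i 1 : ι → F) = 0 := by
    apply hQ.1
    intro y
    rw [polarBilin_apply_apply]
    unfold polar
    rw [hcon, hcon, hcon]
    simp
  have := congrFun h1 i
  simp at this

theorem neg_one_mem_DA_gram (hn : 1 ≤ n) (e : ι ≃ Fin n) (Q : QuadraticForm F (ι → F))
    (hQ : (polarBilin Q).Nondegenerate) : (-1 : Fˣ) ∈ DA (reGL e (gramGL Q hQ)) := by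
  have : Nonempty ι := ⟨e.symm ⟨0, by omega⟩⟩
  obtain ⟨v, hv⟩ := exists_ne_zero_of_nondeg hQ
  have h1 := gram_congr_of_isometry Q (reflElt Q v : GL ι F) (mem_isometryGroup.1 (reflElt Q v).2)
  refine (mem_DA hn _ _).2 ⟨(invTGL (reGL e (reflElt Q v : GL ι F)))⁻¹, 1, ?_, ?_⟩
  · rw [invTGL_inv_coe, transpose_transpose, reGL_congr, gramGL_coe, h1, Units.val_one, one_smul]
    rfl
  · rw [invTGL_inv_coe, det_transpose, reGL_det, det_reflElt Q hv]
    simp

end gram

end Cfsg.Agent.Lib.Helper44
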