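import Cfsg.Agent.Lib.Helper44.GraphPSUTr
import Cfsg.Agent.Lib.Helper44.GraphPSLCard

/-!
# Splitting of the classes of graph involutions of `PSU_n(q)`
-/

set_option autoImplicit false

namespace Cfsg.Agent.Lib.Helper44

open Matrix Cfsg.Agent.Lib.Helper43.PA Cfsg.Agent.Lib.Helper43.PU

section bar

variable {F : Type*} [Field F] [Fintype F] {F₀ : Type*} [Field F₀] {q n : ℕ}
  {hF : Fintype.card F = q ^ 2} {ι : F₀ →+* F} (hι : ∀ x, barE hF x = x ↔ ∃ y, ι y = x)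

local notation "gdet" => Matrix.GeneralLinearGroup.det

omit [Fintype F] in
theorem det_iG (ι : F₀ →+* F) (b : GL (Fin n) F₀) :
    gdet (iG ι b) = Units.map (ι : F₀ →* F) (gdet b) := by
  apply Units.ext
  show (b.1.map ι).det = ι b.1.det
  rw [RingHom.map_det]
  rfl

theorem det_conjGL {K : Type*} [Field K] (a x : GL (Fin n) K) : gdet (a * x * a⁻¹) = gdet x := by
  rw [map_mul, map_mul, map_inv, mul_comm (gdet a), mul_inv_cancel_right]

theorem det_invTGL {K : Type*} [Field K] (b : GL (Fin n) K) : gdet (invTGL b) = (gdet b)⁻¹ := by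
  apply Units.ext
  show (invTGL b).1.det = _
  rw [invTGL_coe, Matrix.det_transpose, ← map_inv]
  rfl

theorem det_sq_of_simil' {K : Type*} [Field K] {b M : GL (Fin n) K} {c : Kˣ}
    (h : b * M * (invTGL b)⁻¹ = scGL c * M) : gdet b * gdet b = c ^ n := by
  have h1 := congrArg gdet h
  rw [map_mul, map_mul, map_inv, det_invTGL, inv_inv, map_mul, det_scGL] at h1
  apply mul_right_cancel (b := gdet M)
  rw [← h1, mul_assoc, mul_assoc, mul_comm (gdet M)]

variable (hF) in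
/-- the determinants of the unitary matrices centralizing `γ`. -/
noncomputable def DU (hn : 1 ≤ n) (γ : MulAut (Cfsg.PSU n F q)) : Subgroup ↥(U1 F q) :=
  ((Subgroup.centralizer {γ}).comap cGU).map (detU hF hn)

theorem splitU_eq_index (hn : 1 ≤ n) (γ : MulAut (Cfsg.PSU n F q)) :
    Cfsg.splitClassCount (Cfsg.inndiagPSU n F q) (Cfsg.Inn (Cfsg.PSU n F q)) γ =
      (DU hF hn γ).index := by
  rw [inndiagPSU_eq, inn_eq_map_U hF hn, splitClassCount_eq_index _ _ (detU_surjective hF hn)]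
  rfl

include hι in
theorem tau_conj (hn : 1 ≤ n) {a : GL (Fin n) F} {M : GL (Fin n) F₀} (h : UData hF ι a M)
    {b : GL (Fin n) F₀} {c₀ : F₀ˣ} (hb : b * M * (invTGL b)⁻¹ = scGL c₀ * M) :
    tauGL (barE hF) (a * iG ι b * a⁻¹) =
      scGL (Units.map (ι : F₀ →* F) c₀)⁻¹ * (a * iG ι b * a⁻¹) := by
  obtain ⟨ε, hε⟩ := (cG_eq_iff hn _ _).1 h
  have h1 : M * invTGL b = scGL c₀⁻¹ * (b * M) := by
    have h0 : b * M = scGL c₀ * M * invTGL b := by rw [← hb, inv_mul_cancel_right]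
    rw [h0, mul_assoc, ← mul_assoc, ← map_mul, inv_mul_cancel, map_one, one_mul]
  have h2 : iG ι M * iG ι (invTGL b) =
      scGL (Units.map (ι : F₀ →* F) c₀)⁻¹ * (iG ι b * iG ι M) := by
    rw [← map_mul, h1, map_mul, iG_scGL, map_mul, map_inv]
  rw [map_mul, map_mul, map_inv, tau_iG hF ι hι, hε]
  calc scGL ε * (a * iG ι M) * iG ι (invTGL b) * (scGL ε * (a * iG ι M))⁻¹
      = scGL ε * (a * (iG ι M * iG ι (invTGL b)) * (iG ι M)⁻¹ * a⁻¹) * (scGL ε)⁻¹ := by group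
    _ = a * (iG ι M * iG ι (invTGL b)) * (iG ι M)⁻¹ * a⁻¹ := by
        rw [scGL_comm, mul_inv_cancel_right]
    _ = a * scGL (Units.map (ι : F₀ →* F) c₀)⁻¹ * (iG ι b * a⁻¹) := by rw [h2]; group
    _ = scGL (Units.map (ι : F₀ →* F) c₀)⁻¹ * (a * iG ι b * a⁻¹) := by
        rw [← scGL_comm]; group

include hι in
theorem mem_DU (hn : 3 ≤ n) {a : GL (Fin n) F} {M : GL (Fin n) F₀} (h : UData hF ι a M)
    (w : ↥(U1 F q)) :
    w ∈ DU hF (by omega) (gU hF (by omega) ⟨AU hF a, AU_mem_CU hι (by omega) h⟩) ↔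
      ∃ (b : GL (Fin n) F₀) (c₀ : F₀ˣ) (v : Fˣ), b * M * (invTGL b)⁻¹ = scGL c₀ * M ∧
        v * uM (barE hF) v = Units.map (ι : F₀ →* F) c₀ ∧
        w.1 = (v ^ n)⁻¹ * Units.map (ι : F₀ →* F) (gdet b) := by
  have hn1 : 1 ≤ n := by omega
  constructor
  · rintro ⟨g, hg, rfl⟩
    have hg' : cGU g ∈ Subgroup.centralizer
      {gU hF (by omega) ⟨AU hF a, AU_mem_CU hι (by omega) h⟩} := hg
    rw [← cCU_of_GU hF hn1 g] at hg'
    have h1 := (mem_cent_gU_iff' hF hn _ _).1 hg'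
    obtain ⟨u, hu⟩ := (cG_eq_iff hn1 _ _).1 (fixed_of_twist h1.symm)
    obtain ⟨v, b, hb⟩ := descend hF ι hι hn1 hu
    have hx : a * iG ι b * a⁻¹ = scGL v * g.1 := by
      rw [← hb]
      calc a * (scGL v * (a⁻¹ * g.1 * a)) * a⁻¹ = (a * scGL v) * (a⁻¹ * g.1) := by group
        _ = scGL v * a * (a⁻¹ * g.1) := by rw [scGL_comm]
        _ = scGL v * g.1 := by group
    have hmem : a * iG ι b * a⁻¹ ∈ CU hF n := by
      rw [hx]
      exact (CU hF n).mul_mem (scGL_mem_CU hF v) (GU_le_CU hF g.2)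
    obtain ⟨c₀, hc₀⟩ := (cG_eq_iff hn1 _ _).1 ((conj_mem_CU_iff hι hn1 h h b).1 hmem).symm
    refine ⟨b, c₀, v, hc₀, ?_, ?_⟩
    · have h3 := tau_conj hι hn1 h hc₀
      rw [hx, map_mul, tauGL_scGL, (mem_GU_iff_tau' hF g.1).1 g.2, ← mul_assoc, mul_left_inj,
        ← map_mul] at h3
      have h4 := scGL_injective hn1 h3
      rw [inv_eq_iff_eq_inv, _root_.mul_inv_rev, inv_inv] at h4
      rw [h4, mul_inv_cancel_left]
    · have h5 := congrArg gdet hx
      rw [det_conjGL, det_iG, map_mul, det_scGL] at h5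
      rw [h5, inv_mul_cancel_left]
      rfl
  · rintro ⟨b, c₀, v, hb, hv, hw⟩
    have h3 := tau_conj hι hn1 h hb
    have hmem : a * iG ι b * a⁻¹ ∈ CU hF n := ⟨_, h3⟩
    have hg : scGL v⁻¹ * (a * iG ι b * a⁻¹) ∈ Cfsg.GU n F q := by
      rw [mem_GU_iff_tau' hF, map_mul, tauGL_scGL, h3, ← mul_assoc, ← map_mul, ← hv]
      congr 2
      rw [map_inv, inv_inv, _root_.mul_inv_rev, mul_inv_cancel_left]
    refine ⟨⟨_, hg⟩, ?_, Subtype.ext ?_⟩
    · show cGU _ ∈ Subgroup.centralizer _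
      rw [← cCU_of_GU hF hn1]
      have h6 : cCU hF hn1 ⟨scGL v⁻¹ * (a * iG ι b * a⁻¹), GU_le_CU hF hg⟩ =
          cCU hF hn1 ⟨a * iG ι b * a⁻¹, hmem⟩ := (cCU_eq_iff' hF hn _ _).2 (cG_scGL_mul _ _)
      rw [h6]
      apply (mem_cent_gU_iff' hF hn _ _).2
      show cG (a * iG ι b * a⁻¹ * AU hF a * (mapGL (barE hF) (a * iG ι b * a⁻¹))⁻¹) = _
      rw [twist_conj hι]
    · rw [hw, detU_coe]
      show gdet (scGL v⁻¹ * (a * iG ι b * a⁻¹)) = _
      rw [map_mul, det_scGL, det_conjGL, det_iG, inv_pow]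


variable (hF) in
/-- `v̄ / v`, of norm one. -/
noncomputable def zU (v : Fˣ) : ↥(U1 F q) := ⟨uM (barE hF) v * v⁻¹, by
  rw [mem_U1]
  apply pow_succ_of_norm hF
  rw [map_mul, map_inv, uM_bar_bar, mul_assoc, inv_mul_cancel_left, mul_inv_cancel]⟩

theorem zU_coe (v : Fˣ) : (zU hF v).1 = uM (barE hF) v * v⁻¹ := rfl

theorem zU_surjective (z : ↥(U1 F q)) : ∃ v : Fˣ, zU hF v = z := by
  obtain ⟨x, hx⟩ := h90_bar hF z.1 (norm_of_pow_succ hF z.2)
  refine ⟨x⁻¹, Subtype.ext ?_⟩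
  rw [zU_coe, hx, map_inv, inv_inv, mul_comm]

include hι in
theorem exists_norm_eq (v : Fˣ) :
    ∃ c₀ : F₀ˣ, v * uM (barE hF) v = Units.map (ι : F₀ →* F) c₀ := by
  obtain ⟨c₀, hc₀⟩ := exists_unit_of_fixed hF ι hι (v * uM (barE hF) v) (by
    rw [map_mul, uM_bar_bar, mul_comm])
  exact ⟨c₀, hc₀.symm⟩

theorem cgA {A : Type*} [CommGroup A] (V W : A) : (V * V)⁻¹ * (V * W) = W * V⁻¹ := by
  apply Additive.ofMul.injective
  simp only [ofMul_mul, ofMul_inv]
  abel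

theorem key_pow {v : Fˣ} {c₀ : F₀ˣ} (hv : v * uM (barE hF) v = Units.map (ι : F₀ →* F) c₀)
    {m : ℕ} (hnm : n = 2 * m) :
    (v ^ n)⁻¹ * Units.map (ι : F₀ →* F) (c₀ ^ m) = (zU hF v).1 ^ m := by
  rw [map_pow, ← hv, zU_coe, mul_pow, mul_pow, hnm, two_mul, pow_add, cgA, inv_pow]

theorem invTGL_one {K : Type*} [Field K] : invTGL (1 : GL (Fin n) K) = 1 := map_one itGL

include hι in
theorem pow_mem_DU (hn : 3 ≤ n) {a : GL (Fin n) F} {M : GL (Fin n) F₀} (h : UData hF ι a M)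
    (z : ↥(U1 F q)) :
    z ^ n ∈ DU hF (by omega) (gU hF (by omega) ⟨AU hF a, AU_mem_CU hι (by omega) h⟩) := by
  refine (mem_DU hι hn h _).2 ⟨1, 1, z.1⁻¹, ?_, ?_, ?_⟩
  · rw [invTGL_one, map_one, inv_one, mul_one]
  · rw [map_one, map_inv, ← _root_.mul_inv_rev, mul_comm, norm_of_pow_succ hF z.2, inv_one]
  · rw [map_one, map_one, mul_one, inv_pow, inv_inv]
    rfl

theorem index_pow_U1 (hF : Fintype.card F = q ^ 2) (k : ℕ) :
    (powMonoidHom k : ↥(U1 F q) →* ↥(U1 F q)).range.index = Nat.gcd k (q + 1) := by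
  have h1 := cyclic_index k (⊥ : Subgroup ↥(U1 F q))
  rwa [sup_bot_eq, Subgroup.index_bot, card_U1 hF] at h1

include hι in
theorem DU_of_odd (hn : 3 ≤ n) {a : GL (Fin n) F} {M : GL (Fin n) F₀} (h : UData hF ι a M)
    (hodd : Odd (Nat.gcd n (q + 1))) :
    DU hF (by omega) (gU hF (by omega) ⟨AU hF a, AU_mem_CU hι (by omega) h⟩) =
      (powMonoidHom n : ↥(U1 F q) →* ↥(U1 F q)).range := by
  apply le_antisymm
  · intro w hw
    obtain ⟨b, c₀, v, hb, hv, hw⟩ := (mem_DU hι hn h w).1 hw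
    have h1 := det_sq_of_simil' hb
    have h2 : w ^ 2 ∈ (powMonoidHom n : ↥(U1 F q) →* ↥(U1 F q)).range := by
      refine ⟨zU hF v, Subtype.ext ?_⟩
      show (zU hF v).1 ^ n = w.1 ^ 2
      rw [hw, sq, mul_mul_mul_comm, ← map_mul, h1, map_pow, ← hv, zU_coe, mul_pow, mul_pow,
        ← _root_.mul_inv_rev, cgA, inv_pow]
    have h3 := Subgroup.pow_index_mem (powMonoidHom n : ↥(U1 F q) →* ↥(U1 F q)).range w
    rw [index_pow_U1 hF] at h3
    obtain ⟨k, hk⟩ := hodd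
    rw [hk, pow_succ, pow_mul] at h3
    have h4 := Subgroup.mul_mem _ (Subgroup.inv_mem _ (Subgroup.pow_mem _ h2 k)) h3
    rwa [inv_mul_cancel_left] at h4
  · rintro _ ⟨z, rfl⟩
    exact pow_mem_DU hι hn h z

theorem det_of_alt_congr {K : Type*} [Field K] {m : ℕ} (hnm : n = 2 * m) {A g : GL (Fin n) K}
    (hA : ∀ x, x ⬝ᵥ A.1 *ᵥ x = 0) {u : Kˣ} (hu : g * A * (invTGL g)⁻¹ = scGL u * A) :
    gdet g = u ^ m := by
  have hdet : A.1.det ≠ 0 := ((Matrix.isUnit_iff_isUnit_det _).1 A.isUnit).ne_zero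
  have hu' : g.1 * A.1 * g.1ᵀ = (u : K) • A.1 := by
    rw [← congr_coe, hu, scGL_mul_coe]
  have := det_of_alt_simil (Matrix.toBilin' A.1)
    (LinearMap.BilinForm.nondegenerate_toBilin'_iff_det_ne_zero.2 hdet)
    (fun x => by rw [Matrix.toBilin'_apply']; exact hA x) m (by simp [hnm])
    (Matrix.toLin' g.1ᵀ) u u.ne_zero (by
      intro x y
      rw [Matrix.toBilin'_apply', Matrix.toBilin'_apply', Matrix.toLin'_apply, Matrix.toLin'_apply,
        bilin_congr, transpose_transpose, hu', Matrix.smul_mulVec, dotProduct_smul, smul_eq_mul])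
  rw [LinearMap.det_toLin', det_transpose] at this
  apply Units.ext
  rw [Units.val_pow_eq_pow_val, ← this]
  rfl

include hι in
theorem DU_alt (hn : 3 ≤ n) {a : GL (Fin n) F} {M : GL (Fin n) F₀} (h : UData hF ι a M)
    {m : ℕ} (hnm : n = 2 * m) (hM : ∀ x, x ⬝ᵥ M.1 *ᵥ x = 0) :
    DU hF (by omega) (gU hF (by omega) ⟨AU hF a, AU_mem_CU hι (by omega) h⟩) =
      (powMonoidHom m : ↥(U1 F q) →* ↥(U1 F q)).range := by
  apply le_antisymm
  · intro w hw
    obtain ⟨b, c₀, v, hb, hv, hw⟩ := (mem_DU hι hn h w).1 hw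
    refine ⟨zU hF v, Subtype.ext ?_⟩
    show (zU hF v).1 ^ m = w.1
    rw [hw, det_of_alt_congr hnm hM hb, key_pow hv hnm]
  · rintro _ ⟨z, rfl⟩
    obtain ⟨v, rfl⟩ := zU_surjective (hF := hF) z
    obtain ⟨c₀, hc₀⟩ := exists_norm_eq hι v
    obtain ⟨g, hg⟩ := exists_congr_alt M (scGL c₀ * M) hM (by
      intro x
      rw [scGL_mul_coe, Matrix.smul_mulVec, dotProduct_smul, hM, smul_zero])
    have hg' : g * M * (invTGL g)⁻¹ = scGL c₀ * M := by
      apply Units.ext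
      rw [congr_coe, hg]
    refine (mem_DU hι hn h _).2 ⟨g, c₀, v, hg', hc₀, ?_⟩
    rw [det_of_alt_congr hnm hM hg', key_pow hc₀ hnm]
    rfl

/-- there is an isometry of determinant `-1`. -/
def IsoNeg {K : Type*} [Field K] (M : GL (Fin n) K) : Prop :=
  ∃ b : GL (Fin n) K, b * M * (invTGL b)⁻¹ = M ∧ gdet b = -1

theorem units_sq_eq {K : Type*} [Field K] {x y : Kˣ} (h : x * x = y * y) : x = y ∨ x = -y := by
  have h1 := congrArg Units.val h
  rw [Units.val_mul, Units.val_mul] at h1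
  rcases mul_self_eq_mul_self_iff.1 h1 with h | h
  · exact Or.inl (Units.ext h)
  · exact Or.inr (Units.ext (by rw [h, Units.val_neg]))

/-- `-1` as an element of norm one. -/
def negU (F : Type*) [Field F] {q : ℕ} (hq : Odd q) : ↥(U1 F q) := ⟨-1, by
  show (-1 : Fˣ) ^ (q + 1) = 1
  exact Even.neg_one_pow hq.add_one⟩

omit [Fintype F] in
theorem map_neg_units (x : F₀ˣ) :
    Units.map (ι : F₀ →* F) (-x) = -Units.map (ι : F₀ →* F) x := by
  apply Units.ext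
  simp

include hι in
theorem DU_sym [Fintype F₀] (h2 : (2 : F₀) ≠ 0) (hq : Odd q) (hn : 3 ≤ n) {a : GL (Fin n) F}
    {M : GL (Fin n) F₀} (h : UData hF ι a M) {m : ℕ} (hnm : n = 2 * m) (hM : M.1ᵀ = M.1)
    (hneg : IsoNeg M) :
    DU hF (by omega) (gU hF (by omega) ⟨AU hF a, AU_mem_CU hι (by omega) h⟩) =
      (powMonoidHom m : ↥(U1 F q) →* ↥(U1 F q)).range ⊔ Subgroup.zpowers (negU F hq) := by
  have hpow : ∀ u : F₀ˣ, u ^ n = u ^ m * u ^ m := by
    intro u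
    rw [← pow_add]; congr 1; omega
  have key : ∀ (w : ↥(U1 F q)) (b : GL (Fin n) F₀) (c₀ : F₀ˣ) (v : Fˣ),
      b * M * (invTGL b)⁻¹ = scGL c₀ * M → v * uM (barE hF) v = Units.map (ι : F₀ →* F) c₀ →
      w.1 = (v ^ n)⁻¹ * Units.map (ι : F₀ →* F) (gdet b) →
      w = zU hF v ^ m ∨ w = negU F hq * zU hF v ^ m := by
    intro w b c₀ v hb hv hw
    have h1 := det_sq_of_simil' hb
    rw [hpow] at h1
    rcases units_sq_eq h1 with h3 | h3
    · left
      apply Subtype.ext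
      rw [hw, h3, key_pow hv hnm]
      rfl
    · right
      apply Subtype.ext
      rw [hw, h3, map_neg_units, mul_neg, key_pow hv hnm]
      show _ = (-1 : Fˣ) * (zU hF v).1 ^ m
      rw [neg_one_mul]
  have hnegmem : negU F hq ∈
      DU hF (by omega) (gU hF (by omega) ⟨AU hF a, AU_mem_CU hι (by omega) h⟩) := by
    obtain ⟨b, hb, hdet⟩ := hneg
    refine (mem_DU hι hn h _).2 ⟨b, 1, 1, by rw [hb, map_one, one_mul], by simp, ?_⟩
    rw [hdet, map_neg_units, map_one, one_pow, inv_one, one_mul]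
    rfl
  apply le_antisymm
  · intro w hw
    obtain ⟨b, c₀, v, hb, hv, hw⟩ := (mem_DU hι hn h w).1 hw
    rcases key w b c₀ v hb hv hw with h3 | h3
    · rw [h3]
      exact Subgroup.mem_sup_left ⟨zU hF v, rfl⟩
    · rw [h3]
      exact Subgroup.mul_mem _ (Subgroup.mem_sup_right (Subgroup.mem_zpowers _))
        (Subgroup.mem_sup_left ⟨zU hF v, rfl⟩)
  · rw [sup_le_iff]
    constructor
    · rintro _ ⟨z, rfl⟩
      obtain ⟨v, rfl⟩ := zU_surjective (hF := hF) z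
      obtain ⟨c₀, hc₀⟩ := exists_norm_eq hι v
      obtain ⟨g, hg⟩ := exists_congr_sym h2 M (scGL c₀ * M) hM
        (by rw [scGL_mul_coe, transpose_smul, hM])
        (by
          rw [scGL_mul_coe, det_smul, Fintype.card_fin]
          have h5 : (c₀ : F₀) ^ n = (c₀ : F₀) ^ m * (c₀ : F₀) ^ m := by
            rw [← pow_add]; congr 1; omega
          rw [h5]
          exact ⟨(c₀ : F₀) ^ m * M.1.det, by ring⟩)
      have hg' : g * M * (invTGL g)⁻¹ = scGL c₀ * M := by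
        apply Units.ext
        rw [congr_coe, hg]
      have hU1 : (v ^ n)⁻¹ * Units.map (ι : F₀ →* F) (gdet g) ∈ U1 F q := by
        have h1 := det_sq_of_simil' hg'
        rw [hpow] at h1
        rcases units_sq_eq h1 with h3 | h3
        · rw [h3, key_pow hc₀ hnm]
          exact (zU hF v ^ m).2
        · rw [h3, map_neg_units, mul_neg, key_pow hc₀ hnm]
          have := (negU F hq * zU hF v ^ m).2
          have e : ((negU F hq * zU hF v ^ m : ↥(U1 F q)) : Fˣ) = -(zU hF v).1 ^ m := by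
            show (-1 : Fˣ) * (zU hF v).1 ^ m = _
            rw [neg_one_mul]
          rwa [e] at this
      have hmem : (⟨_, hU1⟩ : ↥(U1 F q)) ∈
          DU hF (by omega) (gU hF (by omega) ⟨AU hF a, AU_mem_CU hι (by omega) h⟩) :=
        (mem_DU hι hn h _).2 ⟨g, c₀, v, hg', hc₀, rfl⟩
      show zU hF v ^ m ∈ _
      rcases key ⟨_, hU1⟩ g c₀ v hg' hc₀ rfl with h3 | h3
      · rw [← h3]; exact hmem
      · have h4 : zU hF v ^ m = negU F hq * ⟨_, hU1⟩ := by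
          rw [h3, ← mul_assoc]
          have : negU F hq * negU F hq = 1 := by
            apply Subtype.ext
            show (-1 : Fˣ) * (-1) = 1
            simp
          rw [this, one_mul]
        rw [h4]
        exact Subgroup.mul_mem _ hnegmem hmem
    · rw [Subgroup.zpowers_le]
      exact hnegmem

end bar


section psl

open QuadraticMap

variable {K : Type*} [Field K] {n : ℕ}

local notation "gdet" => Matrix.GeneralLinearGroup.det

theorem isoNeg_gram {κ : Type} [Fintype κ] [DecidableEq κ] (hn : 1 ≤ n) (e : κ ≃ Fin n)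
    (Q : QuadraticForm K (κ → K)) (hQ : (polarBilin Q).Nondegenerate) :
    IsoNeg (reGL e (gramGL Q hQ)) := by
  have : Nonempty κ := ⟨e.symm ⟨0, by omega⟩⟩
  obtain ⟨v, hv⟩ := exists_ne_zero_of_nondeg hQ
  have h1 := gram_congr_of_isometry Q (reflElt Q v : GL κ K) (mem_isometryGroup.1 (reflElt Q v).2)
  refine ⟨(invTGL (reGL e (reflElt Q v : GL κ K)))⁻¹, ?_, ?_⟩
  · apply Units.ext
    rw [congr_coe, invTGL_inv_coe, transpose_transpose, reGL_congr, gramGL_coe, h1]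
    rfl
  · apply Units.ext
    show ((invTGL (reGL e (reflElt Q v : GL κ K)))⁻¹ : GL (Fin n) K).1.det = _
    rw [invTGL_inv_coe, det_transpose, reGL_det, det_reflElt Q hv]
    simp

theorem isoNeg_of_conj (hn : 1 ≤ n) {M' M : GL (Fin n) K}
    (h : Cfsg.IsConjUnder (Cfsg.inndiagPSL n K) (gr M') (gr M)) (h' : IsoNeg M') : IsoNeg M := by
  obtain ⟨g, hg⟩ := (isConjUnder_gr_iff' M' M).1 h
  obtain ⟨u, hu⟩ := (cG_eq_iff hn _ _).1 hg
  obtain ⟨b, hb, hdet⟩ := h'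
  refine ⟨g * b * g⁻¹, ?_, by rw [det_conjGL, hdet]⟩
  have h1 : g * b * g⁻¹ * (g * M' * (invTGL g)⁻¹) * (invTGL (g * b * g⁻¹))⁻¹ =
      g * M' * (invTGL g)⁻¹ := by
    calc g * b * g⁻¹ * (g * M' * (invTGL g)⁻¹) * (invTGL (g * b * g⁻¹))⁻¹
        = g * (b * M' * (invTGL b)⁻¹) * (invTGL g)⁻¹ := by
          rw [invTGL_mul, invTGL_mul, invTGL_inv]
          group
      _ = g * M' * (invTGL g)⁻¹ := by rw [hb]
  rw [hu, ← mul_assoc, ← scGL_comm, mul_assoc, mul_assoc, ← mul_assoc (g * b * g⁻¹), h1]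

theorem psl_graph_cases [Fintype K] (hodd : Odd (Fintype.card K)) {m : ℕ} (hm1 : 1 ≤ m)
    (hnm : n = 2 * m) (A : GL (Fin n) K) (hT : A.1ᵀ = A.1 ∨ A.1ᵀ = -A.1) :
    (A.1ᵀ = -A.1 ∧
      Nonempty (↥(Cfsg.inndiagPSL n K ⊓ Subgroup.centralizer {gr A}) ≃* Cfsg.PGSp m K)) ∨
    (A.1ᵀ = A.1 ∧ IsoNeg A ∧
      ¬ Nonempty (↥(Cfsg.inndiagPSL n K ⊓ Subgroup.centralizer {gr A}) ≃* Cfsg.PGSp m K)) := by
  classical
  have hn1 : 1 ≤ n := by omega
  have h2 : (2 : K) ≠ 0 := two_ne_zero_of_odd_card hodd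
  let e₁ : Fin m ⊕ Fin m ≃ Fin n := Fintype.equivFinOfCardEq (by simp; omega)
  let e₃ : (Fin (m - 1) ⊕ Fin (m - 1)) ⊕ Fin 2 ≃ Fin n := Fintype.equivFinOfCardEq (by simp; omega)
  rcases hT with hA | hA
  · right
    obtain ⟨a, b, hab⟩ := exists_anisotropic (F := K) h2
    refine ⟨hA, ?_⟩
    rcases sym_cases h2 hm1 hnm e₁ e₃ hab A hA with hc | hc
    · refine ⟨isoNeg_of_conj hn1 hc (isoNeg_gram hn1 _ _ _), ?_⟩
      rintro ⟨f0⟩
      obtain ⟨f1⟩ := cent_equiv_of_isConjUnder _ hc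
      obtain ⟨f2⟩ := cent_grQ h2 hn1 e₁ (plusQF m K) (plusQF_nondeg m K)
      rw [plusQF_coe] at f2
      exact (not_iso_plus hodd m hm1).false ((f2.symm.trans f1).trans f0)
    · refine ⟨isoNeg_of_conj hn1 hc (isoNeg_gram hn1 _ _ _), ?_⟩
      rintro ⟨f0⟩
      obtain ⟨f1⟩ := cent_equiv_of_isConjUnder _ hc
      obtain ⟨f2⟩ := cent_grQ h2 hn1 e₃ (minusQF (m - 1) K a b) (minusQF_nondeg (m - 1) K hab)
      rw [minusQF_coe] at f2
      have hiso := not_iso_minus hodd (m - 1) hab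
      rw [Nat.sub_add_cancel hm1] at hiso
      exact hiso.false ((f2.symm.trans f1).trans f0)
  · left
    refine ⟨hA, ?_⟩
    obtain ⟨f1⟩ := cent_equiv_of_isConjUnder _ (conj_of_skew h2 hn1 hA (reGL_J_transpose e₁))
    obtain ⟨f2⟩ := cent_grJ (F := K) hn1 e₁
    exact ⟨f1.trans f2⟩

end psl

theorem index_zpowers_negU {F : Type*} [Field F] [Fintype F] {q : ℕ}
    (hF : Fintype.card F = q ^ 2) (hq : Odd q) :
    2 * (Subgroup.zpowers (negU F hq)).index = q + 1 := by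
  rw [← card_U1 hF, ← Subgroup.card_mul_index (Subgroup.zpowers (negU F hq)), Nat.card_zpowers]
  congr 1
  symm
  apply orderOf_eq_prime
  · apply Subtype.ext
    show (-1 : Fˣ) ^ 2 = 1
    simp
  · intro h
    have h1 := congrArg (fun x : ↥(U1 F q) => ((x : Fˣ) : F)) h
    have h2 : (-1 : F) = 1 := by simpa [negU] using h1
    have h3 : (2 : F) ≠ 0 := two_ne_zero_of_odd_card (by rw [hF]; exact hq.pow)
    apply h3
    linear_combination -h2

end Cfsg.Agent.Lib.Helper44
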