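import Cfsg.Agent.Lib.Helper44.GraphSplit

set_option autoImplicit false

namespace Cfsg.Agent.Lib.Helper44

open QuadraticMap Module Matrix

universe u

variable {F : Type u} [Field F]

theorem plus_splitCount [Fintype F] (hodd : Odd (Fintype.card F)) (m : ℕ) (hm : 4 ≤ m)
    (γ : MulAut (Cfsg.POmega F (Cfsg.quadFormPlus m F)))
    (hγ : Cfsg.IsSimilarityGraphAutPOmegaPlus m γ) (hγ2 : orderOf γ = 2) :
    (Cfsg.splitClassCount (Cfsg.inndiagPOmegaPlus m F)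
        (Cfsg.Inn (Cfsg.POmega F (Cfsg.quadFormPlus m F))) γ = 1 ∨
      Cfsg.splitClassCount (Cfsg.inndiagPOmegaPlus m F)
        (Cfsg.Inn (Cfsg.POmega F (Cfsg.quadFormPlus m F))) γ = 2) ∧
    (¬ (Odd m ∧ Fintype.card F % 4 = 3) →
      Cfsg.splitClassCount (Cfsg.inndiagPOmegaPlus m F)
        (Cfsg.Inn (Cfsg.POmega F (Cfsg.quadFormPlus m F))) γ = 2) := by
  have h2 : (2 : F) ≠ 0 := two_ne_zero_of_odd_card hodd
  have hQ := plusQF_nondeg m F
  have hex := plus_hex (F := F) m (by omega)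
  have hn : 5 ≤ Fintype.card (Fin m ⊕ Fin m) := by rw [plus_card]; omega
  obtain ⟨ν, hν⟩ := exists_nonsquare_unit h2
  obtain ⟨δ, hδ1, hδ2⟩ := plus_exists_simil' (F := F) m (by omega) ν
  have hδk : δ ∈ (chi2 h2 hQ hex m (plus_card m)).ker := by
    rw [MonoidHom.mem_ker, chi2_eq_one_iff, hδ1, hδ2, det_diag_plus]
  have heq := autSubgroupOf_eq_map_ker ⇑(plusQF m F) (chi2 h2 hQ hex m (plus_card m))
    (fun g => Cfsg.PreservesSingularClasses ⇑(plusQF m F)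
      (g : Matrix (Fin m ⊕ Fin m) (Fin m ⊕ Fin m) F)) (fun g => by
      rw [plus_preserves_iff h2 m (by omega), chi2_eq_one_iff])
  have key : ∀ γ : MulAut (Cfsg.POmega F ⇑(plusQF m F)),
      (∃ g : GL (Fin m ⊕ Fin m) F, g ∈ Cfsg.Geo.quadSimilarityGroup (F := F) ⇑(plusQF m F) ∧
        ¬ Cfsg.PreservesSingularClasses ⇑(plusQF m F)
          (g : Matrix (Fin m ⊕ Fin m) (Fin m ⊕ Fin m) F) ∧
        Cfsg.IsInducedBySemilinearPOmega ⇑(plusQF m F) g (RingEquiv.refl F) γ) →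
      orderOf γ = 2 →
      (Cfsg.splitClassCount ((chi2 h2 hQ hex m (plus_card m)).ker.map (conjPOmega ⇑(plusQF m F)))
          (Cfsg.Inn (Cfsg.POmega F ⇑(plusQF m F))) γ = 1 ∨
        Cfsg.splitClassCount ((chi2 h2 hQ hex m (plus_card m)).ker.map (conjPOmega ⇑(plusQF m F)))
          (Cfsg.Inn (Cfsg.POmega F ⇑(plusQF m F))) γ = 2) ∧
      (¬ (Odd m ∧ Fintype.card F % 4 = 3) →
        Cfsg.splitClassCount ((chi2 h2 hQ hex m (plus_card m)).ker.map (conjPOmega ⇑(plusQF m F)))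
          (Cfsg.Inn (Cfsg.POmega F ⇑(plusQF m F))) γ = 2) := by
    rintro γ ⟨g, hg1, hg2, hg3⟩ hord
    have e := (isInduced_iff ⇑(plusQF m F) ⟨g, hg1⟩ γ).1 hg3
    subst e
    have hχ : chi2 h2 hQ hex m (plus_card m) ⟨g, hg1⟩ ≠ 1 := by
      intro h
      apply hg2
      rw [chi2_eq_one_iff] at h
      exact (plus_preserves_iff h2 m (by omega) ⟨g, hg1⟩).2 h
    have := splitCount_graph h2 (plusQF m F) hQ hn hex m (plus_card m) δ
      (by rw [hδ2]; exact hν) hδk ⟨g, hg1⟩ hχ hord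
    rw [plus_negOneO_mem_iff hodd m (by omega)] at this
    exact this
  rw [← heq] at key
  clear heq hδk hδ1 hδ2
  clear δ
  rw [plusQF_coe] at key
  exact key γ hγ hγ2

end Cfsg.Agent.Lib.Helper44
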