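import Mathlib

/-!
# Grouping the vectors of a basis into blocks
-/

namespace Cfsg.Agent.Lib.Helper44

open Submodule Module

section Grouping

variable {F V : Type*} [Field F] [AddCommGroup V] [Module F V]

/-- the span of the vectors `b k` with `g k = j` -/
def blockSpan (F : Type*) {V : Type*} [Field F] [AddCommGroup V] [Module F V]
    {κ : Type*} (b : κ → V) {t : ℕ} (g : κ → Fin t) (j : Fin t) : Submodule F V :=
  span F (b '' {k | g k = j})

theorem mem_blockSpan {κ : Type*} (b : κ → V) {t : ℕ} (g : κ → Fin t) (k : κ) :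
    b k ∈ blockSpan F b g (g k) :=
  subset_span ⟨k, rfl, rfl⟩

theorem grouping {κ : Type*} [Fintype κ] {b : κ → V} (hli : LinearIndependent F b)
    (hsp : ⊤ ≤ span F (Set.range b)) {t a : ℕ} (g : κ → Fin t)
    (hg : ∀ j, Fintype.card {k // g k = j} = a) :
    (∀ j, finrank F (blockSpan F b g j) = a) ∧ iSupIndep (blockSpan F b g) ∧
      iSup (blockSpan F b g) = ⊤ := by
  refine ⟨?_, ?_, ?_⟩
  · intro j
    have h1 : b '' {k | g k = j} = Set.range (b ∘ (Subtype.val : {k // g k = j} → κ)) := by
      ext v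
      constructor
      · rintro ⟨k, hk, rfl⟩
        exact ⟨⟨k, hk⟩, rfl⟩
      · rintro ⟨k, rfl⟩
        exact ⟨k.1, k.2, rfl⟩
    rw [blockSpan, h1, finrank_span_eq_card (hli.comp _ Subtype.val_injective), hg]
  · rw [iSupIndep_def]
    intro j
    have h1 : (⨆ k, ⨆ (_ : k ≠ j), blockSpan F b g k) ≤ span F (b '' {k | g k ≠ j}) := by
      refine iSup₂_le ?_
      intro k hk
      refine span_mono (Set.image_mono ?_)
      intro l hl
      change g l = k at hl
      change g l ≠ j
      rw [hl]; exact hk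
    refine Disjoint.mono_right h1 (hli.disjoint_span_image ?_)
    rw [Set.disjoint_left]
    intro k hk hk'
    exact hk' hk
  · rw [eq_top_iff]
    refine hsp.trans (span_le.2 ?_)
    rintro _ ⟨k, rfl⟩
    exact (le_iSup (blockSpan F b g) (g k)) (mem_blockSpan b g k)

theorem exists_perm_of_map {t : ℕ} {D : Fin t → Submodule F V} (hind : iSupIndep D)
    (hne : ∀ j, D j ≠ ⊥) {X : V →ₗ[F] V} (hX : Function.Injective X)
    (h : ∀ j, ∃ j', (D j).map X = D j') :
    ∃ σ : Equiv.Perm (Fin t), ∀ j, (D j).map X = D (σ j) := by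
  choose σ hσ using h
  have hinj : Function.Injective σ := by
    intro j k hjk
    apply hind.injective hne
    apply Submodule.map_injective_of_injective hX
    rw [hσ, hσ, hjk]
  exact ⟨Equiv.ofBijective σ (Finite.injective_iff_bijective.1 hinj), hσ⟩

theorem map_eq_of_le_of_finrank [FiniteDimensional F V] {X : V →ₗ[F] V}
    (hX : Function.Injective X) {A B : Submodule F V} (h : A.map X ≤ B)
    (hd : finrank F A = finrank F B) : A.map X = B := by
  refine Submodule.eq_of_le_of_finrank_eq h ?_
  rw [← hd]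
  exact (Submodule.equivMapOfInjective X hX A).symm.finrank_eq

theorem grouping_perm [FiniteDimensional F V] {κ : Type*} [Fintype κ] {b : κ → V}
    (hli : LinearIndependent F b) (hsp : ⊤ ≤ span F (Set.range b)) {t a : ℕ} (ha : 0 < a)
    (g : κ → Fin t) (hg : ∀ j, Fintype.card {k // g k = j} = a) {X : V →ₗ[F] V}
    (hX : Function.Injective X)
    (hmap : ∀ j, ∃ j', ∀ k, g k = j → X (b k) ∈ blockSpan F b g j') :
    ∃ σ : Equiv.Perm (Fin t), ∀ j, (blockSpan F b g j).map X = blockSpan F b g (σ j) := by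
  obtain ⟨h1, h2, _⟩ := grouping hli hsp g hg
  refine exists_perm_of_map h2 ?_ hX ?_
  · intro j hj
    have := h1 j
    rw [hj, finrank_bot] at this
    omega
  · intro j
    obtain ⟨j', hj'⟩ := hmap j
    refine ⟨j', map_eq_of_le_of_finrank hX ?_ (by rw [h1, h1])⟩
    rw [blockSpan, Submodule.map_span, span_le]
    rintro _ ⟨_, ⟨k, hk, rfl⟩, rfl⟩
    exact hj' k hk

end Grouping

end Cfsg.Agent.Lib.Helper44
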