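import Mathlib

/-!
# Equivariant partitions for an involution

A finite set of size `a * t` with an involution `π` can be cut into `t` blocks of size `a`
which are permuted by `π`.
-/

namespace Cfsg.Agent.Lib.Helper44

section InvBlocks

variable {ι : Type*} [DecidableEq ι] {π : ι → ι}

theorem inv_erase_pair (hπ : ∀ i, π (π i) = i) {S : Finset ι} (hS : ∀ i ∈ S, π i ∈ S) {i : ι}
    (hi : i ∈ S) (hne : π i ≠ i) :
    (∀ j ∈ (S.erase i).erase (π i), π j ∈ (S.erase i).erase (π i)) ∧
    ((S.erase i).erase (π i)).card + 2 = S.card := by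
  constructor
  · intro j hj
    rw [Finset.mem_erase, Finset.mem_erase] at hj ⊢
    refine ⟨?_, ?_, hS j hj.2.2⟩
    · intro h
      apply hj.2.1
      rw [← hπ j, h, hπ]
    · intro h
      apply hj.1
      rw [← h, hπ]
  · have h1 : π i ∈ S.erase i := Finset.mem_erase.2 ⟨hne, hS i hi⟩
    have h2 := Finset.card_erase_add_one h1
    have h3 := Finset.card_erase_add_one hi
    omega

theorem inv_even_subset (hπ : ∀ i, π (π i) = i) : ∀ (k : ℕ) (S : Finset ι),
    (∀ i ∈ S, π i ∈ S) → 2 * k ≤ S.card →
    ∃ T ⊆ S, (∀ i ∈ T, π i ∈ T) ∧ T.card = 2 * k := by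
  intro k
  induction k with
  | zero => intro S _ _; exact ⟨∅, by simp, by simp, by simp⟩
  | succ k ih =>
    intro S hS hk
    by_cases h : ∃ i ∈ S, π i ≠ i
    · obtain ⟨i, hi, hne⟩ := h
      obtain ⟨hS', hc⟩ := inv_erase_pair hπ hS hi hne
      obtain ⟨T, hT, hTi, hTc⟩ := ih _ hS' (by omega)
      have hiT : i ∉ T := fun h => by
        have := hT h
        rw [Finset.mem_erase, Finset.mem_erase] at this
        exact this.2.1 rfl
      have hpT : π i ∉ T := fun h => by
        have := hT h
        rw [Finset.mem_erase] at this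
        exact this.1 rfl
      refine ⟨insert i (insert (π i) T), ?_, ?_, ?_⟩
      · intro j hj
        rw [Finset.mem_insert, Finset.mem_insert] at hj
        rcases hj with rfl | rfl | hj
        · exact hi
        · exact hS _ hi
        · exact Finset.mem_of_mem_erase (Finset.mem_of_mem_erase (hT hj))
      · intro j hj
        rw [Finset.mem_insert, Finset.mem_insert] at hj ⊢
        rcases hj with rfl | rfl | hj
        · exact Or.inr (Or.inl rfl)
        · exact Or.inl (hπ _)
        · exact Or.inr (Or.inr (hTi j hj))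
      · rw [Finset.card_insert_of_notMem, Finset.card_insert_of_notMem hpT, hTc]
        · ring
        · rw [Finset.mem_insert]
          rintro (h | h)
          · exact hne h.symm
          · exact hiT h
    · push Not at h
      obtain ⟨T, hT, hTc⟩ := Finset.exists_subset_card_eq hk
      exact ⟨T, hT, fun i hi => by rw [h i (hT hi)]; exact hi, hTc⟩

theorem inv_subset (hπ : ∀ i, π (π i) = i) (k : ℕ) (S : Finset ι)
    (hS : ∀ i ∈ S, π i ∈ S) (hk : k ≤ S.card) (h : Even k ∨ ∃ i ∈ S, π i = i) :
    ∃ T ⊆ S, (∀ i ∈ T, π i ∈ T) ∧ T.card = k := by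
  rcases Nat.even_or_odd' k with ⟨c, rfl | rfl⟩
  · exact inv_even_subset hπ c S hS hk
  · obtain ⟨i, hi, hfix⟩ : ∃ i ∈ S, π i = i := by
      rcases h with h | h
      · exfalso
        rw [Nat.even_iff] at h
        omega
      · exact h
    have hS' : ∀ j ∈ S.erase i, π j ∈ S.erase i := by
      intro j hj
      rw [Finset.mem_erase] at hj ⊢
      refine ⟨?_, hS j hj.2⟩
      intro h
      apply hj.1
      rw [← hπ j, h, hfix]
    have hc := Finset.card_erase_add_one hi
    obtain ⟨T, hT, hTi, hTc⟩ := inv_even_subset hπ c _ hS' (by omega)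
    have hiT : i ∉ T := fun h => by
      have := hT h
      rw [Finset.mem_erase] at this
      exact this.1 rfl
    refine ⟨insert i T, ?_, ?_, ?_⟩
    · intro j hj
      rw [Finset.mem_insert] at hj
      rcases hj with rfl | hj
      · exact hi
      · exact Finset.mem_of_mem_erase (hT hj)
    · intro j hj
      rw [Finset.mem_insert] at hj ⊢
      rcases hj with rfl | hj
      · exact Or.inl hfix
      · exact Or.inr (hTi j hj)
    · rw [Finset.card_insert_of_notMem hiT, hTc]

theorem inv_transversal (hπ : ∀ i, π (π i) = i) : ∀ (k : ℕ) (S : Finset ι),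
    (∀ i ∈ S, π i ∈ S) → (∀ i ∈ S, π i ≠ i) → 2 * k ≤ S.card →
    ∃ T ⊆ S, (∀ i ∈ T, π i ∉ T) ∧ T.card = k := by
  intro k
  induction k with
  | zero => intro S _ _ _; exact ⟨∅, by simp, by simp, by simp⟩
  | succ k ih =>
    intro S hS hfp hk
    obtain ⟨i, hi⟩ : S.Nonempty := by
      rw [← Finset.card_pos]; omega
    have hne := hfp i hi
    obtain ⟨hS', hc⟩ := inv_erase_pair hπ hS hi hne
    obtain ⟨T, hT, hTi, hTc⟩ := ih _ hS'
      (fun j hj => hfp j (Finset.mem_of_mem_erase (Finset.mem_of_mem_erase hj))) (by omega)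
    have hiT : i ∉ T := fun h => by
      have := hT h
      rw [Finset.mem_erase, Finset.mem_erase] at this
      exact this.2.1 rfl
    have hpT : π i ∉ T := fun h => by
      have := hT h
      rw [Finset.mem_erase] at this
      exact this.1 rfl
    refine ⟨insert i T, ?_, ?_, ?_⟩
    · intro j hj
      rw [Finset.mem_insert] at hj
      rcases hj with rfl | hj
      · exact hi
      · exact Finset.mem_of_mem_erase (Finset.mem_of_mem_erase (hT hj))
    · intro j hj
      rw [Finset.mem_insert] at hj ⊢
      rcases hj with rfl | hj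
      · rintro (h | h)
        · exact hne h
        · exact hpT h
      · rintro (h | h)
        · apply hpT
          rw [← h, hπ]
          exact hj
        · exact hTi j hj h
    · rw [Finset.card_insert_of_notMem hiT, hTc]

theorem inv_even_card (hπ : ∀ i, π (π i) = i) (S : Finset ι)
    (hS : ∀ i ∈ S, π i ∈ S) (hfp : ∀ i ∈ S, π i ≠ i) : Even S.card := by
  have h := Finset.prod_involution (s := S) (f := fun _ => (-1 : ℤ)) (fun i _ => π i)
    (fun _ _ => by norm_num) (fun i hi _ => hfp i hi) (fun i hi => hS i hi) (fun i _ => hπ i)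
  rw [Finset.prod_const] at h
  exact (neg_one_pow_eq_one_iff_even (by norm_num)).1 h

theorem blocks_step {a t : ℕ} {S T : Finset ι} {blk : ι → ℕ} (hd : Disjoint T S) (hT : T.card = a)
    (h1 : ∀ i ∈ S, blk i < t) (h2 : ∀ j < t, (S.filter (fun i => blk i = j)).card = a) :
    (∀ i ∈ T ∪ S, (if i ∈ T then t else blk i) < t + 1) ∧
    (∀ j < t + 1, ((T ∪ S).filter (fun i => (if i ∈ T then t else blk i) = j)).card = a) := by
  constructor
  · intro i hi
    by_cases hiT : i ∈ T
    · rw [if_pos hiT]; omega
    · rw [if_neg hiT]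
      have := h1 i ((Finset.mem_union.1 hi).resolve_left hiT)
      omega
  · intro j hj
    by_cases hjt : j = t
    · subst hjt
      rw [← hT]
      congr 1
      ext i
      rw [Finset.mem_filter, Finset.mem_union]
      constructor
      · rintro ⟨hi, hb⟩
        by_contra hiT
        rw [if_neg hiT] at hb
        have := h1 i (hi.resolve_left hiT)
        omega
      · intro hiT
        exact ⟨Or.inl hiT, if_pos hiT⟩
    · rw [← h2 j (by omega)]
      congr 1
      ext i
      rw [Finset.mem_filter, Finset.mem_filter, Finset.mem_union]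
      constructor
      · rintro ⟨hi, hb⟩
        by_cases hiT : i ∈ T
        · rw [if_pos hiT] at hb
          exact absurd hb.symm hjt
        · rw [if_neg hiT] at hb
          exact ⟨hi.resolve_left hiT, hb⟩
      · rintro ⟨hi, hb⟩
        have hiT : i ∉ T := fun h => Finset.disjoint_left.1 hd h hi
        exact ⟨Or.inr hi, by rw [if_neg hiT]; exact hb⟩

theorem inv_blocks_aux (hπ : ∀ i, π (π i) = i) {a : ℕ} (ha : 0 < a) : ∀ (t : ℕ) (S : Finset ι),
    (∀ i ∈ S, π i ∈ S) → S.card = a * t →
    ∃ blk : ι → ℕ, (∀ i ∈ S, blk i < t) ∧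
      (∀ j < t, (S.filter (fun i => blk i = j)).card = a) ∧
      (∀ j < t, ∃ j' < t, ∀ i ∈ S, blk i = j → blk (π i) = j') := by
  intro t
  induction t using Nat.strong_induction_on with
  | _ t ih =>
    intro S hS hc
    rcases Nat.eq_zero_or_pos t with rfl | ht
    · have : S = ∅ := by
        rw [← Finset.card_eq_zero, hc]; simp
      subst this
      exact ⟨fun _ => 0, by simp, by simp, by simp⟩
    by_cases hcase : Even a ∨ ∃ i ∈ S, π i = i
    · obtain ⟨t', rfl⟩ : ∃ t', t = t' + 1 := ⟨t - 1, by omega⟩
      obtain ⟨T, hTS, hTi, hTc⟩ := inv_subset hπ a S hS (by rw [hc]; nlinarith) hcase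
      have hS' : ∀ i ∈ S \ T, π i ∈ S \ T := by
        intro i hi
        rw [Finset.mem_sdiff] at hi ⊢
        refine ⟨hS i hi.1, fun h => hi.2 ?_⟩
        have := hTi _ h
        rwa [hπ] at this
      have hc' : (S \ T).card = a * t' := by
        rw [Finset.card_sdiff_of_subset hTS, hc, hTc]
        rw [Nat.mul_succ]; omega
      obtain ⟨blk, h1, h2, h3⟩ := ih t' (by omega) _ hS' hc'
      have hd : Disjoint T (S \ T) := Finset.disjoint_sdiff
      obtain ⟨k1, k2⟩ := blocks_step hd hTc h1 h2
      rw [Finset.union_sdiff_of_subset hTS] at k1 k2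
      refine ⟨_, k1, k2, ?_⟩
      intro j hj
      by_cases hjt : j = t'
      · subst hjt
        refine ⟨j, hj, ?_⟩
        intro i hi hb
        have hiT : i ∈ T := by
          by_contra hiT
          rw [if_neg hiT] at hb
          have := h1 i (Finset.mem_sdiff.2 ⟨hi, hiT⟩)
          omega
        exact if_pos (hTi i hiT)
      · obtain ⟨j', hj', h4⟩ := h3 j (by omega)
        refine ⟨j', by omega, ?_⟩
        intro i hi hb
        have hiT : i ∉ T := by
          intro hiT
          rw [if_pos hiT] at hb
          exact hjt hb.symm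
        rw [if_neg hiT] at hb
        have hi' : i ∈ S \ T := Finset.mem_sdiff.2 ⟨hi, hiT⟩
        have := hS' i hi'
        rw [if_neg (Finset.mem_sdiff.1 this).2]
        exact h4 i hi' hb
    · push Not at hcase
      obtain ⟨hodd, hfp⟩ := hcase
      have hev := inv_even_card hπ S hS hfp
      rw [hc, Nat.even_mul] at hev
      have hte : Even t := hev.resolve_left hodd
      obtain ⟨t', rfl⟩ : ∃ t', t = t' + 2 := by
        obtain ⟨c, rfl⟩ := hte
        exact ⟨c + c - 2, by omega⟩
      obtain ⟨T, hTS, hTi, hTc⟩ := inv_transversal hπ a S hS hfp (by rw [hc]; nlinarith)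
      have hinj : Function.Injective π := fun x y h => by rw [← hπ x, h, hπ]
      have hT2c : (T.image π).card = a := by
        rw [Finset.card_image_of_injective _ hinj, hTc]
      have hT2S : T.image π ⊆ S := by
        intro i hi
        obtain ⟨k, hk, rfl⟩ := Finset.mem_image.1 hi
        exact hS k (hTS hk)
      have hdT : Disjoint (T.image π) T := by
        rw [Finset.disjoint_left]
        intro i hi
        obtain ⟨k, hk, rfl⟩ := Finset.mem_image.1 hi
        exact hTi k hk
      have hmem2 : ∀ i, i ∈ T.image π ↔ π i ∈ T := by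
        intro i
        constructor
        · intro hi
          obtain ⟨k, hk, rfl⟩ := Finset.mem_image.1 hi
          rwa [hπ]
        · intro hi
          exact Finset.mem_image.2 ⟨π i, hi, hπ i⟩
      set S1 := S \ (T.image π) with hS1
      have hTS1 : T ⊆ S1 := by
        intro i hi
        exact Finset.mem_sdiff.2 ⟨hTS hi, fun h => Finset.disjoint_left.1 hdT h hi⟩
      have hS' : ∀ i ∈ S1 \ T, π i ∈ S1 \ T := by
        intro i hi
        rw [hS1, Finset.mem_sdiff, Finset.mem_sdiff] at hi ⊢
        refine ⟨⟨hS i hi.1.1, ?_⟩, ?_⟩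
        · rw [hmem2, hπ]; exact hi.2
        · rw [← hmem2]; exact hi.1.2
      have hc1 : S1.card = a * (t' + 1) := by
        rw [hS1, Finset.card_sdiff_of_subset hT2S, hc, hT2c]
        rw [Nat.mul_succ]; omega
      have hc' : (S1 \ T).card = a * t' := by
        rw [Finset.card_sdiff_of_subset hTS1, hc1, hTc]
        rw [Nat.mul_succ]; omega
      obtain ⟨blk, h1, h2, h3⟩ := ih t' (by omega) _ hS' hc'
      obtain ⟨k1, k2⟩ := blocks_step (Finset.disjoint_sdiff) hTc h1 h2
      rw [Finset.union_sdiff_of_subset hTS1] at k1 k2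
      obtain ⟨l1, l2⟩ := blocks_step (Finset.disjoint_sdiff) hT2c k1 k2
      rw [Finset.union_sdiff_of_subset hT2S] at l1 l2
      refine ⟨_, l1, l2, ?_⟩
      intro j hj
      by_cases hjt : j = t' + 1
      · subst hjt
        refine ⟨t', by omega, ?_⟩
        intro i hi hb
        have hiT : i ∈ T.image π := by
          by_contra hiT
          rw [if_neg hiT] at hb
          have := k1 i (Finset.mem_sdiff.2 ⟨hi, hiT⟩)
          omega
        have h5 : π i ∈ T := (hmem2 i).1 hiT
        have h6 : π i ∉ T.image π := fun h => Finset.disjoint_left.1 hdT h h5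
        rw [if_neg h6, if_pos h5]
      by_cases hjt2 : j = t'
      · subst hjt2
        refine ⟨j + 1, by omega, ?_⟩
        intro i hi hb
        have hiT2 : i ∉ T.image π := by
          intro hiT
          rw [if_pos hiT] at hb
          omega
        rw [if_neg hiT2] at hb
        have hiT : i ∈ T := by
          by_contra hiT
          rw [if_neg hiT] at hb
          have := h1 i (Finset.mem_sdiff.2 ⟨Finset.mem_sdiff.2 ⟨hi, hiT2⟩, hiT⟩)
          omega
        exact if_pos (Finset.mem_image_of_mem π hiT)
      · obtain ⟨j', hj', h4⟩ := h3 j (by omega)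
        refine ⟨j', by omega, ?_⟩
        intro i hi hb
        have hiT2 : i ∉ T.image π := by
          intro hiT
          rw [if_pos hiT] at hb
          exact hjt hb.symm
        rw [if_neg hiT2] at hb
        have hiT : i ∉ T := by
          intro hiT
          rw [if_pos hiT] at hb
          exact hjt2 hb.symm
        rw [if_neg hiT] at hb
        have hi' : i ∈ S1 \ T := Finset.mem_sdiff.2 ⟨Finset.mem_sdiff.2 ⟨hi, hiT2⟩, hiT⟩
        have h7 := hS' i hi'
        rw [Finset.mem_sdiff, hS1, Finset.mem_sdiff] at h7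
        rw [if_neg h7.1.2, if_neg h7.2]
        exact h4 i hi' hb

/-- A finite type of size `a * t` with an involution can be cut into `t` blocks of size `a`
permuted by the involution. -/
theorem inv_blocks [Fintype ι] (hπ : ∀ i, π (π i) = i) {a t : ℕ} (ha : 0 < a)
    (hc : Fintype.card ι = a * t) :
    ∃ blk : ι → Fin t, (∀ j, Fintype.card {i // blk i = j} = a) ∧
      (∀ j, ∃ j', ∀ i, blk i = j → blk (π i) = j') := by
  obtain ⟨blk, h1, h2, h3⟩ := inv_blocks_aux hπ ha t Finset.univ (fun _ _ => Finset.mem_univ _)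
    (by rw [Finset.card_univ, hc])
  refine ⟨fun i => ⟨blk i, h1 i (Finset.mem_univ i)⟩, ?_, ?_⟩
  · intro j
    rw [Fintype.card_subtype, ← h2 j j.2]
    congr 1
    ext i
    simp [Fin.ext_iff]
  · intro j
    obtain ⟨j', hj', h4⟩ := h3 j j.2
    refine ⟨⟨j', hj'⟩, ?_⟩
    intro i hi
    rw [Fin.ext_iff] at hi ⊢
    exact h4 i (Finset.mem_univ i) hi

end InvBlocks

end Cfsg.Agent.Lib.Helper44
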