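import Mathlib

/-!
# Symmetric rank factorisation and the equation `Y S Yᵀ = W S Wᵀ`
-/

set_option autoImplicit false

namespace Cfsg.Agent.Lib.Helper44

open Matrix

variable {F : Type*} [Field F]

/-- rank factorisation with a left inverse and a right inverse. -/
theorem exists_rank_factor {n : Type*} [Fintype n] [DecidableEq n] (M : Matrix n n F) (s : ℕ)
    (hs : M.rank = s) :
    ∃ (W : Matrix n (Fin s) F) (L : Matrix (Fin s) n F) (R : Matrix (Fin s) n F),
      L * W = 1 ∧ M = W * R := by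
  subst hs
  obtain ⟨V, U, e, ⟨⟨V, V', hV1, hV2⟩, rfl⟩, ⟨⟨U, U', hU1, hU2⟩, rfl⟩, h⟩ := exists_rank_normal_form M
  simp only at h
  set C : Matrix n (Fin M.rank) F :=
    (1 : Matrix (Fin M.rank ⊕ Fin (Fintype.card n - M.rank))
      (Fin M.rank ⊕ Fin (Fintype.card n - M.rank)) F).submatrix e Sum.inl with hC
  have hCC : Cᵀ * C = 1 := by
    ext i j
    simp only [hC, Matrix.mul_apply, transpose_apply, submatrix_apply, one_apply]
    rw [Finset.sum_eq_single (e.symm (Sum.inl i))]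
    · simp
    · intro b _ hb
      rw [if_neg, zero_mul]
      intro h1
      exact hb (by rw [← h1, Equiv.symm_apply_apply])
    · simp
  have hCE : C * Cᵀ = (fromBlocks 1 0 0 0 : Matrix (Fin M.rank ⊕ Fin (Fintype.card n - M.rank))
      (Fin M.rank ⊕ Fin (Fintype.card n - M.rank)) F).submatrix e e := by
    ext i j
    simp only [hC, Matrix.mul_apply, transpose_apply, submatrix_apply, one_apply]
    rcases hi : e i with a | a
    · rcases hj : e j with b | b
      · simp [one_apply]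
      · simp
    · rcases hj : e j with b | b <;> simp
  refine ⟨V' * C, Cᵀ * V, Cᵀ * U', ?_, ?_⟩
  · rw [Matrix.mul_assoc, ← Matrix.mul_assoc V, hV1, Matrix.one_mul, hCC]
  · have : V' * C * (Cᵀ * U') = V' * (C * Cᵀ) * U' := by simp only [Matrix.mul_assoc]
    rw [this, hCE, ← h]
    have : V' * (V * M * U) * U' = (V' * V) * M * (U * U') := by simp only [Matrix.mul_assoc]
    rw [this, hV2, hU1, Matrix.one_mul, Matrix.mul_one]

/-- symmetric rank factorisation. -/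
theorem exists_symm_factor {n : Type*} [Fintype n] [DecidableEq n] (M : Matrix n n F)
    (hM : Mᵀ = M) (s : ℕ) (hs : M.rank = s) :
    ∃ (W : Matrix n (Fin s) F) (L : Matrix (Fin s) n F) (S : Matrix (Fin s) (Fin s) F),
      L * W = 1 ∧ Sᵀ = S ∧ IsUnit S ∧ M = W * S * Wᵀ := by
  obtain ⟨W, L, R, hL, hWR⟩ := exists_rank_factor M s hs
  have hLT : Wᵀ * Lᵀ = 1 := by rw [← transpose_mul, hL, transpose_one]
  have h1 : W * R = Rᵀ * Wᵀ := by
    rw [← hWR, ← hM, hWR, transpose_mul]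
  have hR : R = (L * Rᵀ) * Wᵀ := by
    calc R = (L * W) * R := by rw [hL, Matrix.one_mul]
      _ = L * (W * R) := by rw [Matrix.mul_assoc]
      _ = _ := by rw [h1, Matrix.mul_assoc]
  have hMS : M = W * (L * Rᵀ) * Wᵀ := by
    rw [Matrix.mul_assoc, ← hR, hWR]
  have hsym : (L * Rᵀ)ᵀ = L * Rᵀ := by
    have h2 : W * (L * Rᵀ)ᵀ * Wᵀ = W * (L * Rᵀ) * Wᵀ := by
      rw [← hMS, ← hM, hMS]
      simp only [transpose_mul, transpose_transpose, Matrix.mul_assoc]
    calc (L * Rᵀ)ᵀ = (L * W) * (L * Rᵀ)ᵀ * (Wᵀ * Lᵀ) := by rw [hL, hLT, Matrix.one_mul, Matrix.mul_one]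
      _ = L * (W * (L * Rᵀ)ᵀ * Wᵀ) * Lᵀ := by simp only [Matrix.mul_assoc]
      _ = (L * W) * (L * Rᵀ) * (Wᵀ * Lᵀ) := by rw [h2]; simp only [Matrix.mul_assoc]
      _ = _ := by rw [hL, hLT, Matrix.one_mul, Matrix.mul_one]
  refine ⟨W, L, L * Rᵀ, hL, hsym, ?_, hMS⟩
  have h3 : s ≤ (L * Rᵀ).rank := by
    have h5 : M.rank ≤ (L * Rᵀ).rank := by
      conv_lhs => rw [hMS]
      exact (rank_mul_le_left _ _).trans (rank_mul_le_right _ _)
    omega
  have h4 : (L * Rᵀ).rank = Fintype.card (Fin s) := by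
    have := rank_le_card_width (L * Rᵀ)
    rw [Fintype.card_fin] at this ⊢
    omega
  rw [← Matrix.mulVec_surjective_iff_isUnit]
  show Function.Surjective (L * Rᵀ).mulVecLin
  rw [← LinearMap.range_eq_top (f := (L * Rᵀ).mulVecLin)]
  apply Submodule.eq_top_of_finrank_eq
  rw [Module.finrank_fintype_fun_eq_card]
  exact h4

section eqn

variable {n : Type*} [Fintype n] [DecidableEq n] {s : ℕ} {W : Matrix n (Fin s) F}
  {L : Matrix (Fin s) n F} {S : Matrix (Fin s) (Fin s) F}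

/-- solutions of `Y S Yᵀ = W S Wᵀ`. -/
theorem eq_mul_of_congr (hL : L * W = 1) (hS : IsUnit S) {Y : Matrix n (Fin s) F}
    (h : Y * S * Yᵀ = W * S * Wᵀ) : (L * Y) * S * (L * Y)ᵀ = S ∧ Y = W * (L * Y) := by
  have hLT : Wᵀ * Lᵀ = 1 := by rw [← transpose_mul, hL, transpose_one]
  have h1 : Y * S * (L * Y)ᵀ = W * S := by
    rw [transpose_mul, ← Matrix.mul_assoc, h, Matrix.mul_assoc, hLT, Matrix.mul_one]
  have h2 : (L * Y) * S * (L * Y)ᵀ = S := by
    calc (L * Y) * S * (L * Y)ᵀ = L * (Y * S * (L * Y)ᵀ) := by simp only [Matrix.mul_assoc]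
      _ = S := by rw [h1, ← Matrix.mul_assoc, hL, Matrix.one_mul]
  refine ⟨h2, ?_⟩
  obtain ⟨⟨S, S', hS1, hS2⟩, rfl⟩ := hS
  simp only at h1 h2 ⊢
  have h3 : (L * Y) * (S * (L * Y)ᵀ * S') = 1 := by
    calc (L * Y) * (S * (L * Y)ᵀ * S') = ((L * Y) * S * (L * Y)ᵀ) * S' := by simp only [Matrix.mul_assoc]
      _ = 1 := by rw [h2, hS1]
  have h4 : (S * (L * Y)ᵀ * S') * (L * Y) = 1 := mul_eq_one_comm.1 h3
  calc Y = Y * ((S * (L * Y)ᵀ * S') * (L * Y)) := by rw [h4, Matrix.mul_one]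
    _ = (Y * S * (L * Y)ᵀ) * S' * (L * Y) := by simp only [Matrix.mul_assoc]
    _ = W * (S * S') * (L * Y) := by rw [h1]; simp only [Matrix.mul_assoc]
    _ = W * (L * Y) := by rw [hS1, Matrix.mul_one]

theorem isUnit_of_congr (hS : IsUnit S) {A : Matrix (Fin s) (Fin s) F} (h : A * S * Aᵀ = S) :
    IsUnit A := by
  obtain ⟨⟨S, S', hS1, hS2⟩, rfl⟩ := hS
  simp only at h
  refine IsUnit.of_mul_eq_one (S * Aᵀ * S') ?_
  calc A * (S * Aᵀ * S') = (A * S * Aᵀ) * S' := by simp only [Matrix.mul_assoc]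
    _ = 1 := by rw [h, hS1]

/-- the solutions are parametrised by the isometries of `S`. -/
noncomputable def solEquiv (hL : L * W = 1) (hS : IsUnit S) :
    {Y : Matrix n (Fin s) F // Y * S * Yᵀ = W * S * Wᵀ} ≃
      {A : Matrix (Fin s) (Fin s) F // A * S * Aᵀ = S} where
  toFun Y := ⟨L * Y.1, (eq_mul_of_congr hL hS Y.2).1⟩
  invFun A := ⟨W * A.1, by
    calc W * A.1 * S * (W * A.1)ᵀ = W * (A.1 * S * A.1ᵀ) * Wᵀ := by
          rw [transpose_mul]; simp only [Matrix.mul_assoc]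
      _ = _ := by rw [A.2]⟩
  left_inv Y := Subtype.ext (eq_mul_of_congr hL hS Y.2).2.symm
  right_inv A := Subtype.ext (by
    show L * (W * A.1) = A.1
    rw [← Matrix.mul_assoc, hL, Matrix.one_mul])

end eqn

end Cfsg.Agent.Lib.Helper44
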