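import Cfsg.Agent.Lib.Helper44.JType1

/-!
# Alternating matrices have even rank; similarity of unipotent matrices via ranks;
parity constraints for unipotent isometries
-/

set_option autoImplicit false

namespace Cfsg.Agent.Lib.Helper44

open Matrix Module Polynomial Cfsg.Agent.Lib.Helper43 Cfsg.Agent.Lib.Helper45

variable {F : Type*} [Field F]

/-- alternating matrices. -/
def AltM {ι : Type*} [Fintype ι] (B : Matrix ι ι F) : Prop := ∀ v : ι → F, v ⬝ᵥ (B *ᵥ v) = 0

theorem AltM.congr {ι κ : Type*} [Fintype ι] [Fintype κ] {B : Matrix ι ι F} (hB : AltM B)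
    (C : Matrix ι κ F) : AltM (Cᵀ * B * C) := by
  intro v
  rw [← mulVec_mulVec, ← mulVec_mulVec, dotProduct_mulVec, vecMul_transpose]
  exact hB _

theorem rank_eq_zero_imp {ι : Type*} [Fintype ι] [DecidableEq ι] {A : Matrix ι ι F}
    (h : A.rank = 0) : A = 0 := by
  have h1 : LinearMap.range A.mulVecLin = ⊥ := Submodule.finrank_eq_zero.1 h
  rw [LinearMap.range_eq_bot] at h1
  have : Matrix.toLin' A = 0 := h1
  simpa using this

theorem even_rank_of_altM {ι : Type*} [Fintype ι] [DecidableEq ι] (A : Matrix ι ι F)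
    (hA : AltM A) : Even A.rank := by
  have hAlt : (Matrix.toBilin' A).IsAlt := fun v => by
    rw [Matrix.toBilin'_apply']; exact hA v
  obtain ⟨m, k, b, h1, h2, h3, h4⟩ := Cfsg.Agent.S0752.result (Matrix.toBilin' A) hAlt
  set G := LinearMap.BilinForm.toMatrix b (Matrix.toBilin' A) with hG
  have e1 := LinearMap.BilinForm.toMatrix_mul_basis_toMatrix (Pi.basisFun F ι) b (Matrix.toBilin' A)
  have e2 := LinearMap.BilinForm.toMatrix_mul_basis_toMatrix b (Pi.basisFun F ι) (Matrix.toBilin' A)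
  rw [LinearMap.BilinForm.toMatrix_basisFun, LinearMap.BilinForm.toMatrix'_toBilin'] at e1 e2
  have hr : A.rank = G.rank := by
    apply le_antisymm
    · rw [← e2]
      exact (rank_mul_le_left _ _).trans (rank_mul_le_right _ _)
    · rw [hG, ← e1]
      exact (rank_mul_le_left _ _).trans (rank_mul_le_right _ _)
  have hGf : G = fromBlocks (fromBlocks 0 1 (-1) 0 : Matrix (Fin m ⊕ Fin m) (Fin m ⊕ Fin m) F) 0 0
      (0 : Matrix (Fin k) (Fin k) F) := by
    ext x y
    rw [hG, LinearMap.BilinForm.toMatrix_apply]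
    rcases x with (x | x) | x
    · rcases y with (y | y) | y
      · simp [h2]
      · simp [h1, Matrix.one_apply]
      · rw [← hAlt.neg_eq, h4]; simp
    · rcases y with (y | y) | y
      · rw [← hAlt.neg_eq, h1]; simp [Matrix.one_apply, eq_comm]
      · simp [h3]
      · rw [← hAlt.neg_eq, h4]; simp
    · rw [h4]
      rcases y with y | y <;> simp
  have hJ : IsUnit (fromBlocks 0 1 (-1) 0 : Matrix (Fin m ⊕ Fin m) (Fin m ⊕ Fin m) F) := by
    refine IsUnit.of_mul_eq_one (fromBlocks 0 (-1) 1 0) ?_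
    rw [fromBlocks_multiply]
    simp
  rw [hr, hGf, rank_fromBlocks_diag, rank_zero, rank_of_isUnit _ hJ]
  simp

/-- unipotent matrices with the same ranks of powers of the nilpotent part are similar. -/
theorem conj_of_rank_pow_eq {n : Type*} [Fintype n] [DecidableEq n] (A₁ A₂ : Matrix n n F)
    (h : ∀ k, ((A₁ - 1) ^ k).rank = ((A₂ - 1) ^ k).rank) (K : ℕ) (hK : (A₁ - 1) ^ K = 0) :
    ∃ P : GL n F, (P : Matrix n n F) * A₁ = A₂ * (P : Matrix n n F) := by
  have hK' : (A₂ - 1) ^ K = 0 := by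
    apply rank_eq_zero_imp
    rw [← h, hK, rank_zero]
  obtain ⟨T, hT⟩ := exists_hasType A₁
  obtain ⟨T', hT'⟩ := exists_hasType A₂
  have key : ∀ (Z : Matrix n n F), (Z - 1) ^ K = 0 → ∀ f : F[X], f ≠ 0 →
      (aeval Z f).rank = ((Z - 1) ^ rootMultiplicity 1 f).rank := by
    intro Z hZ f hf
    obtain ⟨g, hg1, hg2⟩ := exists_eq_pow_rootMultiplicity_mul_and_not_dvd f hf 1
    have hirr : Irreducible (X - C (1 : F)) := irreducible_X_sub_C 1
    have hc : IsCoprime ((X - C (1 : F)) ^ K) g :=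
      IsCoprime.pow_left ((hirr.coprime_iff_not_dvd).2 hg2)
    obtain ⟨a, b, hab⟩ := hc
    have h1 : aeval Z b * aeval Z g = 1 := by
      have := congrArg (aeval Z) hab
      simpa [hZ] using this
    have hu : IsUnit (aeval Z g) := IsUnit.of_mul_eq_one _ (mul_eq_one_comm.1 h1)
    conv_lhs => rw [hg1]
    rw [map_mul, rank_mul_eq_left_of_isUnit_det _ _ ((Matrix.isUnit_iff_isUnit_det _).1 hu)]
    simp
  have : T = T' := hT.eq_of_rank_eq hT' (fun f => by
    by_cases hf : f = 0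
    · subst hf; simp
    · rw [key A₁ hK f hf, key A₂ hK' f hf, h])
  subst this
  exact hT.conj hT'

section pres

variable {ι : Type*} [Fintype ι] [DecidableEq ι]

theorem pres_aux {B u : Matrix ι ι F} (hB : IsUnit B) (hu : uᵀ * B * u = B) :
    ∃ v : Matrix ι ι F, v * u = 1 ∧ u * v = 1 ∧ B * v = uᵀ * B ∧
      ∀ l, ((u - 1) ^ l)ᵀ * B = B * ((-v) ^ l * (u - 1) ^ l) := by
  obtain ⟨⟨B, B', hB1, hB2⟩, rfl⟩ := hB
  simp only at hu ⊢
  have hvu : B' * uᵀ * B * u = 1 := by
    rw [mul_assoc, mul_assoc, ← mul_assoc uᵀ, hu, hB2]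
  have huv : u * (B' * uᵀ * B) = 1 := mul_eq_one_comm.1 hvu
  have hBv : B * (B' * uᵀ * B) = uᵀ * B := by
    rw [← mul_assoc, ← mul_assoc, hB1, one_mul]
  refine ⟨B' * uᵀ * B, hvu, huv, hBv, ?_⟩
  set v := B' * uᵀ * B with hv
  have hc : Commute (-v) (u - 1) := by
    show -v * (u - 1) = (u - 1) * -v
    rw [mul_sub, sub_mul, neg_mul, hvu, mul_neg, huv]
    simp
  have h1 : (u - 1)ᵀ * B = B * (-v * (u - 1)) := by
    rw [transpose_sub, transpose_one, sub_mul, one_mul, ← hBv, neg_mul, mul_sub, hvu, mul_one,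
      mul_neg, mul_sub, mul_one]
    abel
  intro l
  rw [← hc.mul_pow]
  induction l with
  | zero => simp
  | succ l ih =>
    rw [pow_succ, transpose_mul, mul_assoc, ih, ← mul_assoc, h1, mul_assoc, ← pow_succ']

theorem even_rank_of_alt_pres {B u : Matrix ι ι F} (hB : IsUnit B) (halt : AltM B)
    (hu : uᵀ * B * u = B) (l : ℕ) : Even (((u - 1) ^ (2 * l)).rank) := by
  obtain ⟨v, hvu, huv, hBv, hl⟩ := pres_aux hB hu
  have h1 := even_rank_of_altM _ (halt.congr ((u - 1) ^ l))
  rw [hl l, mul_assoc, mul_assoc, ← pow_add, ← two_mul, ← mul_assoc] at h1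
  rwa [rank_mul_eq_right_of_isUnit_det] at h1
  rw [← Matrix.isUnit_iff_isUnit_det]
  refine hB.mul (IsUnit.pow _ ?_)
  exact (IsUnit.of_mul_eq_one _ hvu).neg

theorem even_rank_of_symm_pres (h2 : (2 : F) ≠ 0) {B u : Matrix ι ι F} (hB : IsUnit B)
    (hsym : Bᵀ = B) (hu : uᵀ * B * u = B) (hnil : IsNilpotent (u - 1)) (l : ℕ) :
    Even (((u - 1) ^ (2 * l + 1)).rank) := by
  obtain ⟨v, hvu, huv, hBv, hl⟩ := pres_aux hB hu
  have halt : AltM (B * (u - v)) := by
    intro x
    rw [mul_sub, sub_mulVec, dotProduct_sub, hBv, sub_eq_zero, ← mulVec_mulVec, ← mulVec_mulVec,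
      dotProduct_mulVec x uᵀ, vecMul_transpose, dotProduct_mulVec x B, ← mulVec_transpose, hsym,
      dotProduct_comm]
  have h1 := even_rank_of_altM _ (halt.congr ((u - 1) ^ l))
  have hZ : u - v = v * (u + 1) * (u - 1) := by
    rw [mul_assoc, add_mul, mul_sub, mul_sub, one_mul, mul_one, mul_one]
    have : u * u - u + (u - 1) = u * u - 1 := by abel
    rw [this, mul_sub, ← mul_assoc, hvu, one_mul, mul_one]
  have hcv : Commute v u := by rw [Commute, SemiconjBy, hvu, huv]
  have hc : Commute ((u - 1) ^ l) (v * (u + 1)) := by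
    apply Commute.pow_left
    apply Commute.mul_right
    · exact ((hcv.symm).sub_left (Commute.one_left v))
    · exact (((Commute.refl u).add_right (Commute.one_right u)).sub_left (Commute.one_left _))
  have h3 : ((u - 1) ^ l)ᵀ * (B * (u - v)) * (u - 1) ^ l
      = (B * (-v) ^ l * (v * (u + 1))) * (u - 1) ^ (2 * l + 1) := by
    rw [← mul_assoc, hl l, hZ]
    calc B * ((-v) ^ l * (u - 1) ^ l) * (v * (u + 1) * (u - 1)) * (u - 1) ^ l
        = B * (-v) ^ l * ((u - 1) ^ l * (v * (u + 1))) * ((u - 1) * (u - 1) ^ l) := by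
          simp only [mul_assoc]
      _ = B * (-v) ^ l * ((v * (u + 1)) * (u - 1) ^ l) * ((u - 1) * (u - 1) ^ l) := by rw [hc.eq]
      _ = B * (-v) ^ l * (v * (u + 1)) * ((u - 1) ^ l * ((u - 1) * (u - 1) ^ l)) := by
          simp only [mul_assoc]
      _ = _ := by
          rw [← pow_succ', ← pow_add]
          congr 2
          omega
  rw [h3] at h1
  rwa [rank_mul_eq_right_of_isUnit_det] at h1
  rw [← Matrix.isUnit_iff_isUnit_det]
  have hv : IsUnit v := IsUnit.of_mul_eq_one _ hvu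
  refine (hB.mul (IsUnit.pow _ hv.neg)).mul (hv.mul ?_)
  have h2u : IsUnit (2 : Matrix ι ι F) := by
    have := (IsUnit.mk0 (2 : F) h2).map (algebraMap F (Matrix ι ι F))
    rwa [map_ofNat] at this
  have := hnil.isUnit_add_left_of_commute h2u (by
    have := (Nat.cast_commute 2 (u - 1)).symm
    simpa using this)
  have e : (2 : Matrix ι ι F) + (u - 1) = u + 1 := by
    rw [← one_add_one_eq_two]; abel
  rwa [e] at this

end pres

end Cfsg.Agent.Lib.Helper44
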