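import Cfsg.Agent.Lib.Helper44.InvCent1
import Cfsg.Agent.Lib.Helper44.JType2
import Cfsg.Agent.Lib.Helper5.SpParabolic

/-!
# Centralisers of involutions of `Sp_{2m}(q)`, `q` even: reduction to a symmetric form
-/

set_option autoImplicit false

namespace Cfsg.Agent.Lib.Helper44

open Matrix Cfsg.Agent.Lib.Helper5 Cfsg.Agent.Lib.Helper94

variable {F : Type*} [Field F]

theorem mat_neg_eq [CharP F 2] {a b : Type*} (X : Matrix a b F) : -X = X := by
  ext i j
  simp [CharTwo.neg_eq]

theorem mat_add_self [CharP F 2] {a b : Type*} (X : Matrix a b F) : X + X = 0 := by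
  ext i j
  simp [CharTwo.add_self_eq_zero]

theorem rect_bilin_congr {n k : Type*} [Fintype n] [Fintype k] (M : Matrix n n F)
    (Y : Matrix n k F) (x z : k → F) :
    (Y *ᵥ x) ⬝ᵥ M *ᵥ (Y *ᵥ z) = x ⬝ᵥ (Yᵀ * M * Y) *ᵥ z := by
  rw [← Matrix.mulVec_mulVec, ← Matrix.mulVec_mulVec, Matrix.dotProduct_mulVec x Yᵀ,
    Matrix.vecMul_transpose]

theorem cols_mem_tiFrames {m s : ℕ} (Y : Matrix (Fin m ⊕ Fin m) (Fin s) F)
    (L : Matrix (Fin s) (Fin m ⊕ Fin m) F) (hL : L * Y = 1)
    (hY : Yᵀ * Matrix.J (Fin m) F * Y = 0) :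
    (fun i a => Y a i) ∈ tiFrames (sympB m F) s := by
  have hcol : ∀ i, (fun a => Y a i) = Y *ᵥ Pi.single i 1 := by
    intro i
    rw [mulVec_single_one]
    rfl
  refine ⟨?_, ?_⟩
  · rw [Fintype.linearIndependent_iff]
    intro g hg
    have h1 : Y *ᵥ g = 0 := by
      rw [← hg]
      funext a
      simp [mulVec, dotProduct, mul_comm]
    have h2 : g = 0 := by
      calc g = (L * Y) *ᵥ g := by rw [hL, one_mulVec]
        _ = 0 := by rw [← mulVec_mulVec, h1, mulVec_zero]
    intro i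
    rw [h2]
    rfl
  · intro i j
    rw [sympB_apply, Cfsg.sympForm]
    show (fun a => Y a i) ⬝ᵥ Matrix.J (Fin m) F *ᵥ (fun a => Y a j) = 0
    rw [hcol i, hcol j, rect_bilin_congr, hY]
    simp

theorem card_cent_inv [Fintype F] [CharP F 2] {m s : ℕ} (t : Matrix.symplecticGroup (Fin m) F)
    (ht : t ^ 2 = 1)
    (hs : ((t : Matrix (Fin m ⊕ Fin m) (Fin m ⊕ Fin m) F) - 1).rank = s) :
    ∃ S : Matrix (Fin s) (Fin s) F, Sᵀ = S ∧ IsUnit S ∧
      (AltM S ↔ ∀ v, Cfsg.sympForm m F v
        ((t : Matrix (Fin m ⊕ Fin m) (Fin m ⊕ Fin m) F) *ᵥ v) = 0) ∧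
      Nat.card (Subgroup.centralizer ({t} : Set (Matrix.symplecticGroup (Fin m) F))) *
        ∏ i : Fin s, (Fintype.card F ^ (2 * m - (i : ℕ)) - Fintype.card F ^ (i : ℕ)) =
      Nat.card {A : Matrix (Fin s) (Fin s) F // A * S * Aᵀ = S} *
        Nat.card (Matrix.symplecticGroup (Fin m) F) := by
  set J := Matrix.J (Fin m) F with hJ
  set T : Matrix (Fin m ⊕ Fin m) (Fin m ⊕ Fin m) F := t.1 with hT
  have hJJ : J * J = 1 := by rw [hJ, Matrix.J_squared, mat_neg_eq]
  have hJT : Jᵀ = J := by rw [hJ, Matrix.J_transpose, mat_neg_eq]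
  have hJu : IsUnit J := IsUnit.of_mul_eq_one _ hJJ
  have hT2 : T * J * Tᵀ = J := SymplecticGroup.mem_iff.1 t.2
  have hTT : T * T = 1 := by
    have := congrArg Subtype.val ht
    rwa [sq] at this
  have hNN : (T - 1) * (T - 1) = 0 := by
    have : (T - 1) * (T - 1) = (T * T + 1) - (T + T) := by noncomm_ring
    rw [this, hTT, mat_add_self, mat_add_self, sub_zero]
  have hJTt : J * Tᵀ = T * J := by
    calc J * Tᵀ = (T * T) * J * Tᵀ := by rw [hTT, one_mul]
      _ = T * (T * J * Tᵀ) := by simp only [mul_assoc]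
      _ = T * J := by rw [hT2]
  have hM : ((T - 1) * J)ᵀ = (T - 1) * J := by
    rw [transpose_mul, hJT, transpose_sub, transpose_one, mul_sub, hJTt, sub_mul, mul_one, one_mul]
  have hrank : ((T - 1) * J).rank = s := by
    rw [rank_mul_eq_left_of_isUnit_det _ _ ((Matrix.isUnit_iff_isUnit_det _).1 hJu), hs]
  obtain ⟨W, L, S, hL, hSs, hSu, hMS⟩ := exists_symm_factor _ hM s hrank
  have hLT : Wᵀ * Lᵀ = 1 := by rw [← transpose_mul, hL, transpose_one]
  have hN : T - 1 = W * S * Wᵀ * J := by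
    rw [← hMS, mul_assoc, hJJ, mul_one]
  obtain ⟨⟨S₀, S', hS1, hS2⟩, hS₀⟩ := id hSu
  simp only at hS₀
  subst hS₀
  have hiso : Wᵀ * J * W = 0 := by
    have h0 : (W * S₀ * Wᵀ * J) * (W * S₀ * Wᵀ * J) = 0 := by rw [← hN, hNN]
    calc Wᵀ * J * W = (S' * (L * W) * S₀) * (Wᵀ * J * W) * (S₀ * (Wᵀ * (J * J) * Lᵀ) * S') := by
          rw [hL, hJJ, Matrix.mul_one, Matrix.mul_one, hLT, hS2, Matrix.mul_one, hS1,
            Matrix.one_mul, Matrix.mul_one]
      _ = S' * L * ((W * S₀ * Wᵀ * J) * (W * S₀ * Wᵀ * J)) * J * Lᵀ * S' := by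
          simp only [Matrix.mul_assoc]
      _ = 0 := by rw [h0]; simp
  refine ⟨S₀, hSs, hSu, ?_, ?_⟩
  · have key : ∀ v, Cfsg.sympForm m F v (T *ᵥ v) = (Wᵀ *ᵥ (J *ᵥ v)) ⬝ᵥ S₀ *ᵥ (Wᵀ *ᵥ (J *ᵥ v)) := by
      intro v
      have e1 : T = 1 + W * S₀ * Wᵀ * J := by rw [← hN]; abel
      have e2 : v ⬝ᵥ J *ᵥ v = 0 := by
        have := sympB_isAlt (F := F) m v
        rwa [sympB_apply] at this
      rw [Cfsg.sympForm, e1, add_mulVec, one_mulVec, mulVec_add, dotProduct_add, e2, zero_add]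
      rw [← mulVec_mulVec, ← mulVec_mulVec, ← mulVec_mulVec, dotProduct_mulVec v J,
        ← mulVec_transpose, hJT, dotProduct_mulVec _ W, ← mulVec_transpose]
    constructor
    · intro h v
      rw [key]
      exact h _
    · intro h z
      have := h (J *ᵥ (Lᵀ *ᵥ z))
      rw [key] at this
      have e3 : Wᵀ *ᵥ (J *ᵥ (J *ᵥ (Lᵀ *ᵥ z))) = z := by
        rw [mulVec_mulVec _ J J, hJJ, one_mulVec, mulVec_mulVec, hLT, one_mulVec]
      rwa [e3] at this
  · have : Finite (Matrix.symplecticGroup (Fin m) F) := Subtype.finite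
    have hf₀ : (fun i a => W a i) ∈ tiFrames (sympB m F) s := cols_mem_tiFrames W L hL hiso
    have hmulcol : ∀ (h : Matrix (Fin m ⊕ Fin m) (Fin m ⊕ Fin m) F),
        (fun (i : Fin s) => h *ᵥ (fun a => W a i)) = fun i a => (h * W) a i := by
      intro h
      funext i a
      simp [mulVec, dotProduct, Matrix.mul_apply]
    have hmain := card_mul_card_frames (Cfsg.spToMat m F) (fun i a => W a i)
      (tiFrames (sympB m F) s) (by
        intro f
        constructor
        · intro hf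
          exact exists_sp_of_frames m _ f hf₀.1 hf.1 (by
            intro i j
            rw [← sympB_apply, ← sympB_apply, hf₀.2, hf.2])
        · rintro ⟨h, rfl⟩
          exact sp_smul_mem_tiFrames m s h _ hf₀)
      (Subgroup.centralizer ({t} : Set (Matrix.symplecticGroup (Fin m) F)))
      {y | (Matrix.of y)ᵀ * S₀ * (Matrix.of y) = W * S₀ * Wᵀ} (by
        intro y hy
        have hy' : (Matrix.of y)ᵀ * S₀ * ((Matrix.of y)ᵀ)ᵀ = W * S₀ * Wᵀ := hy
        obtain ⟨h1, h2⟩ := eq_mul_of_congr hL hSu hy'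
        obtain ⟨⟨A, A', hA1, hA2⟩, hA⟩ := isUnit_of_congr hSu h1
        simp only at hA
        have := cols_mem_tiFrames (Matrix.of y)ᵀ (A' * L) (by
          rw [Matrix.mul_assoc, ← hA, hA2]) (by
          rw [h2, transpose_mul]
          calc (L * (Matrix.of y)ᵀ)ᵀ * Wᵀ * J * (W * (L * (Matrix.of y)ᵀ))
              = (L * (Matrix.of y)ᵀ)ᵀ * (Wᵀ * J * W) * (L * (Matrix.of y)ᵀ) := by
                simp only [Matrix.mul_assoc]
            _ = 0 := by rw [hiso]; simp)
        exact this) (by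
        intro h
        rw [Subgroup.mem_centralizer_singleton_iff, Set.mem_ofPred_eq]
        have e0 : (Matrix.of fun (i : Fin s) => (Cfsg.spToMat m F) h *ᵥ fun a => W a i)
            = (h.1 * W)ᵀ := by
          have := hmulcol h.1
          ext i a
          exact congrFun (congrFun this i) a
        rw [e0, transpose_transpose]
        have h2 : h.1 * J * h.1ᵀ = J := SymplecticGroup.mem_iff.1 h.2
        have e1 : h.1 * W * S₀ * (h.1 * W)ᵀ = h.1 * ((T - 1) * J) * h.1ᵀ := by
          rw [hMS, transpose_mul]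
          simp only [Matrix.mul_assoc]
        rw [e1, ← hMS]
        constructor
        · intro hc
          have hc' : h.1 * T = T * h.1 := congrArg Subtype.val hc
          have hc2 : h.1 * (T - 1) = (T - 1) * h.1 := by
            rw [mul_sub, sub_mul, hc', mul_one, one_mul]
          calc h.1 * ((T - 1) * J) * h.1ᵀ = (h.1 * (T - 1)) * J * h.1ᵀ := by simp only [mul_assoc]
            _ = (T - 1) * (h.1 * J * h.1ᵀ) := by rw [hc2]; simp only [mul_assoc]
            _ = _ := by rw [h2]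
        · intro hc
          have hu : IsUnit (J * h.1ᵀ) := by
            refine hJu.mul ?_
            rw [Matrix.isUnit_iff_isUnit_det, det_transpose]
            exact SymplecticGroup.symplectic_det h.2
          have h3 : (h.1 * (T - 1)) * (J * h.1ᵀ) = ((T - 1) * h.1) * (J * h.1ᵀ) := by
            calc (h.1 * (T - 1)) * (J * h.1ᵀ) = h.1 * ((T - 1) * J) * h.1ᵀ := by
                  simp only [mul_assoc]
              _ = (T - 1) * J := hc
              _ = (T - 1) * (h.1 * J * h.1ᵀ) := by rw [h2]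
              _ = _ := by simp only [mul_assoc]
          have h4 := hu.mul_right_cancel h3
          apply Subtype.ext
          show h.1 * T = T * h.1
          rw [mul_sub, sub_mul, mul_one, one_mul] at h4
          exact sub_left_injective h4)
    rw [card_tiFrames _ (sympB_nondegenerate m) (sympB_isAlt m), finrank_symp] at hmain
    rw [hmain]
    congr 1
    rw [← Nat.card_congr (solEquiv hL hSu)]
    refine Nat.card_congr ⟨fun y => ⟨(Matrix.of y.1)ᵀ, y.2⟩, fun Y => ⟨fun i a => Y.1 a i, Y.2⟩,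
      fun y => rfl, fun Y => rfl⟩

end Cfsg.Agent.Lib.Helper44
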