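import Cfsg.Agent.Lib.Helper44.JType5
import Cfsg.Agent.Lib.Helper44.GraphForms

/-!
# Jordan types of unipotent isometries: transfer lemmas
-/

set_option autoImplicit false

namespace Cfsg.Agent.Lib.Helper44

open Matrix Module Cfsg.Agent.Lib.Helper43

variable {F : Type*} [Field F]

theorem reindex_sub_one_pow {ι κ : Type*} [Fintype ι] [Fintype κ] [DecidableEq ι] [DecidableEq κ]
    (e : ι ≃ κ) (M : Matrix ι ι F) (k : ℕ) :
    (reindex e e M - 1) ^ k = reindex e e ((M - 1) ^ k) := by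
  have h : ∀ X : Matrix ι ι F, reindex e e X = reindexAlgEquiv F F e X := fun X => rfl
  rw [h, h, map_pow, map_sub, map_one]

theorem rank_reindex_sub_one_pow {ι κ : Type*} [Fintype ι] [Fintype κ] [DecidableEq ι]
    [DecidableEq κ] (e : ι ≃ κ) (M : Matrix ι ι F) (k : ℕ) :
    ((reindex e e M - 1) ^ k).rank = ((M - 1) ^ k).rank := by
  rw [reindex_sub_one_pow, rank_reindex]

theorem rank_sub_one_pow_of_isConj {ι : Type*} [Fintype ι] [DecidableEq ι] {X Y : Matrix ι ι F}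
    (h : IsConj X Y) (k : ℕ) : ((Y - 1) ^ k).rank = ((X - 1) ^ k).rank := by
  obtain ⟨c, hc⟩ := h
  have h1 : Y = c * X * (c⁻¹ : (Matrix ι ι F)ˣ) := by
    rw [hc.eq, mul_assoc, Units.mul_inv, mul_one]
  have h2 : Y - 1 = c * (X - 1) * (c⁻¹ : (Matrix ι ι F)ˣ) := by
    rw [h1, mul_sub, sub_mul, mul_one, Units.mul_inv]
  rw [h2, Units.conj_pow, rank_mul_eq_left_of_isUnit_det _ _
    ((Matrix.isUnit_iff_isUnit_det _).1 (c⁻¹).isUnit), rank_mul_eq_right_of_isUnit_det _ _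
    ((Matrix.isUnit_iff_isUnit_det _).1 c.isUnit)]

theorem jordanType_nilp {t : ℕ} (d : Fin t → ℕ) :
    (Cfsg.jordanTypeMatrix d F - 1) ^ (∑ i, d i) = 0 := by
  apply rank_eq_zero_imp
  rw [rank_jordanType_sub_one_pow]
  apply Finset.sum_eq_zero
  intro i _
  have := Finset.single_le_sum (f := d) (fun j _ => Nat.zero_le _) (Finset.mem_univ i)
  omega

/-- transport of a realisation to a prescribed index type. -/
theorem RealJ.on {alt : Bool} {n : ℕ} {r : ℕ → ℕ} (h : RealJ alt F n r) (κ : Type*) [Fintype κ]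
    [DecidableEq κ] (hκ : Fintype.card κ = n) :
    ∃ B A : Matrix κ κ F, IsUnit B ∧ KindM alt B ∧ Aᵀ * B * A = B ∧
      ∀ k, ((A - 1) ^ k).rank = r k := by
  obtain ⟨ι, _, _, B, A, h1, h2, h3, h4, h5⟩ := h
  let e : ι ≃ κ := Fintype.equivOfCardEq (by rw [h1, hκ])
  have hh : ∀ X : Matrix ι ι F, reindex e e X = reindexAlgEquiv F F e X := fun X => rfl
  refine ⟨reindex e e B, reindex e e A, ?_, ?_, ?_, ?_⟩
  · rw [hh]
    exact h2.map (reindexAlgEquiv F F e)
  · unfold KindM at h3 ⊢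
    split_ifs with ha
    · rw [if_pos ha] at h3
      intro v
      rw [reindex_apply, submatrix_mulVec_equiv, dotProduct_comp_equiv_symm]
      exact h3 _
    · rw [if_neg ha] at h3
      rw [transpose_reindex, h3]
  · rw [transpose_reindex, hh, hh, hh, ← map_mul, ← map_mul, h4]
  · intro k
    rw [rank_reindex_sub_one_pow, h5]

theorem exists_congr_altM {ι : Type*} [Fintype ι] [DecidableEq ι] {B B' : Matrix ι ι F}
    (hB : IsUnit B) (hB' : IsUnit B') (ha : AltM B) (ha' : AltM B') :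
    ∃ Φ : Matrix ι ι F, IsUnit Φ ∧ Φᵀ * B' * Φ = B := by
  have hdet : ∀ {C : Matrix ι ι F}, IsUnit C → C.det ≠ 0 := fun h =>
    ((Matrix.isUnit_iff_isUnit_det _).1 h).ne_zero
  obtain ⟨φ, hφ⟩ := exists_alt_isometry (Matrix.toBilin' B) (Matrix.toBilin' B')
    (LinearMap.BilinForm.nondegenerate_toBilin'_iff_det_ne_zero.2 (hdet hB))
    (LinearMap.BilinForm.nondegenerate_toBilin'_iff_det_ne_zero.2 (hdet hB'))
    (fun x => by rw [Matrix.toBilin'_apply']; exact ha x)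
    (fun x => by rw [Matrix.toBilin'_apply']; exact ha' x) rfl
  have hΦ : ∀ v, LinearMap.toMatrix' φ.toLinearMap *ᵥ v = φ v := fun v =>
    LinearMap.toMatrix'_mulVec _ v
  refine ⟨LinearMap.toMatrix' φ.toLinearMap, ?_, ?_⟩
  · rw [← Matrix.mulVec_injective_iff_isUnit]
    intro u v huv
    rw [hΦ, hΦ] at huv
    exact φ.injective huv
  · apply matrix_eq_of_bilin
    intro x y
    rw [← bilin_congr, hΦ, hΦ]
    have := hφ x y
    rwa [Matrix.toBilin'_apply', Matrix.toBilin'_apply'] at this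

/-- moving an isometry along a congruence of forms. -/
theorem exists_conj_pres {ι : Type*} [Fintype ι] [DecidableEq ι] {B B' Φ A : Matrix ι ι F}
    (hΦ : IsUnit Φ) (hc : Φᵀ * B' * Φ = B) (hA : Aᵀ * B * A = B) :
    ∃ A' : Matrix ι ι F, A'ᵀ * B' * A' = B' ∧ IsConj A A' := by
  obtain ⟨⟨Φ, Ψ, e1, e2⟩, rfl⟩ := hΦ
  simp only at hc
  refine ⟨Φ * A * Ψ, ?_, ⟨⟨Φ, Ψ, e1, e2⟩, ?_⟩⟩
  · have e3 : Ψᵀ * Φᵀ = 1 := by rw [← transpose_mul, e1, transpose_one]
    calc (Φ * A * Ψ)ᵀ * B' * (Φ * A * Ψ) = Ψᵀ * (Aᵀ * (Φᵀ * B' * Φ) * A) * Ψ := by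
          rw [transpose_mul, transpose_mul]; simp only [mul_assoc]
      _ = Ψᵀ * (Φᵀ * B' * Φ) * Ψ := by rw [hc, hA]
      _ = (Ψᵀ * Φᵀ) * B' * (Φ * Ψ) := by simp only [mul_assoc]
      _ = B' := by rw [e3, e1, one_mul, mul_one]
  · show Φ * A = Φ * A * Ψ * Φ
    rw [mul_assoc, e2, mul_one]

/-- a matrix with the rank function of a Jordan type is similar to the Jordan type matrix. -/
theorem isConj_jordanType {κ : Type*} [Fintype κ] [DecidableEq κ] {t : ℕ} (d : Fin t → ℕ)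
    (e : ((k : Fin t) × Fin (d k)) ≃ κ) (A : Matrix κ κ F)
    (hA : ∀ k, ((A - 1) ^ k).rank = ∑ i, (d i - k)) :
    IsConj (reindex e e (Cfsg.jordanTypeMatrix d F)) A := by
  obtain ⟨P, hP⟩ := conj_of_rank_pow_eq (reindex e e (Cfsg.jordanTypeMatrix d F)) A (fun k => by
    rw [rank_reindex_sub_one_pow, rank_jordanType_sub_one_pow, hA]) (∑ i, d i) (by
    rw [reindex_sub_one_pow, jordanType_nilp]
    simp)
  exact ⟨P, hP⟩

theorem rank_of_isConj_jordanType {κ : Type*} [Fintype κ] [DecidableEq κ] {t : ℕ} (d : Fin t → ℕ)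
    (e : ((k : Fin t) × Fin (d k)) ≃ κ) (A : Matrix κ κ F)
    (h : IsConj (reindex e e (Cfsg.jordanTypeMatrix d F)) A) (k : ℕ) :
    ((A - 1) ^ k).rank = ∑ i, (d i - k) := by
  rw [rank_sub_one_pow_of_isConj h, rank_reindex_sub_one_pow, rank_jordanType_sub_one_pow]

/-- necessary condition, alternating case. -/
theorem alt_cond_of_pres {κ : Type*} [Fintype κ] [DecidableEq κ] {t : ℕ} (d : Fin t → ℕ)
    (e : ((k : Fin t) × Fin (d k)) ≃ κ) {A B : Matrix κ κ F}
    (h : IsConj (reindex e e (Cfsg.jordanTypeMatrix d F)) A) (hB : IsUnit B) (halt : AltM B)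
    (hA : Aᵀ * B * A = B) (j : ℕ) (hj : Odd j) :
    Even (Finset.univ.filter (fun k : Fin t => d k = j)).card := by
  obtain ⟨l, rfl⟩ := hj
  have h1 := even_rank_of_alt_pres hB halt hA l
  have h2 := even_rank_of_alt_pres hB halt hA (l + 1)
  rw [rank_of_isConj_jordanType d e A h] at h1 h2
  have h3 := rankFun_identity d (2 * l + 1) (by omega)
  have e1 : 2 * l + 1 - 1 = 2 * l := by omega
  have e2 : 2 * l + 1 + 1 = 2 * (l + 1) := by ring
  rw [e1, e2] at h3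
  obtain ⟨a, ha⟩ := h1
  obtain ⟨b, hb⟩ := h2
  exact ⟨a + b - ∑ i, (d i - (2 * l + 1)), by omega⟩

/-- necessary condition, symmetric case. -/
theorem symm_cond_of_pres (h2 : (2 : F) ≠ 0) {κ : Type*} [Fintype κ] [DecidableEq κ] {t : ℕ}
    (d : Fin t → ℕ) (e : ((k : Fin t) × Fin (d k)) ≃ κ) {A B : Matrix κ κ F}
    (h : IsConj (reindex e e (Cfsg.jordanTypeMatrix d F)) A) (hB : IsUnit B) (hsym : Bᵀ = B)
    (hA : Aᵀ * B * A = B) (j : ℕ) (hj : Even j) (hj0 : 0 < j) :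
    Even (Finset.univ.filter (fun k : Fin t => d k = j)).card := by
  obtain ⟨c, hc⟩ := hj
  obtain ⟨l, rfl⟩ : ∃ l, c = l + 1 := ⟨c - 1, by omega⟩
  have hnil : IsNilpotent (A - 1) := by
    refine ⟨∑ i, d i, ?_⟩
    apply rank_eq_zero_imp
    rw [rank_sub_one_pow_of_isConj h, reindex_sub_one_pow, jordanType_nilp]
    simp
  have h1 := even_rank_of_symm_pres h2 hB hsym hA hnil l
  have h2 := even_rank_of_symm_pres h2 hB hsym hA hnil (l + 1)
  rw [rank_of_isConj_jordanType d e A h] at h1 h2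
  have h3 := rankFun_identity d j (by omega)
  have e1 : j - 1 = 2 * l + 1 := by omega
  have e2 : j + 1 = 2 * (l + 1) + 1 := by omega
  rw [e1, e2] at h3
  obtain ⟨a, ha⟩ := h1
  obtain ⟨b, hb⟩ := h2
  exact ⟨a + b - ∑ i, (d i - j), by omega⟩

end Cfsg.Agent.Lib.Helper44
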