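import Cfsg.Agent.Lib.Helper44.InvCent2
import Cfsg.Agent.Lib.Helper44.JType6
import Cfsg.Agent.Lib.Helper44.GraphTwoSp
import Cfsg.Agent.Lib.Helper44.GraphTwo
import Cfsg.Agent.S2594

/-!
# Isometry groups of symmetric bilinear forms in characteristic two: orders
-/

set_option autoImplicit false

namespace Cfsg.Agent.Lib.Helper44

open Matrix

variable {F : Type*} [Field F]

/-- the number of isometries of a bilinear form given by a matrix. -/
noncomputable def cntF {ι : Type*} [Fintype ι] (S : Matrix ι ι F) : ℕ :=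
  Nat.card {A : Matrix ι ι F // A * S * Aᵀ = S}

theorem cntF_eq_T {ι : Type*} [Fintype ι] (S : Matrix ι ι F) :
    cntF S = Nat.card {A : Matrix ι ι F // Aᵀ * S * A = S} := by
  refine Nat.card_congr ⟨fun A => ⟨A.1ᵀ, by rw [transpose_transpose]; exact A.2⟩,
    fun A => ⟨A.1ᵀ, by rw [transpose_transpose]; exact A.2⟩, fun A => ?_, fun A => ?_⟩
  · exact Subtype.ext (transpose_transpose _)
  · exact Subtype.ext (transpose_transpose _)

theorem cntF_congr {ι : Type*} [Fintype ι] [DecidableEq ι] {S S' Φ : Matrix ι ι F}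
    (hΦ : IsUnit Φ) (h : S = Φ * S' * Φᵀ) : cntF S = cntF S' := by
  obtain ⟨⟨Φ, Ψ, e1, e2⟩, rfl⟩ := hΦ
  simp only at h
  have e1T : Ψᵀ * Φᵀ = 1 := by rw [← transpose_mul, e1, transpose_one]
  have e2T : Φᵀ * Ψᵀ = 1 := by rw [← transpose_mul, e2, transpose_one]
  have h' : S' = Ψ * S * Ψᵀ := by
    rw [h]
    calc S' = (Ψ * Φ) * S' * (Φᵀ * Ψᵀ) := by rw [e2, e2T, one_mul, mul_one]
      _ = _ := by simp only [mul_assoc]
  refine Nat.card_congr ⟨fun A => ⟨Ψ * A.1 * Φ, ?_⟩, fun A => ⟨Φ * A.1 * Ψ, ?_⟩, fun A => ?_,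
    fun A => ?_⟩
  · calc Ψ * A.1 * Φ * S' * (Ψ * A.1 * Φ)ᵀ = Ψ * (A.1 * (Φ * S' * Φᵀ) * A.1ᵀ) * Ψᵀ := by
          simp only [transpose_mul, mul_assoc]
      _ = S' := by rw [← h, A.2, ← h']
  · calc Φ * A.1 * Ψ * S * (Φ * A.1 * Ψ)ᵀ = Φ * (A.1 * (Ψ * S * Ψᵀ) * A.1ᵀ) * Φᵀ := by
          simp only [transpose_mul, mul_assoc]
      _ = S := by rw [← h', A.2, ← h]
  · apply Subtype.ext
    show Φ * (Ψ * A.1 * Φ) * Ψ = A.1
    calc Φ * (Ψ * A.1 * Φ) * Ψ = (Φ * Ψ) * A.1 * (Φ * Ψ) := by simp only [mul_assoc]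
      _ = A.1 := by rw [e1, one_mul, mul_one]
  · apply Subtype.ext
    show Ψ * (Φ * A.1 * Ψ) * Φ = A.1
    calc Ψ * (Φ * A.1 * Ψ) * Φ = (Ψ * Φ) * A.1 * (Ψ * Φ) := by simp only [mul_assoc]
      _ = A.1 := by rw [e2, one_mul, mul_one]

theorem cntF_reindex {ι κ : Type*} [Fintype ι] [Fintype κ] [DecidableEq ι] [DecidableEq κ]
    (e : ι ≃ κ) (S : Matrix ι ι F) : cntF (reindex e e S) = cntF S := by
  have hh : ∀ X : Matrix ι ι F, reindex e e X = reindexAlgEquiv F F e X := fun X => rfl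
  symm
  refine Nat.card_congr (Equiv.subtypeEquiv (reindex e e) (fun A => ?_))
  rw [transpose_reindex, hh, hh, hh, ← map_mul, ← map_mul]
  exact (reindexAlgEquiv F F e).injective.eq_iff.symm

theorem cntF_J (k : ℕ) : cntF (Matrix.J (Fin k) F) = Nat.card (Matrix.symplecticGroup (Fin k) F) :=
  Nat.card_congr (Equiv.subtypeEquivRight (fun _ => SymplecticGroup.mem_iff.symm))

/-- alternating forms. -/
theorem cntF_alt {k : ℕ} {S : Matrix (Fin (2 * k)) (Fin (2 * k)) F} (hS : IsUnit S)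
    (ha : AltM S) : cntF S = Nat.card (Matrix.symplecticGroup (Fin k) F) := by
  let e : Fin (2 * k) ≃ Fin k ⊕ Fin k := Fintype.equivOfCardEq (by simp [two_mul])
  have hh : ∀ X : Matrix (Fin (2 * k)) (Fin (2 * k)) F, reindex e e X = reindexAlgEquiv F F e X :=
    fun X => rfl
  have h1 : IsUnit (reindex e e S) := by
    rw [hh]; exact hS.map (reindexAlgEquiv F F e)
  have h2 : AltM (reindex e e S) := by
    intro v
    rw [reindex_apply, submatrix_mulVec_equiv, dotProduct_comp_equiv_symm]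
    exact ha _
  obtain ⟨Φ, hΦ, hΦ2⟩ := exists_congr_altM h1
    ((Matrix.isUnit_iff_isUnit_det _).2 (Matrix.isUnit_det_J (Fin k) F)) h2 (fun v => J_alt v)
  rw [← cntF_reindex e S, ← cntF_J]
  apply cntF_congr (Φ := Φᵀ)
  · rw [Matrix.isUnit_iff_isUnit_det, det_transpose, ← Matrix.isUnit_iff_isUnit_det]
    exact hΦ
  · rw [transpose_transpose, hΦ2]

/-- non-alternating symmetric forms are congruent to the identity. -/
theorem cntF_nonalt [Finite F] [CharP F 2] {n : ℕ} {S : Matrix (Fin n) (Fin n) F} (hS : IsUnit S)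
    (hsym : Sᵀ = S) (hna : ¬ AltM S) : cntF S = cntF (1 : Matrix (Fin n) (Fin n) F) := by
  obtain ⟨A, rfl⟩ := hS
  have hdet : A.1.det ≠ 0 := ((Matrix.isUnit_iff_isUnit_det _).1 A.isUnit).ne_zero
  unfold AltM at hna
  push Not at hna
  obtain ⟨b, hb⟩ := exists_orthonormal_char2 perfect_of_char_two n (Matrix.toBilin' A.1)
    ⟨fun x y => by
      simp only [Matrix.toBilin'_apply']
      exact bilin_symm hsym x y⟩
    (LinearMap.BilinForm.nondegenerate_toBilin'_iff_det_ne_zero.2 hdet)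
    (by
      obtain ⟨x, hx⟩ := hna
      exact ⟨x, by rwa [Matrix.toBilin'_apply']⟩) (by simp)
  obtain ⟨g, hg⟩ := exists_congr_of_isometry A 1 b.equivFun.symm (by
    intro x y
    rw [← Matrix.toBilin'_apply', Module.Basis.equivFun_symm_apply, Module.Basis.equivFun_symm_apply,
      LinearMap.BilinForm.sum_left]
    simp only [LinearMap.BilinForm.sum_right, LinearMap.BilinForm.smul_left,
      LinearMap.BilinForm.smul_right, hb, Units.val_one, Matrix.one_mulVec, dotProduct]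
    apply Finset.sum_congr rfl
    intro i _
    simp [mul_comm])
  exact (cntF_congr g.isUnit hg).symm

/-- transport of the non-alternating count to an arbitrary index type. -/
theorem cntF_nonalt' [Finite F] [CharP F 2] {n : ℕ} {ι : Type*} [Fintype ι] [DecidableEq ι]
    (hι : Fintype.card ι = n) {S : Matrix ι ι F} (hS : IsUnit S)
    (hsym : Sᵀ = S) (hna : ¬ AltM S) : cntF S = cntF (1 : Matrix (Fin n) (Fin n) F) := by
  let e : ι ≃ Fin n := Fintype.equivOfCardEq (by simp [hι])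
  have hh : ∀ X : Matrix ι ι F, reindex e e X = reindexAlgEquiv F F e X := fun X => rfl
  rw [← cntF_reindex e S]
  apply cntF_nonalt
  · rw [hh]; exact hS.map (reindexAlgEquiv F F e)
  · rw [transpose_reindex, hsym]
  · intro h
    apply hna
    intro v
    have := h (v ∘ e.symm)
    rw [reindex_apply, submatrix_mulVec_equiv, dotProduct_comp_equiv_symm] at this
    simpa [Function.comp_assoc] using this

end Cfsg.Agent.Lib.Helper44
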