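import Cfsg.Agent.Lib.Helper44.JType6

/-!
# Jordan types of unipotent isometries: quadratic forms
-/

set_option autoImplicit false

namespace Cfsg.Agent.Lib.Helper44

open Matrix Module QuadraticMap

variable {F : Type*} [Field F]

theorem gram_pres {ι : Type*} [Fintype ι] [DecidableEq ι] (Q : QuadraticForm F (ι → F))
    (A : Matrix ι ι F) (hA : ∀ v, Q (A *ᵥ v) = Q v) : Aᵀ * gramM Q * A = gramM Q := by
  apply matrix_eq_of_bilin
  intro x y
  rw [← bilin_congr, gramM_bilin, gramM_bilin]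
  unfold polar
  rw [← mulVec_add, hA, hA, hA]

theorem isUnit_gramM {ι : Type*} [Fintype ι] [DecidableEq ι] {Q : QuadraticForm F (ι → F)}
    (hQ : (polarBilin Q).Nondegenerate) : IsUnit (gramM Q) :=
  (Matrix.isUnit_iff_isUnit_det _).2 (isUnit_iff_ne_zero.2 (gramM_det_ne_zero hQ))

theorem isUnit_of_pres {ι : Type*} [Fintype ι] [DecidableEq ι] {B A : Matrix ι ι F}
    (hB : IsUnit B) (hA : Aᵀ * B * A = B) : IsUnit A := by
  obtain ⟨v, hvu, huv, -, -⟩ := pres_aux hB hA
  exact IsUnit.of_mul_eq_one _ huv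

theorem exists_quad_of_symm (h2 : (2 : F) ≠ 0) {n : ℕ} {B A : Matrix (Fin n) (Fin n) F}
    (hB : IsUnit B) (hsym : Bᵀ = B) (hA : Aᵀ * B * A = B) :
    ∃ Q : QuadraticForm F (Fin n → F), (polarBilin Q).Nondegenerate ∧ ∀ v, Q (A *ᵥ v) = Q v := by
  refine ⟨(Matrix.toBilin' B).toQuadraticMap, ?_, ?_⟩
  · have e : polarBilin (Matrix.toBilin' B).toQuadraticMap = Matrix.toBilin' ((2 : F) • B) := by
      rw [LinearMap.BilinMap.polarBilin_toQuadraticMap]
      apply LinearMap.ext
      intro x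
      apply LinearMap.ext
      intro y
      rw [LinearMap.add_apply, LinearMap.add_apply, LinearMap.flip_apply, Matrix.toBilin'_apply',
        Matrix.toBilin'_apply', Matrix.toBilin'_apply', bilin_symm hsym y x, smul_mulVec,
        dotProduct_smul, smul_eq_mul]
      ring
    rw [e]
    apply LinearMap.BilinForm.nondegenerate_toBilin'_iff_det_ne_zero.2
    rw [det_smul]
    exact mul_ne_zero (pow_ne_zero _ h2) ((Matrix.isUnit_iff_isUnit_det _).1 hB).ne_zero
  · intro v
    rw [LinearMap.BilinMap.toQuadraticMap_apply, LinearMap.BilinMap.toQuadraticMap_apply,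
      Matrix.toBilin'_apply', Matrix.toBilin'_apply', bilin_congr, hA]

end Cfsg.Agent.Lib.Helper44
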