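import Cfsg.Agent.Lib.Helper44.InvCent3
import Cfsg.Agent.Lib.Helper44.JType7

/-!
# Isometry groups of the standard non-alternating symmetric forms in characteristic two
-/

set_option autoImplicit false

namespace Cfsg.Agent.Lib.Helper44

open Matrix

variable {F : Type*} [Field F]

/-- the standard non-alternating form in odd dimension. -/
def oddStd (k : ℕ) (F : Type*) [Field F] :
    Matrix (Unit ⊕ (Fin k ⊕ Fin k)) (Unit ⊕ (Fin k ⊕ Fin k)) F :=
  fromBlocks 1 0 0 (Matrix.J (Fin k) F)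

theorem oddStd_quad (k : ℕ) (x : Unit ⊕ (Fin k ⊕ Fin k) → F) :
    x ⬝ᵥ oddStd k F *ᵥ x = x (Sum.inl ()) * x (Sum.inl ()) := by
  rw [oddStd, fromBlocks_mulVec]
  simp only [dotProduct, Fintype.sum_sum_type, Sum.elim_inl, Sum.elim_inr, zero_mulVec,
    add_zero, zero_add, one_mulVec, Finset.univ_unique, Finset.sum_singleton, Function.comp]
  have := J_alt (F := F) (x ∘ Sum.inr)
  simp only [dotProduct, Fintype.sum_sum_type, Function.comp] at this
  rw [this, add_zero]

theorem oddStd_isUnit (k : ℕ) : IsUnit (oddStd k F) := by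
  refine IsUnit.of_mul_eq_one (fromBlocks 1 0 0 (-Matrix.J (Fin k) F)) ?_
  rw [oddStd, fromBlocks_multiply]
  simp [Matrix.J_squared]

theorem oddStd_symm [CharP F 2] (k : ℕ) : (oddStd k F)ᵀ = oddStd k F := by
  rw [oddStd, fromBlocks_transpose, Matrix.J_transpose, mat_neg_eq]
  simp

theorem oddStd_nonalt (k : ℕ) : ¬ AltM (oddStd k F) := by
  intro h
  have := h (Pi.single (Sum.inl ()) 1)
  rw [oddStd_quad] at this
  simp at this

theorem cntF_oddStd [CharP F 2] (k : ℕ) :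
    cntF (oddStd k F) = Nat.card (Matrix.symplecticGroup (Fin k) F) := by
  rw [cntF_eq_T]
  have hJu : IsUnit (Matrix.J (Fin k) F) :=
    (Matrix.isUnit_iff_isUnit_det _).2 (Matrix.isUnit_det_J (Fin k) F)
  have key : ∀ B : Matrix (Unit ⊕ (Fin k ⊕ Fin k)) (Unit ⊕ (Fin k ⊕ Fin k)) F,
      Bᵀ * oddStd k F * B = oddStd k F →
      B = fromBlocks 1 0 0 B.toBlocks₂₂ ∧
        B.toBlocks₂₂ᵀ * Matrix.J (Fin k) F * B.toBlocks₂₂ = Matrix.J (Fin k) F := by
    intro B hB
    have h1 : ∀ v, (B *ᵥ v) (Sum.inl ()) = v (Sum.inl ()) := by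
      intro v
      apply mul_self_inj_char_two
      rw [← oddStd_quad, ← oddStd_quad, bilin_congr, hB]
    have ha : B.toBlocks₁₁ = 1 := by
      ext i j
      have := h1 (Pi.single (Sum.inl ()) 1)
      rw [mulVec_single_one] at this
      simpa [toBlocks₁₁] using this
    have hb : B.toBlocks₁₂ = 0 := by
      ext i j
      have := h1 (Pi.single (Sum.inr j) 1)
      rw [mulVec_single_one] at this
      simpa [toBlocks₁₂] using this
    have hB' := hB
    rw [← fromBlocks_toBlocks B, ha, hb, oddStd, fromBlocks_transpose, fromBlocks_multiply,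
      fromBlocks_multiply, fromBlocks_inj] at hB'
    obtain ⟨-, -, h3, h4⟩ := hB'
    simp only [transpose_zero, Matrix.mul_zero, zero_add, Matrix.mul_one,
      add_zero] at h3 h4
    have hDu : IsUnit (B.toBlocks₂₂ᵀ * Matrix.J (Fin k) F) := by
      obtain ⟨⟨J₀, J', e1, e2⟩, hJ₀⟩ := hJu
      simp only at hJ₀
      refine IsUnit.of_mul_eq_one (B.toBlocks₂₂ * J') ?_
      rw [← mul_assoc, h4, ← hJ₀, e1]
    have hc : B.toBlocks₂₁ = 0 := by
      obtain ⟨⟨X, X', e1, e2⟩, hX⟩ := hDu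
      simp only at hX
      calc B.toBlocks₂₁ = (X' * X) * B.toBlocks₂₁ := by rw [e2, Matrix.one_mul]
        _ = X' * (X * B.toBlocks₂₁) := by rw [Matrix.mul_assoc]
        _ = 0 := by rw [hX, h3, Matrix.mul_zero]
    refine ⟨?_, h4⟩
    conv_lhs => rw [← fromBlocks_toBlocks B, ha, hb, hc]
  refine Nat.card_congr ⟨fun B => ⟨B.1.toBlocks₂₂, SymplecticGroup.mem_iff'.2 (key B.1 B.2).2⟩,
    fun D => ⟨fromBlocks 1 0 0 D.1, ?_⟩, fun B => ?_, fun D => ?_⟩
  · rw [oddStd, fromBlocks_transpose, fromBlocks_multiply, fromBlocks_multiply]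
    simp [SymplecticGroup.mem_iff'.1 D.2]
  · exact Subtype.ext (key B.1 B.2).1.symm
  · exact Subtype.ext (toBlocks_fromBlocks₂₂ _ _ _ _)

theorem cntF_one_odd [Finite F] [CharP F 2] (k : ℕ) :
    cntF (1 : Matrix (Fin (2 * k + 1)) (Fin (2 * k + 1)) F)
      = Nat.card (Matrix.symplecticGroup (Fin k) F) := by
  rw [← cntF_oddStd, cntF_nonalt' (n := 2 * k + 1) (by simp; ring) (oddStd_isUnit k)
    (oddStd_symm k) (oddStd_nonalt k)]

theorem cntF_evenStd [CharP F 2] {k : ℕ} (i₀ : Fin k) :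
    cntF (Matrix.J (Fin k) F + tvD F i₀)
      = Nat.card (Subgroup.centralizer ({tvSp F i₀} : Set (Matrix.symplecticGroup (Fin k) F))) := by
  rw [cntF_eq_T]
  have hinj : Function.Injective
      ((spToGL k F).comp (Subgroup.centralizer {tvSp F i₀}).subtype) :=
    spToGL_injective.comp Subtype.val_injective
  rw [Nat.card_congr (MonoidHom.ofInjective hinj).toEquiv]
  have hu : ∀ B : Matrix (Fin k ⊕ Fin k) (Fin k ⊕ Fin k) F,
      Bᵀ * (Matrix.J (Fin k) F + tvD F i₀) * B = Matrix.J (Fin k) F + tvD F i₀ → IsUnit B := by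
    intro B hB
    exact isUnit_of_pres (by rw [← JDGL_coe]; exact (JDGL F i₀).isUnit) hB
  refine Nat.card_congr ⟨fun B => ⟨(hu B.1 B.2).unit, (mem_range_cent_iff i₀ _).2 B.2⟩,
    fun h => ⟨h.1.1, (mem_range_cent_iff i₀ _).1 h.2⟩, fun B => rfl, fun h => ?_⟩
  apply Subtype.ext
  apply Units.ext
  rfl

theorem evenStd_nonalt {k : ℕ} (i₀ : Fin k) : ¬ AltM (Matrix.J (Fin k) F + tvD F i₀) := by
  intro h
  have := h (Pi.single (Sum.inr i₀) 1)
  rw [JD_bilin, J_alt] at this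
  simp at this

theorem cntF_one_even [Fintype F] [CharP F 2] (k : ℕ) :
    cntF (1 : Matrix (Fin (2 * (k + 1))) (Fin (2 * (k + 1))) F)
      = Fintype.card F ^ (2 * (k + 1) - 1) * (Fintype.card F ^ (k ^ 2) *
        ∏ i : Fin k, (Fintype.card F ^ (2 * ((i : ℕ) + 1)) - 1)) := by
  let i₀ : Fin (k + 1) := 0
  have h1 := Cfsg.Agent.S2594.result (F := F) rfl (m := k + 1) (by omega) (tvSp F i₀) (by
    rw [tvSp_coe, add_sub_cancel_left]
    exact rank_tvE i₀)
  rw [← cntF_evenStd] at h1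
  rw [← cntF_nonalt' (n := 2 * (k + 1)) (by simp; ring) (by
    rw [← JDGL_coe]; exact (JDGL F i₀).isUnit) (by
    rw [transpose_add, tvD_transpose, Matrix.J_transpose, mat_neg_eq]) (evenStd_nonalt i₀), h1]
  rfl

end Cfsg.Agent.Lib.Helper44
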