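import Cfsg.Agent.Lib.Helper44.InvCent4

/-!
# Centralisers of involutions of `Sp_{2m}(q)`, `q` even: orders
-/

set_option autoImplicit false

namespace Cfsg.Agent.Lib.Helper44

open Matrix Cfsg.Agent.Lib.Helper5

variable {F : Type*} [Field F]

theorem card_cent_inv' [Fintype F] [CharP F 2] {m s : ℕ} (t : Matrix.symplecticGroup (Fin m) F)
    (ht : t ^ 2 = 1)
    (hs : ((t : Matrix (Fin m ⊕ Fin m) (Fin m ⊕ Fin m) F) - 1).rank = s) :
    ∃ S : Matrix (Fin s) (Fin s) F, Sᵀ = S ∧ IsUnit S ∧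
      (AltM S ↔ ∀ v, Cfsg.sympForm m F v
        ((t : Matrix (Fin m ⊕ Fin m) (Fin m ⊕ Fin m) F) *ᵥ v) = 0) ∧ s ≤ m ∧
      Nat.card (Subgroup.centralizer ({t} : Set (Matrix.symplecticGroup (Fin m) F))) =
        cntF S * (Fintype.card F ^ (s * (s + 1) / 2 + 2 * s * (m - s)) *
          (Fintype.card F ^ ((m - s) ^ 2) *
            ∏ i ∈ Finset.range (m - s), (Fintype.card F ^ (2 * (i + 1)) - 1))) := by
  obtain ⟨S, h1, h2, h3, h4⟩ := card_cent_inv t ht hs
  have hq : 1 < Fintype.card F := Fintype.one_lt_card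
  have hcnt : 0 < Nat.card {A : Matrix (Fin s) (Fin s) F // A * S * Aᵀ = S} := by
    have : Nonempty {A : Matrix (Fin s) (Fin s) F // A * S * Aᵀ = S} := ⟨⟨1, by simp⟩⟩
    exact Nat.card_pos
  have hsp : 0 < Nat.card (Matrix.symplecticGroup (Fin m) F) := by
    have : Finite (Matrix.symplecticGroup (Fin m) F) := Subtype.finite
    exact Nat.card_pos
  have hsm : s ≤ m := by
    by_contra hcon
    have h0 : ∏ i : Fin s, (Fintype.card F ^ (2 * m - (i : ℕ)) - Fintype.card F ^ (i : ℕ)) = 0 := by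
      apply Finset.prod_eq_zero (Finset.mem_univ (⟨m, by omega⟩ : Fin s))
      have : 2 * m - m = m := by omega
      simp [this]
    rw [h0, mul_zero] at h4
    have := Nat.mul_pos hcnt hsp
    omega
  refine ⟨S, h1, h2, h3, hsm, ?_⟩
  have hP : 0 < ∏ i : Fin s, (Fintype.card F ^ (2 * m - (i : ℕ)) - Fintype.card F ^ (i : ℕ)) := by
    apply Finset.prod_pos
    intro i _
    apply Nat.sub_pos_of_lt
    apply Nat.pow_lt_pow_right hq
    have := i.2
    omega
  have har := sp_parabolic_arith (Fintype.card F) m s hq.le hsm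
  rw [card_symplecticGroup, ← har] at h4
  apply Nat.eq_of_mul_eq_mul_right hP
  rw [h4, cntF]
  ring

theorem exp_arith {m s : ℕ} (h : s ≤ m) :
    2 * m * s - (3 * s ^ 2 - s) / 2 = s * (s + 1) / 2 + 2 * s * (m - s) := by
  obtain ⟨c, rfl⟩ := Nat.exists_eq_add_of_le h
  obtain ⟨a, ha⟩ := Nat.even_mul_succ_self s
  have e1 : s + c - s = c := by omega
  rw [e1, ha]
  have hu : s ≤ s ^ 2 := Nat.le_self_pow (by norm_num) s
  have e2 : s ^ 2 + s = a + a := by rw [← ha]; ring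
  have e3 : 2 * (s + c) * s = 2 * s ^ 2 + 2 * (s * c) := by ring
  have e4 : 2 * s * c = 2 * (s * c) := by ring
  rw [e3, e4]
  generalize s ^ 2 = u at *
  generalize s * c = w at *
  omega

theorem exp_arith' {m s : ℕ} (h : s ≤ m) (hs : 1 ≤ s) :
    2 * m * s - (3 * s ^ 2 - 3 * s) / 2 - 1 = (s - 1) + (s * (s + 1) / 2 + 2 * s * (m - s)) := by
  obtain ⟨c, rfl⟩ := Nat.exists_eq_add_of_le h
  obtain ⟨a, ha⟩ := Nat.even_mul_succ_self s
  have e1 : s + c - s = c := by omega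
  rw [e1, ha]
  have hu : s ≤ s ^ 2 := Nat.le_self_pow (by norm_num) s
  have e2 : s ^ 2 + s = a + a := by rw [← ha]; ring
  have e3 : 2 * (s + c) * s = 2 * s ^ 2 + 2 * (s * c) := by ring
  have e4 : 2 * s * c = 2 * (s * c) := by ring
  rw [e3, e4]
  generalize s ^ 2 = u at *
  generalize s * c = w at *
  omega

theorem not_altM_of_odd {s : ℕ} (hodd : Odd s) {S : Matrix (Fin s) (Fin s) F} (hS : IsUnit S) :
    ¬ AltM S := by
  intro h
  have h1 := even_rank_of_altM S h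
  rw [rank_of_isUnit _ hS, Fintype.card_fin] at h1
  exact (Nat.not_even_iff_odd.2 hodd) h1

theorem card_cent_inv_odd [Fintype F] [CharP F 2] {m s : ℕ}
    (t : Matrix.symplecticGroup (Fin m) F) (ht : t ^ 2 = 1)
    (hs : ((t : Matrix (Fin m ⊕ Fin m) (Fin m ⊕ Fin m) F) - 1).rank = s) (hodd : Odd s) :
    Nat.card (Subgroup.centralizer ({t} : Set (Matrix.symplecticGroup (Fin m) F))) =
      Fintype.card F ^ (2 * m * s - (3 * s ^ 2 - s) / 2) *
        (Fintype.card F ^ (((s - 1) / 2) ^ 2) *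
          ∏ i : Fin ((s - 1) / 2), (Fintype.card F ^ (2 * ((i : ℕ) + 1)) - 1)) *
        (Fintype.card F ^ ((m - s) ^ 2) *
          ∏ i : Fin (m - s), (Fintype.card F ^ (2 * ((i : ℕ) + 1)) - 1)) := by
  obtain ⟨S, h1, h2, -, hsm, h4⟩ := card_cent_inv' t ht hs
  obtain ⟨k, rfl⟩ := hodd
  rw [h4, cntF_nonalt h2 h1 (not_altM_of_odd ⟨k, rfl⟩ h2), cntF_one_odd, card_symplecticGroup,
    exp_arith hsm, Fin.prod_univ_eq_prod_range (fun i => Fintype.card F ^ (2 * (i + 1)) - 1),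
    Fin.prod_univ_eq_prod_range (fun i => Fintype.card F ^ (2 * (i + 1)) - 1)]
  have e : (2 * k + 1 - 1) / 2 = k := by omega
  rw [e]
  ring

theorem card_cent_inv_alt [Fintype F] [CharP F 2] {m s : ℕ}
    (t : Matrix.symplecticGroup (Fin m) F) (ht : t ^ 2 = 1)
    (hs : ((t : Matrix (Fin m ⊕ Fin m) (Fin m ⊕ Fin m) F) - 1).rank = s) (heven : Even s)
    (halt : ∀ v, Cfsg.sympForm m F v
      ((t : Matrix (Fin m ⊕ Fin m) (Fin m ⊕ Fin m) F) *ᵥ v) = 0) :
    Nat.card (Subgroup.centralizer ({t} : Set (Matrix.symplecticGroup (Fin m) F))) =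
      Fintype.card F ^ (2 * m * s - (3 * s ^ 2 - s) / 2) *
        (Fintype.card F ^ ((s / 2) ^ 2) *
          ∏ i : Fin (s / 2), (Fintype.card F ^ (2 * ((i : ℕ) + 1)) - 1)) *
        (Fintype.card F ^ ((m - s) ^ 2) *
          ∏ i : Fin (m - s), (Fintype.card F ^ (2 * ((i : ℕ) + 1)) - 1)) := by
  obtain ⟨S, h1, h2, h3, hsm, h4⟩ := card_cent_inv' t ht hs
  obtain ⟨k, hk⟩ := heven
  have hk' : s = 2 * k := by omega
  subst hk'
  rw [h4, cntF_alt h2 (h3.2 halt), card_symplecticGroup,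
    exp_arith hsm, Fin.prod_univ_eq_prod_range (fun i => Fintype.card F ^ (2 * (i + 1)) - 1),
    Fin.prod_univ_eq_prod_range (fun i => Fintype.card F ^ (2 * (i + 1)) - 1)]
  have e : 2 * k / 2 = k := by omega
  rw [e]
  ring

theorem card_cent_inv_nonalt [Fintype F] [CharP F 2] {m s : ℕ}
    (t : Matrix.symplecticGroup (Fin m) F) (ht : t ^ 2 = 1)
    (hs : ((t : Matrix (Fin m ⊕ Fin m) (Fin m ⊕ Fin m) F) - 1).rank = s) (heven : Even s)
    (hna : ∃ v, Cfsg.sympForm m F v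
      ((t : Matrix (Fin m ⊕ Fin m) (Fin m ⊕ Fin m) F) *ᵥ v) ≠ 0) :
    Nat.card (Subgroup.centralizer ({t} : Set (Matrix.symplecticGroup (Fin m) F))) =
      Fintype.card F ^ (2 * m * s - (3 * s ^ 2 - 3 * s) / 2 - 1) *
        (Fintype.card F ^ (((s - 2) / 2) ^ 2) *
          ∏ i : Fin ((s - 2) / 2), (Fintype.card F ^ (2 * ((i : ℕ) + 1)) - 1)) *
        (Fintype.card F ^ ((m - s) ^ 2) *
          ∏ i : Fin (m - s), (Fintype.card F ^ (2 * ((i : ℕ) + 1)) - 1)) := by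
  obtain ⟨S, h1, h2, h3, hsm, h4⟩ := card_cent_inv' t ht hs
  have hS : ¬ AltM S := by
    intro h
    obtain ⟨v, hv⟩ := hna
    exact hv (h3.1 h v)
  obtain ⟨k, hk⟩ := heven
  have hk0 : k ≠ 0 := by
    rintro rfl
    have hs0 : s = 0 := by omega
    subst hs0
    apply hS
    intro v
    simp [dotProduct]
  obtain ⟨j, rfl⟩ : ∃ j, k = j + 1 := ⟨k - 1, by omega⟩
  have hk' : s = 2 * (j + 1) := by omega
  subst hk'
  rw [h4, cntF_nonalt h2 h1 hS, cntF_one_even,
    exp_arith' hsm (by omega), Fin.prod_univ_eq_prod_range (fun i => Fintype.card F ^ (2 * (i + 1)) - 1),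
    Fin.prod_univ_eq_prod_range (fun i => Fintype.card F ^ (2 * (i + 1)) - 1),
    Fin.prod_univ_eq_prod_range (fun i => Fintype.card F ^ (2 * (i + 1)) - 1)]
  have e : (2 * (j + 1) - 2) / 2 = j := by omega
  rw [e, pow_add]
  ring

end Cfsg.Agent.Lib.Helper44
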