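import Cfsg.Agent.Lib.Helper44.InvolOmega
import Cfsg.Agent.S0831

set_option autoImplicit false

namespace Cfsg.Agent.Lib.Helper44

open Module QuadraticMap Matrix

variable {F : Type*} [Field F]

theorem matrix_mul_self_of_isoEquiv {ι : Type} [Fintype ι] [DecidableEq ι]
    (Q : QuadraticForm F (ι → F)) (a : ↥(Cfsg.isometryGroup F ⇑Q))
    (ha : isoEquiv Q a * isoEquiv Q a = 1) :
    ((a : GL ι F) : Matrix ι ι F) * ((a : GL ι F) : Matrix ι ι F) = 1 := by
  have h1 : a * a = 1 := by
    apply (isoEquiv Q).injective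
    rw [map_mul, ha, map_one]
  have h2 := congrArg (fun g : ↥(Cfsg.isometryGroup F ⇑Q) => ((g : GL ι F) : Matrix ι ι F)) h1
  simpa using h2

theorem card_involution_classes_Omega_plus [Fintype F] [CharP F 2] (m : ℕ) (hm : 1 ≤ m)
    (h : Fintype.card F ≠ 2 ∨ m ≠ 2) :
    Nat.card {C : ConjClasses ↥(Cfsg.Omega F ⇑(plusQF m F)) //
      ∃ g, ConjClasses.mk g = C ∧ orderOf g = 2} = 2 * (m / 2) + (if Even m then 1 else 0) := by
  have hQ := plusQF_nondeg m F
  have hgen : Fintype.card F ≠ 2 ∨ Fintype.card (Fin m ⊕ Fin m) ≠ 4 := by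
    rcases h with h | h
    · exact Or.inl h
    · right; simp only [Fintype.card_sum, Fintype.card_fin]; omega
  have hcard : Fintype.card (Fin m ⊕ Fin m) = 2 * m := by
    simp only [Fintype.card_sum, Fintype.card_fin]; omega
  have hM : ∀ T ∈ OQ (plusQF m F), T * T = 1 → nilRank T ≤ m := by
    intro T hT h2
    have := two_mul_nilRank_le hQ (OQ_le_SpL _ hT) h2
    rw [finrank_fintype_fun_eq_card, hcard] at this
    omega
  by_cases hme : Even m
  · rw [if_pos hme, two_mul]
    refine card_involution_classes_Omega_split _ hQ hgen m hcard hme hm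
      (fun s hs0 hs => (plus_hypSys m F).exists_nonalt s hs0 hs)
      (fun s _ hs h2 => (plus_hypSys m F).exists_alt s hs h2) ?_
    have := (Cfsg.Agent.S0831.result (F := F) m hm).1
    rw [← plusQF_coe] at this
    exact this
  · rw [if_neg hme, two_mul, add_zero]
    refine card_involution_classes_Omega_nosplit _ hQ (omegaEvenRank_of_generic _ hQ hgen) m m hM
      (fun T hT h2 _ => hM T hT h2)
      (fun s hs0 hs => (plus_hypSys m F).exists_nonalt s hs0 hs)
      (fun s _ hs h2 => (plus_hypSys m F).exists_alt s hs h2) ?_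
    intro t ht
    rcases involution_dichotomy _ hQ _ (matrix_mul_self_of_isoEquiv _ t ht) with hx | ⟨h1, h2⟩
    · exact hx
    · exfalso
      apply hme
      have hal := (isAltInv_iff_Wm _ t).2 h2
      have := even_nilRank_of_alt hQ (OQ_le_SpL _ (isoEquiv _ t).2) (congrArg Subtype.val ht) hal
      rw [nilRank_isoEquiv] at this
      have e : (((t : GL (Fin m ⊕ Fin m) F) : Matrix (Fin m ⊕ Fin m) (Fin m ⊕ Fin m) F) - 1).rank
          = m := by omega
      rwa [e] at this

theorem card_involution_classes_Omega_minus [Fintype F] [CharP F 2] (k : ℕ) {a b : F}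
    (hab : ∀ z₁ z₂ : F, z₁ ^ 2 + a * z₁ * z₂ + b * z₂ ^ 2 = 0 → z₁ = 0 ∧ z₂ = 0)
    (hΩ : OmegaEvenRank (minusQF k F a b)) :
    Nat.card {C : ConjClasses ↥(Cfsg.Omega F ⇑(minusQF k F a b)) //
      ∃ g, ConjClasses.mk g = C ∧ orderOf g = 2} = (k + 1) / 2 + k / 2 := by
  have ha : a ≠ 0 := ne_zero_of_anisotropic_char_two hab
  have hQ := minusQF_nondeg k F hab
  have hM : ∀ T ∈ OQ (minusQF k F a b), T * T = 1 → nilRank T ≤ k + 1 := by
    intro T hT h2
    have := two_mul_nilRank_le hQ (OQ_le_SpL _ hT) h2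
    simp only [finrank_fintype_fun_eq_card, Fintype.card_sum, Fintype.card_fin] at this
    omega
  refine card_involution_classes_Omega_nosplit _ hQ hΩ (k + 1) k hM
    (fun T hT h2 halt => minus_finrank_sing_le hab _ (Q_range_eq_zero_of_alt hT halt))
    (fun s hs0 hs => (minus_hypSys k F a b).exists_nonalt_succ (Pi.single (Sum.inr 0) 1)
      (a⁻¹ • Pi.single (Sum.inr 1) 1) ?_ ?_ ?_ ?_ ?_ ?_ s hs0 hs)
    (fun s _ hs h2 => (minus_hypSys k F a b).exists_alt s hs h2) ?_
  · rw [minusQF_apply]; simp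
  · intro i; rw [minusQF_polar_single_zero]; simp
  · intro i; rw [minusQF_polar_single_zero]; simp
  · rw [polar_smul_left, minusQF_polar_single_one]; simp [ha]
  · intro i; rw [polar_smul_left, minusQF_polar_single_one]; simp
  · intro i; rw [polar_smul_left, minusQF_polar_single_one]; simp
  · intro t ht
    rcases involution_dichotomy _ hQ _ (matrix_mul_self_of_isoEquiv _ t ht) with hx | ⟨h1, h2⟩
    · exact hx
    · exfalso
      have h3 := minus_finrank_sing_le hab _ h2
      rw [Matrix.rank] at h1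
      simp only [Fintype.card_sum, Fintype.card_fin] at h1
      omega

end Cfsg.Agent.Lib.Helper44
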