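import Cfsg.Agent.Lib.Helper44.JType2

/-!
# Realising rank functions by unipotent isometries: closure properties
-/

set_option autoImplicit false

namespace Cfsg.Agent.Lib.Helper44

open Matrix Module Cfsg.Agent.Lib.Helper43

variable {F : Type*} [Field F]

/-- the two kinds of forms. -/
def KindM (alt : Bool) {ι : Type*} [Fintype ι] (B : Matrix ι ι F) : Prop :=
  if alt then AltM B else Bᵀ = B

/-- a rank function realised by a unipotent isometry of a non-degenerate form of the given kind. -/
def RealJ (alt : Bool) (F : Type*) [Field F] (n : ℕ) (r : ℕ → ℕ) : Prop :=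
  ∃ (ι : Type) (_ : Fintype ι) (_ : DecidableEq ι) (B A : Matrix ι ι F),
    Fintype.card ι = n ∧ IsUnit B ∧ KindM alt B ∧ Aᵀ * B * A = B ∧ ∀ k, ((A - 1) ^ k).rank = r k

theorem RealJ.congr {alt : Bool} {n n' : ℕ} {r r' : ℕ → ℕ} (h : RealJ alt F n r) (hn : n = n')
    (hr : ∀ k, r k = r' k) : RealJ alt F n' r' := by
  subst hn
  have : r = r' := funext hr
  subst this
  exact h

theorem RealJ.zero (alt : Bool) : RealJ alt F 0 (fun _ => 0) := by
  refine ⟨Empty, inferInstance, inferInstance, 1, 1, by simp, isUnit_one, ?_, by simp, ?_⟩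
  · unfold KindM
    split_ifs
    · intro v
      simp
    · simp
  · intro k
    have := Matrix.rank_le_card_width (((1 : Matrix Empty Empty F) - 1) ^ k)
    simpa using this

theorem fromBlocks_sub_one_pow {ι κ : Type*} [Fintype ι] [Fintype κ] [DecidableEq ι]
    [DecidableEq κ] (A : Matrix ι ι F) (D : Matrix κ κ F) (k : ℕ) :
    (fromBlocks A 0 0 D - 1) ^ k = fromBlocks ((A - 1) ^ k) 0 0 ((D - 1) ^ k) := by
  have : fromBlocks A 0 0 D - 1 = fromBlocks (A - 1) 0 0 (D - 1) := by
    rw [← fromBlocks_one, sub_eq_add_neg, fromBlocks_neg, fromBlocks_add]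
    simp [sub_eq_add_neg]
  rw [this, fromBlocks_diagonal_pow]

theorem RealJ.add {alt : Bool} {n n' : ℕ} {r r' : ℕ → ℕ} (h : RealJ alt F n r)
    (h' : RealJ alt F n' r') : RealJ alt F (n + n') (fun k => r k + r' k) := by
  obtain ⟨ι, _, _, B, A, h1, h2, h3, h4, h5⟩ := h
  obtain ⟨ι', _, _, B', A', h1', h2', h3', h4', h5'⟩ := h'
  refine ⟨ι ⊕ ι', inferInstance, inferInstance, fromBlocks B 0 0 B', fromBlocks A 0 0 A', ?_, ?_,
    ?_, ?_, ?_⟩
  · rw [Fintype.card_sum, h1, h1']
  · obtain ⟨⟨B, C, e1, e2⟩, rfl⟩ := h2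
    obtain ⟨⟨B', C', e1', e2'⟩, rfl⟩ := h2'
    refine IsUnit.of_mul_eq_one (fromBlocks C 0 0 C') ?_
    rw [fromBlocks_multiply]
    simp [e1, e1']
  · unfold KindM at h3 h3' ⊢
    split_ifs with ha
    · rw [if_pos ha] at h3 h3'
      intro v
      rw [fromBlocks_mulVec]
      simp only [dotProduct, Fintype.sum_sum_type, Sum.elim_inl, Sum.elim_inr, zero_mulVec,
        add_zero, zero_add]
      have e1 := h3 (v ∘ Sum.inl)
      have e2 := h3' (v ∘ Sum.inr)
      simp only [dotProduct, Function.comp] at e1 e2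
      rw [e1, e2, add_zero]
    · rw [if_neg ha] at h3 h3'
      rw [fromBlocks_transpose, h3, h3']
      simp
  · rw [fromBlocks_transpose, fromBlocks_multiply, fromBlocks_multiply]
    simp [h4, h4']
  · intro k
    rw [fromBlocks_sub_one_pow, rank_fromBlocks_diag, h5, h5']

theorem RealJ.nsmul {alt : Bool} {n : ℕ} {r : ℕ → ℕ} (h : RealJ alt F n r) (c : ℕ) :
    RealJ alt F (c * n) (fun k => c * r k) := by
  induction c with
  | zero => exact (RealJ.zero alt).congr (by simp) (by simp)
  | succ c ih => exact (ih.add h).congr (by ring) (fun k => by ring)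

theorem RealJ.sum {alt : Bool} {α : Type*} (s : Finset α) (n : α → ℕ) (r : α → ℕ → ℕ)
    (h : ∀ a ∈ s, RealJ alt F (n a) (r a)) :
    RealJ alt F (∑ a ∈ s, n a) (fun k => ∑ a ∈ s, r a k) := by
  classical
  induction s using Finset.induction_on with
  | empty => exact (RealJ.zero alt).congr (by simp) (by simp)
  | insert a s ha ih =>
    refine ((h a (Finset.mem_insert_self a s)).add
      (ih fun b hb => h b (Finset.mem_insert_of_mem hb))).congr ?_ ?_
    · rw [Finset.sum_insert ha]
    · intro k
      rw [Finset.sum_insert ha]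

/-- assembling a Jordan type from its blocks. -/
theorem RealJ.of_blocks {alt : Bool} {t : ℕ} (d : Fin t → ℕ)
    (h : ∀ j, RealJ alt F ((Finset.univ.filter (fun k : Fin t => d k = j)).card * j)
      (fun k => (Finset.univ.filter (fun i : Fin t => d i = j)).card * (j - k))) :
    RealJ alt F (∑ i, d i) (fun k => ∑ i, (d i - k)) := by
  classical
  refine (RealJ.sum (Finset.univ.image d) _ _ (fun j _ => h j)).congr ?_ ?_
  · have := Finset.sum_comp (s := (Finset.univ : Finset (Fin t))) (fun j : ℕ => j) d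
    simpa using this.symm
  · intro k
    have := Finset.sum_comp (s := (Finset.univ : Finset (Fin t))) (fun j : ℕ => j - k) d
    simpa using this.symm

end Cfsg.Agent.Lib.Helper44
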