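import Cfsg.Agent.Lib.Helper44.SpReg
import Cfsg.Agent.Lib.Helper43.JordanBlock

/-!
# Existence of regular unipotent elements in the symplectic group
-/

set_option autoImplicit false

namespace Cfsg.Agent.Lib.Helper44

open Matrix Module Cfsg.Agent.Lib.Helper43

theorem rank_eq_pred_of_nilpotent {ι : Type*} [Fintype ι] [DecidableEq ι] [Nonempty ι]
    {F : Type*} [Field F] (s : Matrix ι ι F) (k : ℕ) (hs : s ^ k = 0)
    (hker : finrank F (LinearMap.ker (Matrix.mulVecLin s)) ≤ 1) :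
    s.rank = Fintype.card ι - 1 := by
  have h1 := finrank_ker_mulVecLin s
  have h3 : 1 ≤ finrank F (LinearMap.ker (Matrix.mulVecLin s)) := by
    by_contra hcon
    have h4 : finrank F (LinearMap.ker (Matrix.mulVecLin s)) = 0 := by omega
    have h5 : LinearMap.ker (Matrix.mulVecLin s) = ⊥ := Submodule.finrank_eq_zero.1 h4
    have hinj : Function.Injective (Matrix.mulVecLin s) := LinearMap.ker_eq_bot.1 h5
    have hpow : ∀ k : ℕ, Function.Injective ((Matrix.mulVecLin s) ^ k) := by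
      intro k
      induction k with
      | zero => exact fun x y h => h
      | succ k ih =>
        rw [pow_succ]
        exact ih.comp hinj
    have h6 := hpow k
    rw [← mulVecLin_pow', hs] at h6
    obtain ⟨i⟩ := ‹Nonempty ι›
    have h7 : (Pi.single i (1 : F) : ι → F) = 0 := h6 (by simp)
    have h8 := congrFun h7 i
    simp at h8
  omega

/-- the Cayley transform of a skew-adjoint nilpotent element. -/
theorem cayley_dagger {M : Type*} [Ring M] {d : M → M} (hd : IsDagger d) {s : M}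
    (hs : IsNilpotent s) (hds : d s = -s) :
    ∃ w : M, (1 - s) * w = 1 ∧ w * (1 - s) = 1 ∧ Commute s w ∧
      ((1 + s) * w) * d ((1 + s) * w) = 1 := by
  obtain ⟨⟨a, w, h1, h2⟩, ha⟩ := hs.isUnit_one_sub
  change a = 1 - s at ha
  subst ha
  have hc : Commute s w := by
    show s * w = w * s
    calc s * w = w * (1 - s) * s * w := by rw [h2, one_mul]
      _ = w * s * ((1 - s) * w) := by
        simp only [mul_sub, sub_mul, mul_one, one_mul, mul_assoc]
      _ = w * s := by rw [h1, mul_one]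
  refine ⟨w, h1, h2, hc, ?_⟩
  have h3 : (1 + s) * d w = 1 := by
    have := congrArg d h2
    rwa [hd.mul, hd.sub, hd.one, hds, sub_neg_eq_add] at this
  have hc' : Commute (1 + s) w := (Commute.one_left w).add_left hc
  rw [hd.mul, hd.add, hd.one, hds, ← sub_eq_add_neg, hc'.eq, mul_assoc, ← mul_assoc (1 + s), h3,
    one_mul, h2]

section exist

variable {F : Type*} [Field F] {m : ℕ}

theorem dJ_fromBlocks (A B C D : Matrix (Fin m) (Fin m) F) :
    dJ (fromBlocks A B C D) = fromBlocks Dᵀ (-Bᵀ) (-Cᵀ) Aᵀ := by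
  unfold dJ J
  rw [fromBlocks_transpose, fromBlocks_multiply, fromBlocks_multiply, fromBlocks_neg]
  simp

/-- a regular nilpotent element of the symplectic Lie algebra. -/
noncomputable def sReg (F : Type*) [Field F] {m : ℕ} (hm : 1 ≤ m) :
    Matrix (Fin m ⊕ Fin m) (Fin m ⊕ Fin m) F :=
  fromBlocks (Cfsg.jordanBlock m F - 1) (Matrix.single ⟨0, hm⟩ ⟨0, hm⟩ 1) 0
    (-(Cfsg.jordanBlock m F - 1)ᵀ)

theorem dJ_sReg (hm : 1 ≤ m) : dJ (sReg F hm) = -sReg F hm := by
  unfold sReg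
  rw [dJ_fromBlocks, fromBlocks_neg]
  simp

theorem sReg_pow (hm : 1 ≤ m) (k : ℕ) : ∃ B : Matrix (Fin m) (Fin m) F,
    sReg F hm ^ k = fromBlocks ((Cfsg.jordanBlock m F - 1) ^ k) B 0
      ((-(Cfsg.jordanBlock m F - 1)ᵀ) ^ k) := by
  induction k with
  | zero => exact ⟨0, by simp⟩
  | succ k ih =>
    obtain ⟨B, hB⟩ := ih
    refine ⟨(Cfsg.jordanBlock m F - 1) ^ k * Matrix.single ⟨0, hm⟩ ⟨0, hm⟩ 1 +
      B * (-(Cfsg.jordanBlock m F - 1)ᵀ), ?_⟩
    rw [pow_succ, hB]
    conv_lhs => rw [sReg, fromBlocks_multiply]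
    simp only [Matrix.mul_zero, add_zero, Matrix.zero_mul, zero_add, ← pow_succ]

theorem sReg_pow_eq_zero (hm : 1 ≤ m) : sReg F hm ^ (2 * m) = 0 := by
  obtain ⟨B, hB⟩ := sReg_pow (F := F) hm m
  have h1 : (-(Cfsg.jordanBlock m F - 1)ᵀ) ^ m = 0 := by
    rw [neg_pow, ← transpose_pow, jordanBlock_sub_one_pow, transpose_zero, mul_zero]
  rw [jordanBlock_sub_one_pow, h1] at hB
  rw [two_mul, pow_add, hB, fromBlocks_multiply]
  simp

theorem shift_transpose_mulVec (y : Fin m → F) (j : Fin m) (hj : (j : ℕ) + 1 < m) :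
    ((Cfsg.jordanBlock m F - 1)ᵀ *ᵥ y) j = y ⟨j + 1, hj⟩ := by
  simp only [Matrix.mulVec, dotProduct, transpose_apply, jordanBlock_sub_one_apply]
  rw [Finset.sum_eq_single ⟨j + 1, hj⟩]
  · simp
  · intro l _ hl
    have : (l : ℕ) ≠ j + 1 := fun e => hl (Fin.ext e)
    rw [if_neg this, zero_mul]
  · simp

theorem shift_mulVec_zero (hm : 1 ≤ m) (x : Fin m → F) :
    ((Cfsg.jordanBlock m F - 1) *ᵥ x) ⟨0, hm⟩ = 0 := by
  simp only [Matrix.mulVec, dotProduct, jordanBlock_sub_one_apply]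
  apply Finset.sum_eq_zero
  intro l _
  rw [if_neg (by simp), zero_mul]

theorem ker_sReg_le (hm : 1 ≤ m) : LinearMap.ker (Matrix.mulVecLin (sReg F hm)) ≤
    (F ∙ (Pi.single (Sum.inl ⟨m - 1, by omega⟩) (1 : F) : Fin m ⊕ Fin m → F)) := by
  intro z hz
  rw [LinearMap.mem_ker, Matrix.mulVecLin_apply, sReg, fromBlocks_mulVec] at hz
  have hz1 : (Cfsg.jordanBlock m F - 1) *ᵥ (z ∘ Sum.inl) +
      (Matrix.single ⟨0, hm⟩ ⟨0, hm⟩ (1 : F)) *ᵥ (z ∘ Sum.inr) = 0 := by
    funext i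
    exact congrFun hz (Sum.inl i)
  have hz2 : (Cfsg.jordanBlock m F - 1)ᵀ *ᵥ (z ∘ Sum.inr) = 0 := by
    funext i
    have := congrFun hz (Sum.inr i)
    rw [Sum.elim_inr, Matrix.zero_mulVec, zero_add, Matrix.neg_mulVec] at this
    exact neg_eq_zero.1 this
  have hy : ∀ k : Fin m, z (Sum.inr k) = 0 := by
    intro k
    by_cases hk : (k : ℕ) = 0
    · have h1 := congrFun hz1 ⟨0, hm⟩
      rw [Pi.add_apply, shift_mulVec_zero, zero_add] at h1
      have hk' : k = ⟨0, hm⟩ := Fin.ext hk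
      rw [hk']
      simpa [Matrix.single_mulVec] using h1
    · have hj : (k : ℕ) - 1 + 1 < m := by have := k.2; omega
      have h1 := shift_transpose_mulVec (z ∘ Sum.inr) ⟨k - 1, by omega⟩ hj
      rw [hz2] at h1
      have hk' : k = ⟨(k : ℕ) - 1 + 1, hj⟩ := Fin.ext (by simp; omega)
      rw [hk']
      exact h1.symm
  have hy' : z ∘ Sum.inr = 0 := by
    funext k
    exact hy k
  rw [hy', Matrix.mulVec_zero, add_zero] at hz1
  rw [Submodule.mem_span_singleton]
  refine ⟨z (Sum.inl ⟨m - 1, by omega⟩), ?_⟩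
  ext (j | j)
  · by_cases hj : j = ⟨m - 1, by omega⟩
    · subst hj; simp
    · have hj' : (j : ℕ) + 1 < m := by
        have h2 : (j : ℕ) ≠ m - 1 := fun e => hj (Fin.ext e)
        have := j.2
        omega
      have h3 := jordanBlock_sub_one_mulVec_succ m F (z ∘ Sum.inl) j hj'
      rw [hz1] at h3
      have h4 : z (Sum.inl j) = 0 := h3.symm
      simp [hj, h4]
  · simp [hy j]

theorem rank_sReg (hm : 1 ≤ m) : (sReg F hm).rank = 2 * m - 1 := by
  have : Nonempty (Fin m ⊕ Fin m) := ⟨Sum.inl ⟨0, hm⟩⟩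
  rw [rank_eq_pred_of_nilpotent _ _ (sReg_pow_eq_zero hm), card_spI]
  refine (Submodule.finrank_mono (ker_sReg_le hm)).trans ?_
  exact (finrank_span_le_card _).trans (by simp)

/-- multiplying the nilpotent part by a commuting invertible matrix. -/
theorem RegU.of_mul_unit {ι : Type*} [Fintype ι] [DecidableEq ι] {n : ℕ} {N W B : Matrix ι ι F}
    (h1 : N ^ n = 0) (h2 : N.rank = n - 1) (hc : Commute N W) (hW : IsUnit W.det)
    (hB : B - 1 = N * W) : RegU n B := by
  refine ⟨?_, ?_⟩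
  · rw [hB, hc.mul_pow, h1, zero_mul]
  · rw [hB, Matrix.rank_mul_eq_left_of_isUnit_det _ _ hW, h2]

theorem exists_regU_sp (h2 : (2 : F) ≠ 0) (hm : 1 ≤ m) :
    ∃ u : Matrix (Fin m ⊕ Fin m) (Fin m ⊕ Fin m) F, u * dJ u = 1 ∧ RegU (2 * m) u := by
  obtain ⟨w, h1, h3, hc, hu⟩ := cayley_dagger (isDagger_dJ (F := F) (m := m))
    ⟨2 * m, sReg_pow_eq_zero hm⟩ (dJ_sReg hm)
  refine ⟨_, hu, ?_⟩
  apply RegU.of_mul_unit (sReg_pow_eq_zero hm) (rank_sReg hm) (hc.smul_right (2 : F))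
  · apply Matrix.isUnit_det_of_right_inverse (B := (2 : F)⁻¹ • (1 - sReg F hm))
    rw [Matrix.smul_mul, Matrix.mul_smul, h3, smul_smul, mul_inv_cancel₀ h2, one_smul]
  · have e : (1 + sReg F hm) * w - 1 = (1 + sReg F hm) * w - (1 - sReg F hm) * w := by rw [h1]
    rw [e, ← sub_mul, Matrix.mul_smul, two_smul]
    have : (1 + sReg F hm - (1 - sReg F hm)) = sReg F hm + sReg F hm := by abel
    rw [this, add_mul]

/-- a similitude with multiplier `l`. -/
def simD (m : ℕ) {F : Type*} [Field F] (l : F) : Matrix (Fin m ⊕ Fin m) (Fin m ⊕ Fin m) F :=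
  fromBlocks (l • 1) 0 0 1

theorem dJ_simD_mul (l : F) : dJ (simD m l) * simD m l = l • 1 := by
  unfold simD
  rw [dJ_fromBlocks, fromBlocks_multiply, ← fromBlocks_one, fromBlocks_smul]
  simp

theorem simD_mul_simD (l l' : F) (h : l * l' = 1) : simD m l * simD m l' = 1 := by
  unfold simD
  rw [fromBlocks_multiply, ← fromBlocks_one]
  simp [smul_smul, mul_comm l' l, h]

end exist

end Cfsg.Agent.Lib.Helper44
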