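import Cfsg.Agent.Lib.Helper44.JType3
import Cfsg.Agent.Lib.Helper44.SpRegEx

/-!
# Realising rank functions by unipotent isometries: building blocks
-/

set_option autoImplicit false

namespace Cfsg.Agent.Lib.Helper44

open Matrix Module Cfsg.Agent.Lib.Helper43

variable {F : Type*} [Field F]

theorem exists_inv_jordanBlock (d : ℕ) : ∃ g' : Matrix (Fin d) (Fin d) F,
    Cfsg.jordanBlock d F * g' = 1 ∧ g' * Cfsg.jordanBlock d F = 1 := by
  have hu : IsUnit (Cfsg.jordanBlock d F).det := by rw [det_jordanBlock]; exact isUnit_one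
  exact ⟨(Cfsg.jordanBlock d F)⁻¹, Matrix.mul_nonsing_inv _ hu, Matrix.nonsing_inv_mul _ hu⟩

/-- the inverse transpose has the same nilpotent ranks. -/
theorem invT_sub_one_pow {ι : Type*} [Fintype ι] [DecidableEq ι] {g g' : Matrix ι ι F}
    (h1 : g * g' = 1) (h2 : g' * g = 1) (k : ℕ) :
    (g'ᵀ - 1) ^ k = ((-g') ^ k * (g - 1) ^ k)ᵀ := by
  have hc : Commute (-g') (g - 1) := by
    show -g' * (g - 1) = (g - 1) * -g'
    rw [mul_sub, sub_mul, neg_mul, h2, mul_neg, h1]
    simp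
  rw [← hc.mul_pow, transpose_pow]
  congr 1
  rw [neg_mul, mul_sub, h2, mul_one, neg_sub, transpose_sub, transpose_one]

theorem rank_invT_sub_one_pow {ι : Type*} [Fintype ι] [DecidableEq ι] {g g' : Matrix ι ι F}
    (h1 : g * g' = 1) (h2 : g' * g = 1) (k : ℕ) :
    ((g'ᵀ - 1) ^ k).rank = ((g - 1) ^ k).rank := by
  rw [invT_sub_one_pow h1 h2, rank_transpose, rank_mul_eq_right_of_isUnit_det]
  rw [← Matrix.isUnit_iff_isUnit_det]
  exact IsUnit.pow _ (IsUnit.of_mul_eq_one _ h2).neg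

theorem altM_std (ι : Type*) [Fintype ι] [DecidableEq ι] :
    AltM (fromBlocks 0 1 (-1) 0 : Matrix (ι ⊕ ι) (ι ⊕ ι) F) := by
  intro v
  rw [fromBlocks_mulVec]
  simp only [dotProduct, Fintype.sum_sum_type, Sum.elim_inl, Sum.elim_inr, zero_mulVec,
    add_zero, zero_add, one_mulVec, neg_mulVec, Pi.neg_apply, Function.comp, mul_neg,
    Finset.sum_neg_distrib]
  rw [add_neg_eq_zero]
  exact Finset.sum_congr rfl fun i _ => mul_comm _ _

theorem isUnit_std (ι : Type*) [Fintype ι] [DecidableEq ι] :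
    IsUnit (fromBlocks 0 1 (-1) 0 : Matrix (ι ⊕ ι) (ι ⊕ ι) F) := by
  refine IsUnit.of_mul_eq_one (fromBlocks 0 (-1) 1 0) ?_
  rw [fromBlocks_multiply]
  simp

theorem RealJ.pair (alt : Bool) (d : ℕ) : RealJ alt F (2 * d) (fun k => 2 * (d - k)) := by
  obtain ⟨g', h1, h2⟩ := exists_inv_jordanBlock (F := F) d
  have hT : (Cfsg.jordanBlock d F)ᵀ * g'ᵀ = 1 := by rw [← transpose_mul, h2, transpose_one]
  refine ⟨Fin d ⊕ Fin d, inferInstance, inferInstance,
    if alt then fromBlocks 0 1 (-1) 0 else fromBlocks 0 1 1 0,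
    fromBlocks (Cfsg.jordanBlock d F) 0 0 g'ᵀ, by simp [two_mul], ?_, ?_, ?_, ?_⟩
  · split_ifs
    · exact isUnit_std _
    · refine IsUnit.of_mul_eq_one (fromBlocks 0 1 1 0) ?_
      rw [fromBlocks_multiply]
      simp
  · unfold KindM
    split_ifs
    · exact altM_std _
    · rw [fromBlocks_transpose]
      simp
  · split_ifs
    · rw [fromBlocks_transpose, fromBlocks_multiply, fromBlocks_multiply]
      simp [hT, h2]
    · rw [fromBlocks_transpose, fromBlocks_multiply, fromBlocks_multiply]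
      simp [hT, h2]
  · intro k
    rw [fromBlocks_sub_one_pow, rank_fromBlocks_diag, rank_invT_sub_one_pow h1 h2,
      rank_jordanBlock_sub_one_pow]
    exact (two_mul _).symm

theorem fromBlocks_tri_pow {ι κ : Type*} [Fintype ι] [Fintype κ] [DecidableEq ι] [DecidableEq κ]
    (a : Matrix ι ι F) (b : Matrix ι κ F) (c : Matrix κ κ F) (k : ℕ) :
    ∃ x : Matrix ι κ F, (fromBlocks a b 0 c) ^ k = fromBlocks (a ^ k) x 0 (c ^ k) := by
  induction k with
  | zero => exact ⟨0, by simp⟩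
  | succ k ih =>
    obtain ⟨x, hx⟩ := ih
    refine ⟨a ^ k * b + x * c, ?_⟩
    rw [pow_succ, hx, fromBlocks_multiply]
    simp only [Matrix.mul_zero, add_zero, Matrix.zero_mul, zero_add, ← pow_succ]

theorem RealJ.regAlt (m : ℕ) : RealJ true F (2 * m) (fun j => 2 * m - j) := by
  rcases Nat.eq_zero_or_pos m with rfl | hm
  · exact (RealJ.zero true).congr (by simp) (by simp)
  obtain ⟨g', h1, h2⟩ := exists_inv_jordanBlock (F := F) m
  set g := Cfsg.jordanBlock m F with hg
  have hT : gᵀ * g'ᵀ = 1 := by rw [← transpose_mul, h2, transpose_one]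
  set S : Matrix (Fin m) (Fin m) F := Matrix.single ⟨0, hm⟩ ⟨0, hm⟩ 1 with hS
  have hST : Sᵀ = S := by rw [hS, transpose_single]
  have hcard : Fintype.card (Fin m ⊕ Fin m) = 2 * m := by simp [two_mul]
  have hN : fromBlocks g (g * S) 0 g'ᵀ - 1 = fromBlocks (g - 1) (g * S) 0 (g'ᵀ - 1) := by
    rw [← fromBlocks_one, sub_eq_add_neg, fromBlocks_neg, fromBlocks_add]
    simp [sub_eq_add_neg]
  have hpow : (fromBlocks g (g * S) 0 g'ᵀ - 1) ^ (2 * m) = 0 := by
    obtain ⟨x, hx⟩ := fromBlocks_tri_pow (g - 1) (g * S) (g'ᵀ - 1) m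
    rw [invT_sub_one_pow h1 h2, jordanBlock_sub_one_pow, mul_zero, transpose_zero] at hx
    rw [hN, two_mul, pow_add, hx, fromBlocks_multiply]
    simp
  have hker : LinearMap.ker (Matrix.mulVecLin (fromBlocks g (g * S) 0 g'ᵀ - 1)) ≤
      (F ∙ (Pi.single (Sum.inl ⟨m - 1, by omega⟩) (1 : F) : Fin m ⊕ Fin m → F)) := by
    intro z hz
    rw [LinearMap.mem_ker, Matrix.mulVecLin_apply, hN, fromBlocks_mulVec] at hz
    have hz1 : (g - 1) *ᵥ (z ∘ Sum.inl) + (g * S) *ᵥ (z ∘ Sum.inr) = 0 := by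
      funext i
      exact congrFun hz (Sum.inl i)
    have hz2' : (g'ᵀ - 1) *ᵥ (z ∘ Sum.inr) = 0 := by
      funext i
      have := congrFun hz (Sum.inr i)
      rwa [Sum.elim_inr, Matrix.zero_mulVec, zero_add] at this
    have hz2 : (g - 1)ᵀ *ᵥ (z ∘ Sum.inr) = 0 := by
      have e : (g - 1)ᵀ = -(gᵀ * (g'ᵀ - 1)) := by
        rw [mul_sub, hT, mul_one, neg_sub, transpose_sub, transpose_one]
      rw [e, neg_mulVec, ← mulVec_mulVec, hz2', mulVec_zero, neg_zero]
    have hy1 : ∀ k : Fin m, (k : ℕ) ≠ 0 → z (Sum.inr k) = 0 := by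
      intro k hk
      have hj : (k : ℕ) - 1 + 1 < m := by have := k.2; omega
      have h1 := shift_transpose_mulVec (z ∘ Sum.inr) ⟨k - 1, by omega⟩ hj
      rw [← hg, hz2] at h1
      have hk' : k = ⟨(k : ℕ) - 1 + 1, hj⟩ := Fin.ext (by simp; omega)
      rw [hk']
      exact h1.symm
    have hSy : S *ᵥ (z ∘ Sum.inr) = Pi.single ⟨0, hm⟩ (z (Sum.inr ⟨0, hm⟩)) := by
      rw [hS, Matrix.single_mulVec]
      funext i
      simp [Function.update_apply, Pi.single_apply]
    have hy0 : z (Sum.inr ⟨0, hm⟩) = 0 := by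
      have h3 := congrFun hz1 ⟨0, hm⟩
      rw [Pi.add_apply, hg, shift_mulVec_zero, zero_add, ← hg, ← mulVec_mulVec, hSy,
        mulVec_single] at h3
      simpa [hg, Cfsg.jordanBlock] using h3
    have hy' : z ∘ Sum.inr = 0 := by
      funext k
      by_cases hk : (k : ℕ) = 0
      · have hk' : k = ⟨0, hm⟩ := Fin.ext hk
        rw [hk']
        exact hy0
      · exact hy1 k hk
    rw [hy', Matrix.mulVec_zero, add_zero] at hz1
    rw [Submodule.mem_span_singleton]
    refine ⟨z (Sum.inl ⟨m - 1, by omega⟩), ?_⟩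
    ext (j | j)
    · by_cases hj : j = ⟨m - 1, by omega⟩
      · subst hj; simp
      · have hj' : (j : ℕ) + 1 < m := by
          have h2 : (j : ℕ) ≠ m - 1 := fun e => hj (Fin.ext e)
          have := j.2
          omega
        have h3 := jordanBlock_sub_one_mulVec_succ m F (z ∘ Sum.inl) j hj'
        rw [← hg, hz1] at h3
        have h4 : z (Sum.inl j) = 0 := h3.symm
        simp [hj, h4]
    · have : z (Sum.inr j) = 0 := congrFun hy' j
      simp [this]
  have hrank : (fromBlocks g (g * S) 0 g'ᵀ - 1).rank = 2 * m - 1 := by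
    have : Nonempty (Fin m ⊕ Fin m) := ⟨Sum.inl ⟨0, hm⟩⟩
    rw [rank_eq_pred_of_nilpotent _ _ hpow, hcard]
    refine (Submodule.finrank_mono hker).trans ?_
    exact (finrank_span_le_card _).trans (by simp)
  refine ⟨Fin m ⊕ Fin m, inferInstance, inferInstance, fromBlocks 0 1 (-1) 0,
    fromBlocks g (g * S) 0 g'ᵀ, hcard, isUnit_std _, ?_, ?_, ?_⟩
  · unfold KindM
    rw [if_pos rfl]
    exact altM_std _
  · rw [fromBlocks_transpose, fromBlocks_multiply, fromBlocks_multiply]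
    simp only [transpose_zero, transpose_transpose, transpose_mul, hST]
    simp [hT, h2, mul_assoc]
    rw [← mul_assoc g' g S, h2, one_mul]
    simp
  · intro k
    have := rank_pow_of_reg (fromBlocks g (g * S) 0 g'ᵀ - 1) (by rw [hcard]; exact hpow)
      (by rw [hcard]; exact hrank) k
    rwa [hcard] at this

end Cfsg.Agent.Lib.Helper44
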