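import Cfsg.Agent.Lib.Helper44.JType4

/-!
# Realising rank functions: the odd orthogonal block, and the assembled existence theorems
-/

set_option autoImplicit false

namespace Cfsg.Agent.Lib.Helper44

open Matrix Module Cfsg.Agent.Lib.Helper43

variable {F : Type*} [Field F]

theorem fin_sum_ite_val_eq {n : ℕ} (c : ℕ) (f : Fin n → F) :
    ∑ l : Fin n, (if (l : ℕ) = c then f l else 0) = if h : c < n then f ⟨c, h⟩ else 0 := by
  split_ifs with h
  · rw [Finset.sum_eq_single ⟨c, h⟩]
    · simp
    · intro b _ hb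
      rw [if_neg (fun e => hb (Fin.ext e))]
    · simp
  · apply Finset.sum_eq_zero
    intro l _
    rw [if_neg (by have := l.2; omega)]

/-- the antidiagonal form with alternating signs. -/
def antiD (n : ℕ) (F : Type*) [Field F] : Matrix (Fin n) (Fin n) F :=
  of fun i j => if (i : ℕ) + j + 1 = n then (-1) ^ (i : ℕ) else 0

theorem antiD_skew (n : ℕ) : (Cfsg.jordanBlock n F - 1)ᵀ * antiD n F
    = -(antiD n F * (Cfsg.jordanBlock n F - 1)) := by
  ext i j
  rw [Matrix.neg_apply]
  simp only [Matrix.mul_apply, transpose_apply, jordanBlock_sub_one_apply, ite_mul, one_mul,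
    zero_mul, mul_ite, mul_one, mul_zero, fin_sum_ite_val_eq]
  simp only [antiD, of_apply]
  have hi := i.2
  have hj := j.2
  by_cases h : (i : ℕ) + j + 2 = n
  · rw [dif_pos (by omega), dif_pos (by omega), if_pos (by omega), if_pos (by omega)]
    simp [pow_succ]
  · split_ifs <;> first | omega | simp

theorem antiD_mul_transpose (n : ℕ) : antiD n F * (antiD n F)ᵀ = 1 := by
  ext i j
  have hi := i.2
  have hj := j.2
  have e : ∀ l : Fin n, antiD n F i l * (antiD n F)ᵀ l j
      = if (l : ℕ) = n - 1 - i then (if i = j then 1 else 0) else 0 := by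
    intro l
    simp only [antiD, of_apply, transpose_apply]
    by_cases h1 : (l : ℕ) = n - 1 - i
    · rw [if_pos h1, if_pos (by omega)]
      by_cases h2 : i = j
      · subst h2
        rw [if_pos (by omega), if_pos rfl, ← pow_add, ← two_mul, pow_mul]
        simp
      · rw [if_neg h2, if_neg, mul_zero]
        intro h3
        exact h2 (Fin.ext (by omega))
    · rw [if_neg h1, if_neg (by omega), zero_mul]
  rw [mul_apply, Finset.sum_congr rfl (fun l _ => e l), fin_sum_ite_val_eq, dif_pos (by omega),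
    one_apply]

theorem neg_one_pow_eq_of_add {a b k : ℕ} (h : a + b = 2 * k) : (-1 : F) ^ b = (-1) ^ a := by
  have h3 : ((-1 : F)) ^ (a + b) = 1 := by rw [h, pow_mul]; simp
  have h4 : ((-1 : F)) ^ a * (-1) ^ a = 1 := by
    rw [← pow_add, ← two_mul, pow_mul]; simp
  rw [pow_add] at h3
  calc (-1 : F) ^ b = ((-1) ^ a * (-1) ^ a) * (-1) ^ b := by rw [h4, one_mul]
    _ = (-1) ^ a * ((-1) ^ a * (-1) ^ b) := by ring
    _ = (-1) ^ a := by rw [h3, mul_one]

theorem antiD_symm (k : ℕ) : (antiD (2 * k + 1) F)ᵀ = antiD (2 * k + 1) F := by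
  ext i j
  simp only [antiD, of_apply, transpose_apply]
  by_cases h : (i : ℕ) + j + 1 = 2 * k + 1
  · rw [if_pos h, if_pos (by omega)]
    exact neg_one_pow_eq_of_add (k := k) (by omega)
  · rw [if_neg h, if_neg (by omega)]

theorem RealJ.regSym (h2 : (2 : F) ≠ 0) (k : ℕ) :
    RealJ false F (2 * k + 1) (fun j => 2 * k + 1 - j) := by
  set n := 2 * k + 1 with hn
  set N := Cfsg.jordanBlock n F - 1 with hN
  set B := antiD n F with hB
  have hs : IsNilpotent N := ⟨n, jordanBlock_sub_one_pow n F⟩
  obtain ⟨⟨a, w, h1, h3⟩, ha⟩ := hs.isUnit_one_sub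
  change a = 1 - N at ha
  subst ha
  have hc : Commute N w := by
    show N * w = w * N
    calc N * w = w * (1 - N) * N * w := by rw [h3, one_mul]
      _ = w * N * ((1 - N) * w) := by
        simp only [mul_sub, sub_mul, mul_one, one_mul, mul_assoc]
      _ = w * N := by rw [h1, mul_one]
  have hsk : Nᵀ * B = -(B * N) := antiD_skew n
  have hA : (1 + N)ᵀ * B = B * (1 - N) := by
    rw [transpose_add, transpose_one, add_mul, one_mul, hsk, mul_sub B 1 N, mul_one,
      sub_eq_add_neg]
  have hB' : (1 - N)ᵀ * B = B * (1 + N) := by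
    rw [transpose_sub, transpose_one, sub_mul, one_mul, hsk, mul_add B 1 N, mul_one,
      sub_neg_eq_add]
  have hw : wᵀ * B * (1 + N) = B := by
    rw [mul_assoc, ← hB', ← mul_assoc, ← transpose_mul, h1, transpose_one, one_mul]
  have hcomm : (1 - N) * (1 + N) = (1 + N) * (1 - N) := by noncomm_ring
  have hu1 : (1 + N) * w - 1 = N * ((2 : F) • w) := by
    have e : (1 + N) * w - 1 = (1 + N) * w - (1 - N) * w := by rw [h1]
    rw [e, ← sub_mul, Matrix.mul_smul, two_smul]
    have : (1 + N - (1 - N)) = N + N := by abel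
    rw [this, add_mul]
  refine ⟨Fin n, inferInstance, inferInstance, B, (1 + N) * w, by simp, ?_, ?_, ?_, ?_⟩
  · exact IsUnit.of_mul_eq_one _ (antiD_mul_transpose n)
  · unfold KindM
    rw [if_neg (by simp)]
    exact antiD_symm k
  · calc ((1 + N) * w)ᵀ * B * ((1 + N) * w) = wᵀ * ((1 + N)ᵀ * B) * (1 + N) * w := by
          rw [transpose_mul]; simp only [mul_assoc]
      _ = wᵀ * B * ((1 - N) * (1 + N)) * w := by rw [hA]; simp only [mul_assoc]
      _ = (wᵀ * B * (1 + N)) * ((1 - N) * w) := by rw [hcomm]; simp only [mul_assoc]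
      _ = B := by rw [hw, h1, mul_one]
  · intro j
    rw [hu1, (hc.smul_right (2 : F)).mul_pow, rank_mul_eq_left_of_isUnit_det,
      rank_jordanBlock_sub_one_pow]
    rw [← Matrix.isUnit_iff_isUnit_det]
    apply IsUnit.pow
    refine IsUnit.of_mul_eq_one ((2 : F)⁻¹ • (1 - N)) ?_
    rw [Matrix.smul_mul, Matrix.mul_smul, h3, smul_smul, mul_inv_cancel₀ h2, one_smul]

/-- existence for the symplectic case. -/
theorem RealJ.of_alt_cond {t : ℕ} (d : Fin t → ℕ)
    (h : ∀ j : ℕ, Odd j → Even (Finset.univ.filter (fun k : Fin t => d k = j)).card) :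
    RealJ true F (∑ i, d i) (fun k => ∑ i, (d i - k)) := by
  apply RealJ.of_blocks
  intro j
  rcases Nat.even_or_odd j with ⟨c, hc⟩ | hj
  · refine ((RealJ.regAlt (F := F) c).nsmul
      (Finset.univ.filter (fun k : Fin t => d k = j)).card).congr ?_ ?_
    · rw [hc, two_mul]
    · intro k
      rw [hc, two_mul]
  · obtain ⟨b, hb⟩ := h j hj
    refine ((RealJ.pair (F := F) true j).nsmul b).congr ?_ ?_
    · rw [hb]; ring
    · intro k
      rw [hb]; ring

/-- existence for the orthogonal case in odd characteristic. -/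
theorem RealJ.of_symm_cond (h2 : (2 : F) ≠ 0) {t : ℕ} (d : Fin t → ℕ)
    (h : ∀ j : ℕ, Even j → 0 < j → Even (Finset.univ.filter (fun k : Fin t => d k = j)).card) :
    RealJ false F (∑ i, d i) (fun k => ∑ i, (d i - k)) := by
  apply RealJ.of_blocks
  intro j
  rcases Nat.even_or_odd j with hj | ⟨c, hc⟩
  · rcases Nat.eq_zero_or_pos j with rfl | hj0
    · exact (RealJ.zero false).congr (by simp) (by simp)
    · obtain ⟨b, hb⟩ := h j hj hj0
      refine ((RealJ.pair (F := F) false j).nsmul b).congr ?_ ?_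
      · rw [hb]; ring
      · intro k
        rw [hb]; ring
  · refine ((RealJ.regSym (F := F) h2 c).nsmul
      (Finset.univ.filter (fun k : Fin t => d k = j)).card).congr ?_ ?_
    · rw [hc]
    · intro k
      rw [hc]

end Cfsg.Agent.Lib.Helper44
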