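import Cfsg.Agent.Lib.Helper44.JType7

/-!
# In characteristic two every symplectic isometry preserves a quadratic form
-/

set_option autoImplicit false

namespace Cfsg.Agent.Lib.Helper44

open Matrix Module QuadraticMap

variable {F : Type*} [Field F]

theorem AltM.diag {ι : Type*} [Fintype ι] [DecidableEq ι] {B : Matrix ι ι F} (h : AltM B) (i : ι) :
    B i i = 0 := by
  have := h (Pi.single i 1)
  simpa using this

theorem AltM.skew {ι : Type*} [Fintype ι] [DecidableEq ι] {B : Matrix ι ι F} (h : AltM B)
    (i j : ι) : B i j + B j i = 0 := by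
  have h1 := h (Pi.single i 1 + Pi.single j 1)
  rw [mulVec_add, add_dotProduct, dotProduct_add, dotProduct_add] at h1
  simp only [mulVec_single_one, single_one_dotProduct, col_apply] at h1
  rw [h.diag i, h.diag j] at h1
  linear_combination h1

theorem exists_quad_of_alt [Fintype F] [CharP F 2] {n : ℕ} {B A : Matrix (Fin n) (Fin n) F}
    (hB : IsUnit B) (halt : AltM B) (hA : Aᵀ * B * A = B) :
    ∃ Q : QuadraticForm F (Fin n → F), (polarBilin Q).Nondegenerate ∧ ∀ v, Q (A *ᵥ v) = Q v := by
  have h2z : (2 : F) = 0 := CharTwo.two_eq_zero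
  set U : Matrix (Fin n) (Fin n) F := of fun i j => if i < j then B i j else 0 with hU
  have hUB : U + Uᵀ = B := by
    ext i j
    simp only [hU, Matrix.add_apply, of_apply, transpose_apply]
    rcases lt_trichotomy i j with h | h | h
    · rw [if_pos h, if_neg (not_lt.2 h.le), add_zero]
    · subst h
      simp [halt.diag i]
    · rw [if_neg (not_lt.2 h.le), if_pos h, zero_add]
      have := halt.skew i j
      linear_combination this - B i j * h2z
  set Q₀ : QuadraticForm F (Fin n → F) := (Matrix.toBilin' U).toQuadraticMap with hQ₀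
  have hpol₀ : ∀ x y, polar Q₀ x y = x ⬝ᵥ B *ᵥ y := by
    intro x y
    have e : polarBilin Q₀ = Matrix.toBilin' U + LinearMap.flip (Matrix.toBilin' U) :=
      LinearMap.BilinMap.polarBilin_toQuadraticMap
    have e2 : polar Q₀ x y = polarBilin Q₀ x y := rfl
    rw [e2, e, LinearMap.add_apply, LinearMap.add_apply, LinearMap.flip_apply,
      Matrix.toBilin'_apply', Matrix.toBilin'_apply', ← hUB, add_mulVec, dotProduct_add]
    congr 1
    rw [dotProduct_mulVec, ← mulVec_transpose, dotProduct_comm]
  have hadd₀ : ∀ x y, Q₀ (x + y) = Q₀ x + Q₀ y + x ⬝ᵥ B *ᵥ y := by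
    intro x y
    rw [← hpol₀]
    unfold polar
    ring
  let φ : (Fin n → F) → F := fun v => Q₀ (A *ᵥ v) + Q₀ v
  have hφadd : ∀ v w, φ (v + w) = φ v + φ w := by
    intro v w
    simp only [φ]
    rw [mulVec_add, hadd₀, hadd₀, bilin_congr, hA]
    linear_combination (v ⬝ᵥ B *ᵥ w) * h2z
  have hφsmul : ∀ (c : F) v, φ (c • v) = c * c * φ v := by
    intro c v
    simp only [φ]
    rw [mulVec_smul, QuadraticMap.map_smul, QuadraticMap.map_smul, smul_eq_mul, smul_eq_mul]
    ring
  let μ : (Fin n → F) →ₗ[F] F :=
    { toFun := fun v => (frobeniusEquiv F 2).symm (φ v)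
      map_add' := fun v w => by rw [hφadd, map_add]
      map_smul' := fun c v => by
        rw [hφsmul, map_mul, RingHom.id_apply, smul_eq_mul]
        congr 1
        have := frobeniusEquiv_symm_apply_frobenius F 2 c
        rwa [frobenius_def, _root_.sq] at this }
  have hμ2 : ∀ v, μ v * μ v = φ v := by
    intro v
    have := frobeniusEquiv_symm_pow_p F 2 (φ v)
    rwa [_root_.sq] at this
  obtain ⟨lam, hlam⟩ : μ ∈ LinearMap.range (Matrix.mulVecLin (A - 1)).dualMap := by
    rw [LinearMap.range_dualMap_eq_dualAnnihilator_ker, Submodule.mem_dualAnnihilator]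
    intro w hw
    rw [LinearMap.mem_ker, mulVecLin_apply, sub_mulVec, one_mulVec, sub_eq_zero] at hw
    show (frobeniusEquiv F 2).symm (φ w) = 0
    have : φ w = 0 := by
      simp only [φ]
      rw [hw]
      linear_combination Q₀ w * h2z
    rw [this, map_zero]
  have hlam' : ∀ v, lam (A *ᵥ v) = lam v + μ v := by
    intro v
    rw [← hlam, LinearMap.dualMap_apply, mulVecLin_apply, sub_mulVec, one_mulVec, map_sub]
    ring
  refine ⟨Q₀ + linMulLin lam lam, ?_, ?_⟩
  · have e : polarBilin (Q₀ + linMulLin lam lam) = Matrix.toBilin' B := by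
      apply LinearMap.ext
      intro x
      apply LinearMap.ext
      intro y
      rw [Matrix.toBilin'_apply']
      show polar (Q₀ + linMulLin lam lam) x y = _
      unfold polar
      simp only [_root_.add_apply, linMulLin_apply, map_add]
      rw [hadd₀]
      linear_combination (lam x * lam y) * h2z
    rw [e]
    exact LinearMap.BilinForm.nondegenerate_toBilin'_iff_det_ne_zero.2
      ((Matrix.isUnit_iff_isUnit_det _).1 hB).ne_zero
  · intro v
    simp only [_root_.add_apply, linMulLin_apply]
    rw [hlam']
    have h1 := hμ2 v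
    simp only [φ] at h1
    linear_combination h1 + (lam v * μ v + Q₀ (A *ᵥ v)) * h2z

theorem altM_gramM [CharP F 2] {ι : Type*} [Fintype ι] [DecidableEq ι]
    (Q : QuadraticForm F (ι → F)) : AltM (gramM Q) := by
  intro v
  rw [gramM_bilin, polar_self, two_nsmul, CharTwo.add_self_eq_zero]

end Cfsg.Agent.Lib.Helper44
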