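import Mathlib

/-!
# Monomial bases for an endomorphism whose square is a scalar
-/

namespace Cfsg.Agent.Lib.Helper44

open Submodule Module

section LineSys

variable {F V : Type*} [Field F] [AddCommGroup V] [Module F V]

/-- `Y` has a basis whose lines are permuted by `X`, through an involution of the index set -/
def HasLineSys (X : V →ₗ[F] V) (Y : Submodule F V) : Prop :=
  ∃ (ι : Type) (_ : Fintype ι) (b : ι → V) (π : ι → ι), (∀ i, π (π i) = i) ∧
    LinearIndependent F b ∧ (∀ i, X (b i) ∈ span F {b (π i)}) ∧ span F (Set.range b) = Y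

theorem HasLineSys.bot (X : V →ₗ[F] V) : HasLineSys X ⊥ :=
  ⟨Empty, inferInstance, fun i => i.elim, fun i => i, fun i => i.elim, linearIndependent_empty_type,
    fun i => i.elim, by simp⟩

theorem HasLineSys.sum {X : V →ₗ[F] V} {Y₁ Y₂ : Submodule F V} (A : HasLineSys X Y₁)
    (B : HasLineSys X Y₂) (h : Disjoint Y₁ Y₂) : HasLineSys X (Y₁ ⊔ Y₂) := by
  obtain ⟨ι₁, _, b₁, π₁, h1, h2, h3, h4⟩ := A
  obtain ⟨ι₂, _, b₂, π₂, k1, k2, k3, k4⟩ := B
  refine ⟨ι₁ ⊕ ι₂, inferInstance, Sum.elim b₁ b₂, Sum.map π₁ π₂, ?_, ?_, ?_, ?_⟩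
  · rintro (i | i)
    · simp [h1]
    · simp [k1]
  · exact LinearIndependent.sum_type h2 k2 (by rw [h4, k4]; exact h)
  · rintro (i | i)
    · exact h3 i
    · exact k3 i
  · rw [Set.Sum.elim_range, span_union, h4, k4]

theorem HasLineSys.single {X : V →ₗ[F] V} {v : V} (hv : v ≠ 0) (hX : X v ∈ span F {v}) :
    HasLineSys X (span F {v}) :=
  ⟨Unit, inferInstance, fun _ => v, fun i => i, fun _ => rfl,
    linearIndependent_unique_iff.2 hv, fun _ => hX, by rw [Set.range_const]⟩

theorem HasLineSys.swap {X : V →ₗ[F] V} {z : F} (hXX : ∀ v, X (X v) = z • v) {v : V}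
    (hX : X v ∉ span F {v}) : HasLineSys X (span F {v, X v}) := by
  have hv : v ≠ 0 := by
    rintro rfl
    apply hX
    rw [map_zero]
    exact zero_mem _
  refine ⟨Fin 2, inferInstance, ![v, X v], ![1, 0], ?_, ?_, ?_, ?_⟩
  · intro i
    fin_cases i <;> rfl
  · rw [LinearIndependent.pair_iff' hv]
    intro a ha
    exact hX (mem_span_singleton.2 ⟨a, ha⟩)
  · intro i
    fin_cases i
    · exact mem_span_singleton_self _
    · change X (X v) ∈ span F {v}
      rw [hXX]
      exact smul_mem _ _ (mem_span_singleton_self _)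
  · congr 1
    simp [Matrix.range_cons, Matrix.range_empty, Set.pair_comm]

theorem hasLineSys [FiniteDimensional F V] {X : V →ₗ[F] V} {z : F} (hXX : ∀ v, X (X v) = z • v) :
    ∀ (n : ℕ) (Y : Submodule F V), finrank F Y = n → (∀ y ∈ Y, X y ∈ Y) → HasLineSys X Y := by
  intro n
  induction n using Nat.strong_induction_on with
  | _ n ih =>
    intro Y hn hY
    by_cases hbot : Y = ⊥
    · rw [hbot]; exact HasLineSys.bot X
    by_cases h : ∃ v ∈ Y, X v ∉ span F {v}
    · obtain ⟨v, hvY, hv⟩ := h
      obtain ⟨f, hf1, hf2⟩ := Submodule.exists_le_ker_of_notMem hv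
      have hfv : f v = 0 := hf2 (mem_span_singleton_self v)
      set Y' : Submodule F V := Y ⊓ LinearMap.ker f ⊓ LinearMap.ker (f ∘ₗ X) with hY'
      have hmem : ∀ y, y ∈ Y' ↔ y ∈ Y ∧ f y = 0 ∧ f (X y) = 0 := by
        intro y
        rw [hY', mem_inf, mem_inf, LinearMap.mem_ker, LinearMap.mem_ker, LinearMap.comp_apply,
          and_assoc]
      have hle : Y' ≤ Y := fun y hy => ((hmem y).1 hy).1
      have hlt : Y' < Y := by
        refine lt_of_le_of_ne hle ?_
        intro he
        rw [← he] at hvY
        exact hf1 ((hmem v).1 hvY).2.2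
      have hinv : ∀ y ∈ Y', X y ∈ Y' := by
        intro y hy
        rw [hmem] at hy ⊢
        refine ⟨hY y hy.1, hy.2.2, ?_⟩
        rw [hXX, map_smul, hy.2.1, smul_zero]
      have hB := ih _ (by rw [← hn]; exact Submodule.finrank_lt_finrank_of_lt hlt) Y' rfl hinv
      have hA := HasLineSys.swap hXX hv
      have hdis : Disjoint (span F {v, X v}) Y' := by
        rw [Submodule.disjoint_def]
        intro u hu hu'
        obtain ⟨α, γ, rfl⟩ := mem_span_pair.1 hu
        obtain ⟨-, h1, h2⟩ := (hmem _).1 hu'
        rw [map_add, map_smul, map_smul, hfv, smul_zero, zero_add, smul_eq_mul] at h1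
        have hγ : γ = 0 := (mul_eq_zero.1 h1).resolve_right hf1
        rw [map_add, map_smul, map_smul, hXX, map_add, map_smul, map_smul, map_smul, hfv,
          smul_zero, smul_zero, add_zero, smul_eq_mul] at h2
        have hα : α = 0 := (mul_eq_zero.1 h2).resolve_right hf1
        rw [hα, hγ, zero_smul, zero_smul, add_zero]
      have hsup : span F {v, X v} ⊔ Y' = Y := by
        apply le_antisymm
        · refine sup_le ?_ hle
          rw [span_le]
          rintro _ (rfl | rfl)
          · exact hvY
          · exact hY _ hvY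
        · intro y hy
          have h1 : (f (X y) / f (X v)) • v + (f y / f (X v)) • X v ∈ span F {v, X v} :=
            mem_span_pair.2 ⟨_, _, rfl⟩
          have h2 : y - ((f (X y) / f (X v)) • v + (f y / f (X v)) • X v) ∈ Y' := by
            rw [hmem]
            refine ⟨?_, ?_, ?_⟩
            · exact sub_mem hy (add_mem (smul_mem _ _ hvY) (smul_mem _ _ (hY _ hvY)))
            · rw [map_sub, map_add, map_smul, map_smul, hfv, smul_zero, zero_add, smul_eq_mul,
                div_mul_cancel₀ _ hf1, sub_self]
            · rw [map_sub, map_add, map_smul, map_smul, hXX, map_sub, map_add, map_smul, map_smul,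
                map_smul, hfv, smul_zero, smul_zero, add_zero, smul_eq_mul,
                div_mul_cancel₀ _ hf1, sub_self]
          have := add_mem (mem_sup_left h1) (mem_sup_right h2 : _ ∈ span F {v, X v} ⊔ Y')
          rwa [add_sub_cancel] at this
      rw [← hsup]
      exact hA.sum hB hdis
    · push Not at h
      obtain ⟨v, hvY, hv⟩ := (Submodule.ne_bot_iff Y).1 hbot
      obtain ⟨f, hf1, -⟩ := Submodule.exists_le_ker_of_notMem (p := (⊥ : Submodule F V)) (v := v)
        (by simpa using hv)
      set Y' : Submodule F V := Y ⊓ LinearMap.ker f with hY'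
      have hmem : ∀ y, y ∈ Y' ↔ y ∈ Y ∧ f y = 0 := by
        intro y
        rw [hY', mem_inf, LinearMap.mem_ker]
      have hle : Y' ≤ Y := fun y hy => ((hmem y).1 hy).1
      have hlt : Y' < Y := by
        refine lt_of_le_of_ne hle ?_
        intro he
        rw [← he] at hvY
        exact hf1 ((hmem v).1 hvY).2
      have hinv : ∀ y ∈ Y', X y ∈ Y' := by
        intro y hy
        obtain ⟨c, hc⟩ := mem_span_singleton.1 (h y (hle hy))
        rw [← hc]
        exact smul_mem _ _ hy
      have hB := ih _ (by rw [← hn]; exact Submodule.finrank_lt_finrank_of_lt hlt) Y' rfl hinv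
      have hA := HasLineSys.single (X := X) hv (h v hvY)
      have hdis : Disjoint (span F {v}) Y' := by
        rw [Submodule.disjoint_def]
        intro u hu hu'
        obtain ⟨α, rfl⟩ := mem_span_singleton.1 hu
        obtain ⟨-, h1⟩ := (hmem _).1 hu'
        rw [map_smul, smul_eq_mul] at h1
        rw [(mul_eq_zero.1 h1).resolve_right hf1, zero_smul]
      have hsup : span F {v} ⊔ Y' = Y := by
        apply le_antisymm
        · refine sup_le ?_ hle
          rw [span_le]
          rintro _ rfl
          exact hvY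
        · intro y hy
          have h1 : (f y / f v) • v ∈ span F {v} := mem_span_singleton.2 ⟨_, rfl⟩
          have h2 : y - (f y / f v) • v ∈ Y' := by
            rw [hmem]
            refine ⟨sub_mem hy (smul_mem _ _ hvY), ?_⟩
            rw [map_sub, map_smul, smul_eq_mul, div_mul_cancel₀ _ hf1, sub_self]
          have := add_mem (mem_sup_left h1) (mem_sup_right h2 : _ ∈ span F {v} ⊔ Y')
          rwa [add_sub_cancel] at this
      rw [← hsup]
      exact hA.sum hB hdis

end LineSys

end Cfsg.Agent.Lib.Helper44
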