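import Cfsg.Agent.Lib.Helper44.Gram
import Cfsg.Agent.Lib.Helper44.OrthFamily
import Cfsg.Agent.Lib.Helper44.Criterion

set_option autoImplicit false

namespace Cfsg.Agent.Lib.Helper44

open QuadraticMap Module Matrix

variable {F : Type*} [Field F]

/-- orthogonal basis of nonsingular vectors, odd characteristic -/
theorem exists_orth_basis {V : Type*} [AddCommGroup V] [Module F V] [FiniteDimensional F V]
    (h2 : (2 : F) ≠ 0) (Q : QuadraticForm F V) (hQ : (polarBilin Q).Nondegenerate) :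
    ∃ v : Basis (Fin (finrank F V)) F V, (∀ i j, i ≠ j → polar Q (v i) (v j) = 0) ∧
      ∀ i, Q (v i) ≠ 0 := by
  have : Invertible (2 : F) := invertibleOfNonzero h2
  obtain ⟨v, hv⟩ := LinearMap.BilinForm.exists_orthogonal_basis
    (LinearMap.BilinForm.isSymm_iff.1 (polarBilin_isSymm Q))
  refine ⟨v, fun i j hij => ?_, fun i h0 => ?_⟩
  · have := LinearMap.BilinForm.iIsOrtho_def.1 hv i j hij
    simpa using this
  · have := LinearMap.BilinForm.iIsOrtho.not_isOrtho_basis_self_of_nondegenerate hv hQ i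
    apply this
    simp [polarBilin_apply_apply, polar_self, h0]

theorem two_smul_eq_sum_of_orth_basis {V : Type*} [AddCommGroup V] [Module F V]
    (Q : QuadraticForm F V) {κ : Type*} [Fintype κ] [DecidableEq κ]
    (v : Basis κ F V) (hv : ∀ i j, i ≠ j → polar Q (v i) (v j) = 0) (hv0 : ∀ i, Q (v i) ≠ 0)
    (x : V) : ∑ k, ((Q (v k))⁻¹ * polar Q (v k) x) • v k = (2 : F) • x := by
  have h1 : ∀ k, polar Q (v k) x = v.repr x k * (2 * Q (v k)) := by
    intro k
    conv_lhs => rw [← v.sum_repr x]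
    rw [← polarBilin_apply_apply, map_sum, Finset.sum_eq_single k]
    · rw [map_smul, polarBilin_apply_apply, polar_self]; simp
    · intro j _ hj
      rw [map_smul, polarBilin_apply_apply, hv k j (Ne.symm hj)]; simp
    · simp
  conv_rhs => rw [← v.sum_repr x, Finset.smul_sum]
  refine Finset.sum_congr rfl fun k _ => ?_
  rw [h1, smul_smul]
  congr 1
  field_simp [hv0 k]

theorem gram_det_of_orth_basis {V : Type*} [AddCommGroup V] [Module F V]
    (Q : QuadraticForm F V) {κ : Type*} [Fintype κ] [DecidableEq κ]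
    (v : κ → V) (hv : ∀ i j, i ≠ j → polar Q (v i) (v j) = 0) :
    (Matrix.of (fun i j => polarBilin Q (v i) (v j))).det
      = 2 ^ Fintype.card κ * ∏ k, Q (v k) := by
  have : Matrix.of (fun i j => polarBilin Q (v i) (v j))
      = Matrix.diagonal (fun k => 2 * Q (v k)) := by
    ext i j
    by_cases hij : i = j
    · subst hij
      simp [polar_self]
    · simp [hij, hv i j hij]
  rw [this, Matrix.det_diagonal, Finset.prod_mul_distrib]
  simp

theorem neg_one_mem_Omega_iff [Fintype F] (h2 : (2 : F) ≠ 0) {ι : Type} [Fintype ι] [DecidableEq ι]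
    (he : Even (Fintype.card ι)) (Q : QuadraticForm F (ι → F))
    (hQ : (polarBilin Q).Nondegenerate) :
    (∃ g : ↥(Cfsg.isometryGroup F ⇑Q), g ∈ Cfsg.Omega F ⇑Q ∧
      ((g : GL ι F) : Matrix ι ι F) = -1) ↔
    IsSquare (Matrix.of (fun i j : ι => polar ⇑Q (Pi.single i 1) (Pi.single j 1))).det := by
  obtain ⟨v, hv, hv0⟩ := exists_orth_basis h2 Q hQ
  have hcard : finrank F (ι → F) = Fintype.card ι := by simp
  have key : ∀ x : ι → F, (-1 : Matrix ι ι F) *ᵥ x
      = x - ∑ k ∈ Finset.univ, ((Q (v k))⁻¹ * polar Q (v k) x) • v k := by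
    intro x
    rw [two_smul_eq_sum_of_orth_basis Q v hv hv0, two_smul, Matrix.neg_mulVec, Matrix.one_mulVec]
    abel
  have h3 : IsSquare (Matrix.of (fun i j : ι => polar ⇑Q (Pi.single i 1) (Pi.single j 1))).det
      ↔ IsSquare (∏ k, Q (v k)) := by
    have h4 := isSquare_gram_det_iff (polarBilin Q) v (Pi.basisFun F ι)
    simp only [Pi.basisFun_apply, polarBilin_apply_apply] at h4
    rw [h4]
    have h5 := gram_det_of_orth_basis Q v hv
    simp only [polarBilin_apply_apply] at h5
    rw [h5, Fintype.card_fin]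
    obtain ⟨k, hk⟩ := he
    have h6 : (2 : F) ^ k ≠ 0 := pow_ne_zero _ h2
    have h7 : (2 : F) ^ finrank F (ι → F) = 2 ^ k * 2 ^ k := by rw [hcard, hk, pow_add]
    rw [h7]
    constructor
    · rintro ⟨x, hx⟩
      refine ⟨x / 2 ^ k, ?_⟩
      field_simp
      rw [pow_two x, ← hx]; ring
    · rintro ⟨x, hx⟩
      exact ⟨2 ^ k * x, by rw [hx]; ring⟩
  rw [h3]
  constructor
  · rintro ⟨g, hg, hg1⟩
    exact ((mem_Omega_iff_of_family h2 Q hQ v hv Finset.univ (fun k _ => hv0 k) g
      (by rw [hg1]; exact key)).1 hg).2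
  · intro hsq
    obtain ⟨g, hg⟩ := exists_isometry_of_family Q v hv Finset.univ (-1) key
    refine ⟨g, ?_, hg⟩
    rw [mem_Omega_iff_of_family h2 Q hQ v hv Finset.univ (fun k _ => hv0 k) g
      (by rw [hg]; exact key)]
    refine ⟨?_, hsq⟩
    rw [Finset.card_univ, Fintype.card_fin, hcard]
    exact he

end Cfsg.Agent.Lib.Helper44
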