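import Cfsg.Agent.Lib.Helper44.NsPoint
import Cfsg.Prelude.Def_GeometricClasses

/-!
# Fixed nonsingular points: the hyperbolic form, `q` even
-/

set_option autoImplicit false

namespace Cfsg.Agent.Lib.Helper44

open Module QuadraticMap Matrix

variable {F : Type*} [Field F]

theorem plusQF_eq_dot (d : ℕ) (v : Fin d ⊕ Fin d → F) :
    plusQF d F v = (v ∘ Sum.inl) ⬝ᵥ (v ∘ Sum.inr) := by
  rw [plusQF_apply]; rfl

theorem plus_blockDiag_iso {d : ℕ} (g h : Matrix (Fin d) (Fin d) F) (hhg : h * g = 1)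
    (v : Fin d ⊕ Fin d → F) :
    plusQF d F (fromBlocks g 0 0 hᵀ *ᵥ v) = plusQF d F v := by
  rw [plusQF_eq_dot, plusQF_eq_dot, fromBlocks_mulVec]
  simp only [zero_mulVec, add_zero, zero_add, Sum.elim_comp_inl, Sum.elim_comp_inr]
  rw [dotProduct_mulVec, vecMul_transpose, mulVec_mulVec, hhg, one_mulVec]

theorem fromBlocks_diag_pow {d : ℕ} (A D : Matrix (Fin d) (Fin d) F) (n : ℕ) :
    (fromBlocks A 0 0 D) ^ n = fromBlocks (A ^ n) 0 0 (D ^ n) := by
  induction n with
  | zero => simp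
  | succ n ih =>
    rw [pow_succ, ih, fromBlocks_multiply]
    simp [pow_succ]

/-- a vector of norm one -/
def plusOne (d : ℕ) (F : Type*) [Field F] (i : Fin d) : Fin d ⊕ Fin d → F :=
  Pi.single (Sum.inl i) 1 + Pi.single (Sum.inr i) 1

theorem plusQF_plusOne (d : ℕ) (i : Fin d) : plusQF d F (plusOne d F i) = 1 := by
  rw [plusQF_apply]
  simp [plusOne, Pi.single_apply]

theorem scalar_iso_eq_one [CharP F 2] {d : ℕ} (hd : 1 ≤ d)
    {T : Matrix (Fin d ⊕ Fin d) (Fin d ⊕ Fin d) F}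
    (hT : ∀ v, plusQF d F (T *ᵥ v) = plusQF d F v) {z : F} (hz : T = z • 1) : T = 1 := by
  have h1 := hT (plusOne d F ⟨0, hd⟩)
  rw [hz, smul_mulVec, one_mulVec, QuadraticMap.map_smul, plusQF_plusOne, smul_eq_mul,
    mul_one] at h1
  rw [hz, eq_one_of_mul_self_eq_one h1, one_smul]

theorem ns_plus_main [Fintype F] [CharP F 2] (d : ℕ) (hd : 4 ≤ d) (r : ℕ) [Fact r.Prime] :
    r ∣ Nat.card {W : Submodule F (Fin d ⊕ Fin d → F) //
      finrank F ↥W = 1 ∧ ∃ v ∈ W, plusQF d F v ≠ 0} →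
    ((∀ x : GL (Fin d ⊕ Fin d) F, x ∈ Cfsg.Geo.omegaGL ⇑(plusQF d F) →
      (∃ z : F, ((x ^ r : GL (Fin d ⊕ Fin d) F) : Matrix (Fin d ⊕ Fin d) (Fin d ⊕ Fin d) F)
        = z • (1 : Matrix (Fin d ⊕ Fin d) (Fin d ⊕ Fin d) F)) →
      (∀ z : F, (x : Matrix (Fin d ⊕ Fin d) (Fin d ⊕ Fin d) F)
        ≠ z • (1 : Matrix (Fin d ⊕ Fin d) (Fin d ⊕ Fin d) F)) →
      ∃ W : Submodule F (Fin d ⊕ Fin d → F), (finrank F ↥W = 1 ∧ ∃ v ∈ W, plusQF d F v ≠ 0) ∧
        W.map (Matrix.toLin' (x : Matrix (Fin d ⊕ Fin d) (Fin d ⊕ Fin d) F)) ≤ W) ↔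
      (r = 2 ∧ Odd d)) := by
  intro hrΩ
  set Q := plusQF d F with hQdef
  have hQ : (polarBilin Q).Nondegenerate := plusQF_nondeg d F
  have hgen : Fintype.card F ≠ 2 ∨ Fintype.card (Fin d ⊕ Fin d) ≠ 4 := by
    right
    simp only [Fintype.card_sum, Fintype.card_fin]
    omega
  have hcardι : Fintype.card (Fin d ⊕ Fin d) = 2 * d := by
    simp only [Fintype.card_sum, Fintype.card_fin]; omega
  have hiso : ∀ g : ↥(Cfsg.isometryGroup F ⇑Q), ∀ v, Q (g.1.1 *ᵥ v) = Q v :=
    fun g v => g.2 v v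
  constructor
  · intro H
    have hr2 : r = 2 := by
      by_contra hne
      have hrp : r.Prime := Fact.out
      have hrodd : Odd r := hrp.odd_of_ne_two hne
      rw [card_nonsingular_points, hQdef, plusQF_coe] at hrΩ
      have hN := card_ones_plus (F := F) d
      generalize Nat.card {v : Fin d ⊕ Fin d → F // Cfsg.quadFormPlus d F v = 1} = N at hN hrΩ
      have hrq : ¬ r ∣ Fintype.card F := by
        intro hdvd
        obtain ⟨n, -, hn⟩ := FiniteField.card F 2
        rw [hn] at hdvd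
        exact hne ((Nat.prime_dvd_prime_iff_eq hrp Nat.prime_two).1 (hrp.dvd_of_dvd_pow hdvd))
      have h1 : Fintype.card F * N = Fintype.card F ^ d * (Fintype.card F ^ d - 1) := by
        have : Fintype.card F ^ d * (Fintype.card F ^ d - 1)
            = Fintype.card F ^ (2 * d) - Fintype.card F ^ d := by
          rw [Nat.mul_sub, mul_one, ← pow_add]; congr 2; ring
        rw [this]; omega
      have h2 : r ∣ Fintype.card F ^ d * (Fintype.card F ^ d - 1) := by
        rw [← h1]; exact Dvd.dvd.mul_left hrΩ _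
      have h3 : r ∣ Fintype.card F ^ d - 1 := by
        rcases hrp.dvd_mul.1 h2 with h | h
        · exact absurd (hrp.dvd_of_dvd_pow h) hrq
        · exact h
      obtain ⟨g, h, hgh, hhg, hgr, hhr, hu⟩ := exists_fpf_matrix (F := F) 2 d r (by omega) h3
      have hgT : gᵀ * hᵀ = 1 := by rw [← transpose_mul, hhg, transpose_one]
      have hhT : hᵀ * gᵀ = 1 := by rw [← transpose_mul, hgh, transpose_one]
      let x : GL (Fin d ⊕ Fin d) F := ⟨fromBlocks g 0 0 hᵀ, fromBlocks h 0 0 gᵀ, by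
        rw [fromBlocks_multiply]; simp [hgh, hhT], by
        rw [fromBlocks_multiply]; simp [hhg, hgT]⟩
      have hxiso : x ∈ Cfsg.isometryGroup F ⇑Q :=
        mem_isometryGroup.2 (fun v => plus_blockDiag_iso g h hhg v)
      have hxr : x ^ r = 1 := by
        apply Units.ext
        rw [Units.val_pow_eq_pow_val]
        show (fromBlocks g 0 0 hᵀ) ^ r = 1
        rw [fromBlocks_diag_pow, hgr, ← transpose_pow, hhr, transpose_one, fromBlocks_one]
      have hnofix : ∀ v, x.1 *ᵥ v = v → Q v = 0 := by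
        intro v hv
        have h4 : g *ᵥ (v ∘ Sum.inl) = v ∘ Sum.inl := by
          have := congrArg (fun w => w ∘ Sum.inl) hv
          simp only [x, fromBlocks_mulVec, zero_mulVec, add_zero, Sum.elim_comp_inl] at this
          exact this
        have h5 : (g - 1) *ᵥ (v ∘ Sum.inl) = 0 := by
          rw [sub_mulVec, one_mulVec, h4, sub_self]
        obtain ⟨⟨u, u', hu1, hu2⟩, hu0⟩ := hu
        simp only at hu0
        have h6 : v ∘ Sum.inl = 0 := by
          calc v ∘ Sum.inl = (u' * u) *ᵥ (v ∘ Sum.inl) := by rw [hu2, one_mulVec]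
            _ = 0 := by rw [← mulVec_mulVec, hu0, h5, mulVec_zero]
        rw [hQdef, plusQF_eq_dot, h6, zero_dotProduct]
      have hW := H x ⟨⟨x, hxiso⟩, mem_Omega_of_odd_order Q hQ hgen _ hrodd
        (Subtype.ext hxr), rfl⟩ ⟨1, by rw [hxr]; simp⟩ (by
          intro z hz
          have h7 := scalar_iso_eq_one (by omega) (fun v => plus_blockDiag_iso g h hhg v) hz
          have h8 := hnofix (plusOne d F ⟨0, by omega⟩) (by
            show (fromBlocks g 0 0 hᵀ) *ᵥ _ = _
            rw [h7, one_mulVec])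
          rw [hQdef, plusQF_plusOne] at h8
          exact one_ne_zero h8)
      obtain ⟨v, hv, hxv⟩ := (fixes_point_iff Q x.1 (fun v => plus_blockDiag_iso g h hhg v)).1 hW
      exact hv (hnofix v hxv)
    subst hr2
    refine ⟨rfl, ?_⟩
    by_contra hde
    rw [Nat.not_odd_iff_even] at hde
    obtain ⟨T, hT, hTT, hTr, hTa⟩ := (plus_hypSys d F).exists_alt d le_rfl hde.two_dvd
    set g : ↥(Cfsg.isometryGroup F ⇑Q) := (isoEquiv Q).symm ⟨T, hT⟩ with hg
    have hgT : isoEquiv Q g = ⟨T, hT⟩ := by rw [hg, MulEquiv.apply_symm_apply]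
    have hgv : ∀ v, g.1.1 *ᵥ v = T v := by
      intro v
      rw [← isoEquiv_apply, hgT]
    have hrank : (g.1.1 - 1).rank = d := by
      rw [← nilRank_isoEquiv, hgT]; exact hTr
    have hgg : g * g = 1 := by
      apply (isoEquiv Q).injective
      rw [map_mul, hgT, map_one]
      exact Subtype.ext hTT
    have hnofix : ∀ v, T v = v → Q v = 0 := by
      intro v hv
      set N : (Fin d ⊕ Fin d → F) →ₗ[F] (Fin d ⊕ Fin d → F) :=
        (T : (Fin d ⊕ Fin d → F) →ₗ[F] (Fin d ⊕ Fin d → F)) - LinearMap.id with hN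
      have hle : LinearMap.range N ≤ LinearMap.ker N := by
        rintro _ ⟨y, rfl⟩
        rw [LinearMap.mem_ker]
        have hTTy : T (T y) = y := by
          have := congrArg (fun S : (Fin d ⊕ Fin d → F) ≃ₗ[F] (Fin d ⊕ Fin d → F) => S y) hTT
          exact this
        simp only [hN, LinearMap.sub_apply, LinearEquiv.coe_coe, LinearMap.id_apply, map_sub, hTTy]
        have e : y - T y - (T y - y) = (2 : F) • (y - T y) := by module
        rw [e, CharTwo.two_eq_zero, zero_smul]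
      have h1 := LinearMap.finrank_range_add_finrank_ker N
      rw [Module.finrank_fintype_fun_eq_card, hcardι] at h1
      have h2 : finrank F (LinearMap.range N) = d := hTr
      have h3 := Submodule.eq_of_le_of_finrank_eq hle (by omega)
      apply Q_range_eq_zero_of_alt hT hTa
      rw [← hN, h3, LinearMap.mem_ker]
      simp [hN, hv]
    have hW := H g.1 ⟨g, (mem_Omega_iff_even_rank Q hQ hgen g).2 (by rw [hrank]; exact hde), rfl⟩
      ⟨1, by
        have : (g.1 ^ 2 : GL (Fin d ⊕ Fin d) F) = 1 := by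
          rw [_root_.sq]; exact congrArg Subtype.val hgg
        rw [this]; simp⟩ (by
        intro z hz
        have h7 := scalar_iso_eq_one (by omega) (hiso g) hz
        rw [h7, sub_self, rank_zero] at hrank
        omega)
    obtain ⟨v, hv, hxv⟩ := (fixes_point_iff Q g.1.1 (hiso g)).1 hW
    rw [hgv] at hxv
    exact hv (hnofix v hxv)
  · rintro ⟨rfl, hdodd⟩ x ⟨g, hgΩ, rfl⟩ ⟨z, hz⟩ -
    apply (fixes_point_iff Q g.1.1 (hiso g)).2
    have hTT : g.1.1 * g.1.1 = 1 := by
      have h1 : (((g * g : ↥(Cfsg.isometryGroup F ⇑Q)) : GL (Fin d ⊕ Fin d) F) :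
          Matrix (Fin d ⊕ Fin d) (Fin d ⊕ Fin d) F) = z • 1 := by
        rw [← hz, _root_.sq]; rfl
      exact scalar_iso_eq_one (by omega) (hiso (g * g)) h1
    have hNN : (g.1.1 - 1) * (g.1.1 - 1) = 0 := by
      have : (g.1.1 - 1) * (g.1.1 - 1) = (g.1.1 * g.1.1 + 1) - (g.1.1 + g.1.1) := by noncomm_ring
      rw [this, hTT]
      ext i j
      simp [CharTwo.add_self_eq_zero]
    have h2 := rank_add_rank_le_card_of_mul_eq_zero hNN
    rw [hcardι] at h2
    have h3 := (mem_Omega_iff_even_rank Q hQ hgen g).1 hgΩ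
    apply exists_fixed_nonsingular_of_rank_lt Q hQ
    rw [hcardι]
    obtain ⟨a, ha⟩ := h3
    obtain ⟨b, hb⟩ := hdodd
    change ((g.1.1 - 1).rank = a + a) at ha
    omega

end Cfsg.Agent.Lib.Helper44
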