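import Cfsg.Agent.Lib.Helper44.OCent2

/-!
# Frames of the hyperbolic quadratic form (characteristic two)
-/

set_option autoImplicit false

namespace Cfsg.Agent.Lib.Helper44

open Module QuadraticMap Cfsg.Agent.Lib.Helper5

variable {F : Type*} [Field F] [Fintype F]

theorem card_ones_plus (m : ℕ) :
    Fintype.card F * Nat.card {v : Fin m ⊕ Fin m → F // Cfsg.quadFormPlus m F v = 1}
      + Fintype.card F ^ m = Fintype.card F ^ (2 * m) := by
  induction m with
  | zero =>
    have : IsEmpty {v : Fin 0 ⊕ Fin 0 → F // Cfsg.quadFormPlus 0 F v = 1} := by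
      constructor
      rintro ⟨v, hv⟩
      simp [Cfsg.quadFormPlus] at hv
    rw [Nat.card_of_isEmpty]
    simp
  | succ m ih =>
    rw [card_quad_split (ePlus m) _ _ (quadFormPlus_split m) 1]
    obtain ⟨k, hk⟩ : ∃ k, Fintype.card F = k + 1 := ⟨Fintype.card F - 1, by
      have := Fintype.card_pos (α := F); omega⟩
    simp only [Fintype.card_sum, Fintype.card_fin]
    rw [hk] at ih ⊢
    simp only [Nat.add_sub_cancel]
    have e1 : m + m = 2 * m := by ring
    rw [e1]
    generalize Nat.card {v : Fin m ⊕ Fin m → F // Cfsg.quadFormPlus m F v = 1} = z at ih ⊢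
    have : (k + 1) * ((k + 1) * z + k * (k + 1) ^ (2 * m)) + (k + 1) ^ (m + 1)
        = (k + 1) * ((k + 1) * z + (k + 1) ^ m) + (k + 1) * k * (k + 1) ^ (2 * m) := by ring
    rw [this, ih]
    ring

omit [Fintype F] in
theorem finrank_plus (m : ℕ) : finrank F (Fin m ⊕ Fin m → F) = 2 * m := by
  simp [two_mul]

/-- number of singular vectors of the hyperbolic form -/
noncomputable def zP (F : Type*) [Field F] (k : ℕ) : ℕ :=
  Nat.card {v : Fin k ⊕ Fin k → F // Cfsg.quadFormPlus k F v = 0}

theorem card_qFrames_zero_plus [CharP F 2] (m s : ℕ) (hs : s ≤ m) :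
    Nat.card (qFrames (plusQF m F) 0 s)
      = ∏ i ∈ Finset.range s, (Fintype.card F ^ i * (zP F (m - i) - 1)) := by
  induction s with
  | zero =>
    simp only [Finset.range_zero, Finset.prod_empty]
    have : Unique (qFrames (plusQF m F) 0 0) :=
      { default := ⟨fun i => i.elim0, linearIndependent_empty_type, fun i => i.elim0,
          fun i => i.elim0⟩
        uniq := fun f => Subtype.ext (funext fun i => i.elim0) }
    exact Nat.card_unique
  | succ s ih =>
    rw [Finset.prod_range_succ, ← ih (by omega)]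
    have e0 : Fintype.card F ^ s * (zP F (m - s) - 1)
        = Fintype.card F ^ s * zP F (m - s) - Fintype.card F ^ s := by
      rw [Nat.mul_sub, mul_one]
    rw [e0]
    apply card_qFrames_zero_succ (plusQF m F) (plusQF_nondeg m F) s
      (Fintype.card F ^ s * zP F (m - s))
    rw [finrank_plus, plusQF_coe]
    have h1 := card_zeros_plus (F := F) m
    have h2 := card_zeros_plus (F := F) (m - s)
    rw [← zP] at h2
    generalize zP F (m - s) = z' at h2 ⊢
    generalize Nat.card {v : Fin m ⊕ Fin m → F // Cfsg.quadFormPlus m F v = 0} = z at h1 ⊢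
    set q := Fintype.card F
    have h3 : q ^ s * (q * z' + q ^ (m - s)) = q ^ s * (q ^ (2 * (m - s)) + q ^ (m - s + 1)) := by
      rw [h2]
    have e1 : q ^ s * q ^ (m - s) = q ^ m := by rw [← pow_add]; congr 1; omega
    have e2 : q ^ s * q ^ (2 * (m - s)) = q ^ (2 * m - s) := by rw [← pow_add]; congr 1; omega
    have e3 : q ^ s * q ^ (m - s + 1) = q ^ (m + 1) := by rw [← pow_add]; congr 1; omega
    rw [mul_add, mul_add, e1, e2, e3] at h3
    have e4 : q ^ s * z' * q = q ^ s * (q * z') := by ring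
    have e5 : z * q = q * z := by ring
    rw [e4, e5]
    omega

theorem card_GO_plus_frames [CharP F 2] (m s : ℕ) (hs : s ≤ m) :
    Nat.card (Cfsg.isometryGroup F (Cfsg.quadFormPlus m F))
        * ∏ i ∈ Finset.range s, Fintype.card F ^ i =
      Nat.card (qFrames (plusQF m F) 0 s)
        * (∏ i ∈ Finset.range s, Fintype.card F ^ (2 * (m - i - 1)))
        * Nat.card (Cfsg.isometryGroup F (Cfsg.quadFormPlus (m - s) F)) := by
  induction s with
  | zero =>
    rw [card_qFrames_zero_plus m 0 hs]
    simp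
  | succ s ih =>
    have ih' := ih (by omega)
    rw [Finset.prod_range_succ, ← mul_assoc, ih', card_qFrames_zero_plus m (s + 1) hs,
      card_qFrames_zero_plus m s (by omega), Finset.prod_range_succ, Finset.prod_range_succ]
    obtain ⟨d, hd⟩ : ∃ d, m - s = d + 1 := ⟨m - s - 1, by omega⟩
    have e1 : m - (s + 1) = d := by omega
    have e2 : m - s - 1 = d := by omega
    rw [e1, e2, hd, card_GO_plus_succ, zP]
    ring

/-- explicit order of `O⁺`. -/
theorem card_GO_plus_succ_eq (k : ℕ) :
    Nat.card (Cfsg.isometryGroup F (Cfsg.quadFormPlus (k + 1) F))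
      = 2 * (Fintype.card F ^ ((k + 1) * k) * (Fintype.card F ^ (k + 1) - 1)
        * ∏ i ∈ Finset.range k, (Fintype.card F ^ (2 * (i + 1)) - 1)) := by
  have h := card_GO_plus_mul (F := F) (k + 1)
  rw [Finset.prod_range_succ] at h
  set q := Fintype.card F
  have hq1 : 1 ≤ q := Fintype.card_pos
  have h5 : q ^ (2 * (k + 1)) - 1 = (q ^ (k + 1) - 1) * (q ^ (k + 1) + 1) := by
    obtain ⟨t, ht⟩ : ∃ t, q ^ (k + 1) = t + 1 := ⟨q ^ (k + 1) - 1, by
      have : 1 ≤ q ^ (k + 1) := Nat.one_le_pow _ _ hq1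
      omega⟩
    have : q ^ (2 * (k + 1)) = (t + 1) * (t + 1) := by rw [← ht]; ring
    rw [this, ht, Nat.add_sub_cancel]
    have : (t + 1) * (t + 1) = t * (t + 1 + 1) + 1 := by ring
    omega
  rw [h5, Nat.add_sub_cancel] at h
  apply Nat.eq_of_mul_eq_mul_right (Nat.succ_pos (q ^ (k + 1)))
  rw [Nat.succ_eq_add_one, h]
  ring

end Cfsg.Agent.Lib.Helper44
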