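import Cfsg.Agent.Lib.Helper44.InvolOmega
import Cfsg.Agent.Lib.Helper44.OCent3

/-!
# Fixed nonsingular points of elements of prime order of orthogonal groups, `q` even
-/

set_option autoImplicit false

namespace Cfsg.Agent.Lib.Helper44

open Module QuadraticMap Matrix

variable {F : Type*} [Field F] {ι : Type} [Fintype ι] [DecidableEq ι]

theorem eq_one_of_mul_self_eq_one [CharP F 2] {c : F} (h : c * c = 1) : c = 1 := by
  have : (c + 1) * (c + 1) = 0 := by
    rw [CharTwo.add_mul_self, h, one_mul, CharTwo.add_self_eq_zero]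
  have h2 : c + 1 = 0 := by simpa using this
  exact CharTwo.add_eq_zero.1 h2

/-- nonsingular points correspond to vectors of norm one -/
theorem card_nonsingular_points [Fintype F] [CharP F 2] {V : Type*} [AddCommGroup V] [Module F V]
    [FiniteDimensional F V] (Q : QuadraticForm F V) :
    Nat.card {W : Submodule F V // finrank F W = 1 ∧ ∃ v ∈ W, Q v ≠ 0}
      = Nat.card {v : V // Q v = 1} := by
  symm
  have hne : ∀ v : {v : V // Q v = 1}, v.1 ≠ 0 := by
    intro v h
    have := v.2
    rw [h, map_zero] at this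
    exact zero_ne_one this
  refine Nat.card_congr (Equiv.ofBijective (fun v => ⟨Submodule.span F {v.1},
    finrank_span_singleton (hne v), v.1, Submodule.mem_span_singleton_self _, by
      rw [v.2]; exact one_ne_zero⟩) ⟨?_, ?_⟩)
  · intro v v' h
    have h1 : Submodule.span F {v.1} = Submodule.span F {v'.1} := congrArg Subtype.val h
    have h2 : v'.1 ∈ Submodule.span F {v.1} := by
      rw [h1]; exact Submodule.mem_span_singleton_self _
    obtain ⟨c, hc⟩ := Submodule.mem_span_singleton.1 h2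
    have h3 : c * c = 1 := by
      have := v'.2
      rw [← hc, QuadraticMap.map_smul, v.2, smul_eq_mul, mul_one] at this
      exact this
    rw [eq_one_of_mul_self_eq_one h3, one_smul] at hc
    exact Subtype.ext hc
  · rintro ⟨W, hW, v, hv, hQv⟩
    obtain ⟨r, hr⟩ := FiniteField.isSquare_of_char_two (ringChar.eq F 2) (Q v)
    have hr0 : r ≠ 0 := by
      rintro rfl
      rw [mul_zero] at hr
      exact hQv hr
    have hu : Q (r⁻¹ • v) = 1 := by
      rw [QuadraticMap.map_smul, hr, smul_eq_mul]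
      field_simp
    refine ⟨⟨r⁻¹ • v, hu⟩, ?_⟩
    apply Subtype.ext
    apply Submodule.eq_of_le_of_finrank_eq
    · rw [Submodule.span_singleton_le_iff_mem]
      exact W.smul_mem _ hv
    · rw [hW]
      apply finrank_span_singleton
      intro h
      have h' : r⁻¹ • v = 0 := h
      rw [h', map_zero] at hu
      exact zero_ne_one hu

theorem fixes_point_iff [CharP F 2] (Q : QuadraticForm F (ι → F)) (T : Matrix ι ι F)
    (hT : ∀ v, Q (T *ᵥ v) = Q v) :
    (∃ W : Submodule F (ι → F), (finrank F W = 1 ∧ ∃ v ∈ W, Q v ≠ 0) ∧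
      W.map (Matrix.toLin' T) ≤ W) ↔ ∃ v, Q v ≠ 0 ∧ T *ᵥ v = v := by
  constructor
  · rintro ⟨W, ⟨hW, v, hv, hQv⟩, hmap⟩
    refine ⟨v, hQv, ?_⟩
    have h1 : T *ᵥ v ∈ W := hmap ⟨v, hv, by simp⟩
    have hv0 : (⟨v, hv⟩ : W) ≠ 0 := by
      intro h
      have : v = 0 := congrArg Subtype.val h
      rw [this, map_zero] at hQv
      exact hQv rfl
    obtain ⟨c, hc⟩ := (finrank_eq_one_iff_of_nonzero' (⟨v, hv⟩ : W) hv0).1 hW ⟨T *ᵥ v, h1⟩
    have hc' : c • v = T *ᵥ v := congrArg Subtype.val hc
    have h2 := hT v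
    rw [← hc', QuadraticMap.map_smul, smul_eq_mul] at h2
    have h3 : c * c = 1 := by
      have : c * c * Q v = 1 * Q v := by rw [one_mul]; exact h2
      exact mul_right_cancel₀ hQv this
    rw [← hc', eq_one_of_mul_self_eq_one h3, one_smul]
  · rintro ⟨v, hQv, hv⟩
    have hv0 : v ≠ 0 := by
      rintro rfl
      rw [map_zero] at hQv
      exact hQv rfl
    refine ⟨Submodule.span F {v}, ⟨finrank_span_singleton hv0, v,
      Submodule.mem_span_singleton_self _, hQv⟩, ?_⟩
    rw [Submodule.map_span_le]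
    intro w hw
    rw [Set.mem_singleton_iff] at hw
    subst hw
    rw [Matrix.toLin'_apply, hv]
    exact Submodule.mem_span_singleton_self _

theorem exists_fixed_nonsingular_of_rank_lt (Q : QuadraticForm F (ι → F))
    (hQ : (polarBilin Q).Nondegenerate) (T : Matrix ι ι F)
    (hs : 2 * (T - 1).rank < Fintype.card ι) : ∃ w, Q w ≠ 0 ∧ T *ᵥ w = w := by
  by_contra hcon
  push Not at hcon
  set K := LinearMap.ker (Matrix.mulVecLin (T - 1)) with hK
  have hmem : ∀ w, w ∈ K → Q w = 0 := by
    intro w hw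
    by_contra h0
    apply hcon w h0
    rw [hK, LinearMap.mem_ker, Matrix.mulVecLin_apply, sub_mulVec, one_mulVec] at hw
    exact sub_eq_zero.1 hw
  have h1 : finrank F K + (T - 1).rank = Fintype.card ι := by
    have := LinearMap.finrank_range_add_finrank_ker (Matrix.mulVecLin (T - 1))
    rw [Module.finrank_fintype_fun_eq_card] at this
    rw [Matrix.rank, ← this, add_comm]
  have h2 : K ≤ (pB Q).orthogonal K := by
    intro a ha
    rw [LinearMap.BilinForm.mem_orthogonal_iff]
    intro b hb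
    change polar Q b a = 0
    rw [polar, hmem _ (K.add_mem hb ha), hmem _ ha, hmem _ hb]
    simp
  have h3 := Submodule.finrank_mono h2
  rw [LinearMap.BilinForm.finrank_orthogonal hQ, Module.finrank_fintype_fun_eq_card] at h3
  omega

theorem mem_Omega_of_odd_order [Fintype F] [CharP F 2] (Q : QuadraticForm F (ι → F))
    (hQ : (polarBilin Q).Nondegenerate) (h : Fintype.card F ≠ 2 ∨ Fintype.card ι ≠ 4)
    (g : ↥(Cfsg.isometryGroup F ⇑Q)) {r : ℕ} (hr : Odd r) (hg : g ^ r = 1) :
    g ∈ Cfsg.Omega F ⇑Q := by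
  rw [mem_Omega_iff, ← ker_parityChar_char_two hQ (gen_hyp h), MonoidHom.mem_ker]
  have h1 : (parityChar Q hQ (gen_hyp h) (isoEquiv Q g)) ^ r = 1 := by
    rw [← map_pow, ← map_pow, hg, map_one, map_one]
  rcases Int.units_eq_one_or (parityChar Q hQ (gen_hyp h) (isoEquiv Q g)) with h2 | h2
  · exact h2
  · rw [h2, hr.neg_one_pow] at h1
    exact absurd h1 (by decide)

theorem exists_fpf_matrix [Fintype F] (p : ℕ) [Fact p.Prime] [CharP F p] (d r : ℕ) (hd : 1 ≤ d)
    [Fact r.Prime] (hr : r ∣ Fintype.card F ^ d - 1) :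
    ∃ g h : Matrix (Fin d) (Fin d) F, g * h = 1 ∧ h * g = 1 ∧ g ^ r = 1 ∧ h ^ r = 1 ∧
      IsUnit (g - 1) := by
  classical
  have : NeZero d := ⟨by omega⟩
  let K := FiniteField.Extension F p d
  have : Fintype K := Fintype.ofFinite K
  have hcardK : Fintype.card K = Fintype.card F ^ d := by
    rw [← Nat.card_eq_fintype_card, ← Nat.card_eq_fintype_card]
    exact FiniteField.natCard_extension F p d
  let b : Module.Basis (Fin d) F K :=
    Module.finBasisOfFinrankEq F K (FiniteField.finrank_extension F p d)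
  let L : K →ₐ[F] Matrix (Fin d) (Fin d) F := Algebra.leftMulMatrix b
  obtain ⟨ω, hω⟩ := exists_prime_orderOf_dvd_card (G := Kˣ) r (by
    rw [Fintype.card_units, hcardK]; exact hr)
  have hωr : ω ^ r = 1 := by rw [← hω]; exact pow_orderOf_eq_one ω
  have hω1 : (ω : K) - 1 ≠ 0 := by
    intro h0
    have : ω = 1 := Units.ext (sub_eq_zero.1 h0)
    rw [this, orderOf_one] at hω
    exact (Fact.out : r.Prime).one_lt.ne hω
  refine ⟨L ω, L (ω⁻¹ : Kˣ), ?_, ?_, ?_, ?_, ?_⟩
  · rw [← map_mul, Units.mul_inv, map_one]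
  · rw [← map_mul, Units.inv_mul, map_one]
  · rw [← map_pow, ← Units.val_pow_eq_pow_val, hωr, Units.val_one, map_one]
  · rw [← map_pow, ← Units.val_pow_eq_pow_val, inv_pow, hωr, inv_one, Units.val_one, map_one]
  · have : L ω - 1 = L ((ω : K) - 1) := by rw [map_sub, map_one]
    rw [this]
    exact (IsUnit.mk0 _ hω1).map L

end Cfsg.Agent.Lib.Helper44
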