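import Mathlib
import Cfsg.Agent.Lib.Helper5.GOPlusOdd
import Cfsg.Agent.Lib.Helper5.FramesWitt

/-!
# Counting orthogonal frames of a quadratic space in characteristic two
-/

set_option autoImplicit false

namespace Cfsg.Agent.Lib.Helper44

open Module QuadraticMap Cfsg.Agent.Lib.Helper5

variable {F V : Type*} [Field F] [AddCommGroup V] [Module F V]

/-- the polar form as a bilinear form -/
abbrev pB (Q : QuadraticForm F V) : LinearMap.BilinForm F V := polarBilin Q

/-- frames of mutually orthogonal vectors of norm `d` -/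
def qFrames (Q : QuadraticForm F V) (d : F) (k : ℕ) : Set (Fin k → V) :=
  {f | LinearIndependent F f ∧ (∀ i j, polar Q (f i) (f j) = 0) ∧ ∀ i, Q (f i) = d}

theorem card_sdiff_pred [Finite V] (P U : Submodule F V) (h : U ≤ P) (p : V → Prop) :
    Nat.card {v : V // (v ∈ P ∧ v ∉ U) ∧ p v} =
      Nat.card {v : V // v ∈ P ∧ p v} - Nat.card {v : V // v ∈ U ∧ p v} := by
  classical
  have e : {v : V // v ∈ P ∧ p v} ≃
      {v : V // (v ∈ P ∧ v ∉ U) ∧ p v} ⊕ {v : V // v ∈ U ∧ p v} :=
    { toFun := fun v => if hv : v.1 ∈ U then Sum.inr ⟨v.1, hv, v.2.2⟩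
        else Sum.inl ⟨v.1, ⟨v.2.1, hv⟩, v.2.2⟩
      invFun := fun s => Sum.elim (fun v => ⟨v.1, v.2.1.1, v.2.2⟩)
        (fun w => ⟨w.1, h w.2.1, w.2.2⟩) s
      left_inv := by
        intro v
        by_cases hv : v.1 ∈ U <;> simp [hv]
      right_inv := by
        rintro (v | w)
        · simp [v.2.1.2]
        · simp [w.2.1] }
  rw [Nat.card_congr e, Nat.card_sum, Nat.add_sub_cancel]

theorem polar_self_char_two [CharP F 2] (Q : QuadraticForm F V) (v : V) : polar Q v v = 0 := by
  rw [polar_self, two_nsmul, CharTwo.add_self_eq_zero]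

noncomputable def qFramesSuccEquiv [CharP F 2] (Q : QuadraticForm F V) (d : F) (k : ℕ) :
    qFrames Q d (k + 1) ≃ Σ f : qFrames Q d k,
      {v : V // (v ∈ (pB Q).orthogonal (Submodule.span F (Set.range f.1)) ∧
          v ∉ Submodule.span F (Set.range f.1)) ∧ Q v = d} :=
  { toFun := fun s => ⟨⟨Fin.tail s.1, (linearIndependent_finSucc.mp s.2.1).1,
            fun i j => s.2.2.1 i.succ j.succ, fun i => s.2.2.2 i.succ⟩,
          ⟨s.1 0, ⟨(mem_orthogonal_span_range (pB Q) _ _).2 (fun j => s.2.2.1 j.succ 0),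
            (linearIndependent_finSucc.mp s.2.1).2⟩, s.2.2.2 0⟩⟩
    invFun := fun s => ⟨Fin.cons s.2.1 s.1.1,
          linearIndependent_finCons.mpr ⟨s.1.2.1, s.2.2.1.2⟩, by
            have h1 := (mem_orthogonal_span_range (pB Q) _ _).1 s.2.2.1.1
            intro i j
            refine Fin.cases ?_ (fun i' => ?_) i <;> refine Fin.cases ?_ (fun j' => ?_) j
            · simpa using polar_self_char_two Q _
            · simp only [Fin.cons_zero, Fin.cons_succ]
              rw [polar_comm]; exact h1 j'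
            · simpa using h1 i'
            · simpa using s.1.2.2.1 i' j', by
            intro i
            refine Fin.cases ?_ (fun i' => ?_) i
            · simpa using s.2.2.2
            · simpa using s.1.2.2.2 i'⟩
    left_inv := fun s => by simp
    right_inv := fun ⟨⟨_, _⟩, ⟨_, _⟩⟩ => rfl }

theorem Q_sum_of_orth (Q : QuadraticForm F V) {κ : Type*} [Fintype κ] (f : κ → V)
    (h : ∀ i j, polar Q (f i) (f j) = 0) (c : κ → F) :
    Q (∑ k, c k • f k) = ∑ k, c k * c k * Q (f k) := by
  classical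
  have key : ∀ s : Finset κ, Q (∑ k ∈ s, c k • f k) = ∑ k ∈ s, c k * c k * Q (f k) := by
    intro s
    induction s using Finset.induction_on with
    | empty => simp
    | insert a s ha ih =>
      rw [Finset.sum_insert ha, Finset.sum_insert ha, QuadraticMap.map_add Q, ih,
        QuadraticMap.map_smul]
      have : polar Q (c a • f a) (∑ k ∈ s, c k • f k) = 0 := by
        change polarBilin Q (c a • f a) (∑ k ∈ s, c k • f k) = 0
        rw [map_sum]
        apply Finset.sum_eq_zero
        intro k _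
        change polar Q (c a • f a) (c k • f k) = 0
        rw [polar_smul_left, polar_smul_right, h]
        simp
      rw [this, add_zero, smul_eq_mul]
  exact key Finset.univ

theorem polar_sum_of_orth (Q : QuadraticForm F V) {κ : Type*} [Fintype κ] (f : κ → V)
    (h : ∀ i j, polar Q (f i) (f j) = 0) (c c' : κ → F) :
    polar Q (∑ k, c k • f k) (∑ k, c' k • f k) = 0 := by
  change polarBilin Q (∑ k, c k • f k) (∑ k, c' k • f k) = 0
  rw [map_sum]
  apply Finset.sum_eq_zero
  intro j _
  rw [map_sum, LinearMap.sum_apply]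
  apply Finset.sum_eq_zero
  intro i _
  change polar Q (c i • f i) (c' j • f j) = 0
  rw [polar_smul_left, polar_smul_right, h]
  simp

theorem span_le_orthogonal_of_qFrames (Q : QuadraticForm F V) {d : F} {k : ℕ} {f : Fin k → V}
    (hf : f ∈ qFrames Q d k) :
    Submodule.span F (Set.range f) ≤
      (pB Q).orthogonal (Submodule.span F (Set.range f)) := by
  rw [Submodule.span_le]
  rintro _ ⟨i, rfl⟩
  exact (mem_orthogonal_span_range (pB Q) _ _).2 (fun j => hf.2.1 j i)

theorem finrank_span_qFrames (Q : QuadraticForm F V) {d : F} {k : ℕ} {f : Fin k → V}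
    (hf : f ∈ qFrames Q d k) : finrank F (Submodule.span F (Set.range f)) = k := by
  rw [finrank_span_eq_card hf.1]; simp

theorem two_mul_le_of_qFrames [FiniteDimensional F V] (Q : QuadraticForm F V)
    (hQ : (polarBilin Q).Nondegenerate) {d : F} {k : ℕ} {f : Fin k → V}
    (hf : f ∈ qFrames Q d k) : 2 * k ≤ finrank F V := by
  have h1 := Submodule.finrank_mono (span_le_orthogonal_of_qFrames Q hf)
  rw [LinearMap.BilinForm.finrank_orthogonal hQ, finrank_span_qFrames Q hf] at h1
  have h2 : k ≤ finrank F V := by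
    rw [← finrank_span_qFrames Q hf]
    exact Submodule.finrank_le _
  omega

theorem card_orthogonal_qFrames [Fintype F] [FiniteDimensional F V] (Q : QuadraticForm F V)
    (hQ : (polarBilin Q).Nondegenerate) {d : F} {k : ℕ} {f : Fin k → V}
    (hf : f ∈ qFrames Q d k) :
    Nat.card ((pB Q).orthogonal (Submodule.span F (Set.range f)))
      = Fintype.card F ^ (finrank F V - k) := by
  rw [Module.natCard_eq_pow_finrank (K := F), LinearMap.BilinForm.finrank_orthogonal hQ,
    finrank_span_qFrames Q hf, Nat.card_eq_fintype_card]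

theorem card_span_qFrames [Fintype F] [FiniteDimensional F V] (Q : QuadraticForm F V)
    {d : F} {k : ℕ} {f : Fin k → V} (hf : f ∈ qFrames Q d k) :
    Nat.card (Submodule.span F (Set.range f)) = Fintype.card F ^ k := by
  rw [Module.natCard_eq_pow_finrank (K := F), finrank_span_qFrames Q hf, Nat.card_eq_fintype_card]

/-- translation by a vector of norm one in the radical of `P` -/
theorem card_fiber_of_norm_one [Fintype F] [CharP F 2] (Q : QuadraticForm F V)
    (P : Submodule F V) {u : V} (hu : u ∈ P) (hQu : Q u = 1) (hP : ∀ p ∈ P, polar Q p u = 0)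
    (c : F) :
    Nat.card {v : V // v ∈ P ∧ Q v = c} * Fintype.card F = Nat.card P := by
  have hsq : ∀ a : F, ∃ r, r * r = a := fun a => by
    obtain ⟨r, hr⟩ := FiniteField.isSquare_of_char_two (ringChar.eq F 2) a
    exact ⟨r, hr.symm⟩
  choose r hr using hsq
  have hinj : ∀ a b : F, a * a = b * b → a = b := by
    intro a b hab
    have : (a + b) * (a + b) = 0 := by
      rw [CharTwo.add_mul_self, hab, CharTwo.add_self_eq_zero]
    have h2 : a + b = 0 := by simpa using this
    exact CharTwo.add_eq_zero.1 h2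
  have hQ : ∀ w ∈ P, ∀ t : F, Q (w + t • u) = Q w + t * t := by
    intro w hw t
    rw [QuadraticMap.map_add Q, QuadraticMap.map_smul, hQu, polar_smul_right, hP w hw]
    simp
  rw [← Nat.card_eq_fintype_card, ← Nat.card_prod]
  refine Nat.card_congr ⟨fun p => ⟨p.1.1 + p.2 • u, P.add_mem p.1.2.1 (P.smul_mem _ hu)⟩,
     fun w => (⟨w.1 + r (Q w.1 + c) • u, P.add_mem w.2 (P.smul_mem _ hu), ?_⟩, r (Q w.1 + c)),
     ?_, ?_⟩
  · rw [hQ _ w.2, hr, ← add_assoc, CharTwo.add_self_eq_zero, zero_add]
  · rintro ⟨⟨v, hv, hvc⟩, t⟩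
    have h1 : r (Q (v + t • u) + c) = t := by
      apply hinj
      rw [hr, hQ v hv, hvc, add_comm c, add_assoc, CharTwo.add_self_eq_zero, add_zero]
    simp only [h1, Prod.mk.injEq, Subtype.mk.injEq, and_true]
    rw [add_assoc, ← add_smul, CharTwo.add_self_eq_zero, zero_smul, add_zero]
  · rintro ⟨w, hw⟩
    simp only [Subtype.mk.injEq]
    rw [add_assoc, ← add_smul, CharTwo.add_self_eq_zero, zero_smul, add_zero]

/-- the zeros in `P` and in the hyperplane `P ∩ u^⊥`, for a singular vector `u ∈ P` -/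
theorem card_zeros_hyperplane [Fintype F] [Finite V] (Q : QuadraticForm F V)
    (P : Submodule F V) {u : V} (hu : u ∈ P) (hQu : Q u = 0) :
    Nat.card {v : V // v ∈ P ∧ Q v = 0} * Fintype.card F
        + Nat.card {v : V // v ∈ P ∧ polar Q v u = 0}
      = Nat.card {v : V // (v ∈ P ∧ polar Q v u = 0) ∧ Q v = 0} * Fintype.card F
        + Nat.card P := by
  classical
  have e1 : {v : V // v ∈ P ∧ Q v = 0} ≃
      {v : V // (v ∈ P ∧ polar Q v u = 0) ∧ Q v = 0} ⊕
        {v : V // (v ∈ P ∧ polar Q v u ≠ 0) ∧ Q v = 0} :=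
    { toFun := fun v => if hv : polar Q v.1 u = 0 then Sum.inl ⟨v.1, ⟨v.2.1, hv⟩, v.2.2⟩
        else Sum.inr ⟨v.1, ⟨v.2.1, hv⟩, v.2.2⟩
      invFun := fun s => Sum.elim (fun v => ⟨v.1, v.2.1.1, v.2.2⟩)
        (fun w => ⟨w.1, w.2.1.1, w.2.2⟩) s
      left_inv := by
        intro v
        by_cases hv : polar Q v.1 u = 0 <;> simp [hv]
      right_inv := by
        rintro (v | w)
        · simp [v.2.1.2]
        · simp [w.2.1.2] }
  have e2 : P ≃ {v : V // v ∈ P ∧ polar Q v u = 0} ⊕ {v : V // v ∈ P ∧ polar Q v u ≠ 0} :=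
    { toFun := fun v => if hv : polar Q v.1 u = 0 then Sum.inl ⟨v.1, v.2, hv⟩
        else Sum.inr ⟨v.1, v.2, hv⟩
      invFun := fun s => Sum.elim (fun v => ⟨v.1, v.2.1⟩) (fun w => ⟨w.1, w.2.1⟩) s
      left_inv := by
        intro v
        by_cases hv : polar Q v.1 u = 0 <;> simp [hv]
      right_inv := by
        rintro (v | w)
        · simp [v.2.2]
        · simp [w.2.2] }
  have hQ : ∀ w : V, ∀ t : F, Q (w + t • u) = Q w + t * polar Q w u := by
    intro w t
    rw [QuadraticMap.map_add Q, QuadraticMap.map_smul, hQu, polar_smul_right]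
    simp
  have hpol : ∀ w : V, ∀ t : F, polar Q (w + t • u) u = polar Q w u := by
    intro w t
    rw [polar_add_left, polar_smul_left, polar_self, hQu]
    simp
  have e3 : {v : V // (v ∈ P ∧ polar Q v u ≠ 0) ∧ Q v = 0} × F ≃
      {v : V // v ∈ P ∧ polar Q v u ≠ 0} :=
    { toFun := fun p => ⟨p.1.1 + p.2 • u, P.add_mem p.1.2.1.1 (P.smul_mem _ hu), by
        rw [hpol]; exact p.1.2.1.2⟩
      invFun := fun w => (⟨w.1 + (-(Q w.1 / polar Q w.1 u)) • u,
        ⟨P.add_mem w.2.1 (P.smul_mem _ hu), by rw [hpol]; exact w.2.2⟩, by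
          rw [hQ, neg_mul, div_mul_cancel₀ _ w.2.2, add_neg_cancel]⟩, Q w.1 / polar Q w.1 u)
      left_inv := by
        rintro ⟨⟨v, ⟨hv, hvu⟩, hv0⟩, t⟩
        have h1 : Q (v + t • u) / polar Q (v + t • u) u = t := by
          rw [hQ, hpol, hv0, zero_add, mul_div_cancel_right₀ _ hvu]
        simp only [h1, Prod.mk.injEq, Subtype.mk.injEq, and_true]
        rw [add_assoc, ← add_smul, add_neg_cancel, zero_smul, add_zero]
      right_inv := by
        rintro ⟨w, hw, hwu⟩
        simp only [Subtype.mk.injEq]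
        rw [add_assoc, ← add_smul, neg_add_cancel, zero_smul, add_zero] }
  rw [Nat.card_congr e1, Nat.card_congr e2, Nat.card_sum, Nat.card_sum, ← Nat.card_congr e3,
    Nat.card_prod, Nat.card_eq_fintype_card (α := F)]
  ring

end Cfsg.Agent.Lib.Helper44
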