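import Cfsg.Agent.Lib.Helper44.OCent1

/-!
# Numbers of orthogonal frames (characteristic two)
-/

set_option autoImplicit false

namespace Cfsg.Agent.Lib.Helper44

open Module QuadraticMap Cfsg.Agent.Lib.Helper5

variable {F V : Type*} [Field F] [AddCommGroup V] [Module F V]

theorem card_qFrames_one [Fintype F] [CharP F 2] [FiniteDimensional F V] (Q : QuadraticForm F V)
    (hQ : (polarBilin Q).Nondegenerate) (k : ℕ) :
    Nat.card (qFrames Q 1 (k + 1)) = Nat.card {v : V // Q v = 1} *
      ∏ i : Fin k, (Fintype.card F ^ (finrank F V - 2 - (i : ℕ)) - Fintype.card F ^ (i : ℕ)) := by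
  classical
  have : Finite V := Module.finite_of_finite F
  have hq : 0 < Fintype.card F := Fintype.card_pos
  induction k with
  | zero =>
    simp only [Finset.univ_eq_empty, Finset.prod_empty, mul_one]
    change Nat.card (qFrames Q 1 1) = _
    refine Nat.card_congr ⟨fun f => ⟨f.1 0, f.2.2.2 0⟩, fun v => ⟨fun _ => v.1, ?_, ?_, ?_⟩, ?_, ?_⟩
    · rw [linearIndependent_unique_iff]
      intro h
      have := v.2
      rw [h, map_zero] at this
      exact zero_ne_one this
    · intro i j
      exact polar_self_char_two Q _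
    · intro i
      exact v.2
    · intro f
      apply Subtype.ext
      funext i
      rw [Subsingleton.elim i 0]
    · intro v
      rfl
  | succ k ih =>
    have := Fintype.ofFinite (qFrames Q 1 (k + 1))
    rw [Nat.card_congr (qFramesSuccEquiv Q 1 (k + 1)), Nat.card_sigma]
    have hfib : ∀ f : qFrames Q 1 (k + 1),
        Nat.card {v : V // (v ∈ (pB Q).orthogonal (Submodule.span F (Set.range f.1)) ∧
          v ∉ Submodule.span F (Set.range f.1)) ∧ Q v = 1} =
        Fintype.card F ^ (finrank F V - 2 - k) - Fintype.card F ^ k := by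
      intro f
      have hle := span_le_orthogonal_of_qFrames Q f.2
      have hu : f.1 0 ∈ Submodule.span F (Set.range f.1) := Submodule.subset_span ⟨0, rfl⟩
      have hP : ∀ p ∈ (pB Q).orthogonal (Submodule.span F (Set.range f.1)),
          polar Q p (f.1 0) = 0 := by
        intro p hp
        rw [polar_comm]
        exact (mem_orthogonal_span_range (pB Q) _ _).1 hp 0
      have h1 := card_fiber_of_norm_one Q _ (hle hu) (f.2.2.2 0) hP 1
      have h2 := card_fiber_of_norm_one Q _ hu (f.2.2.2 0) (fun p hp => hP p (hle hp)) 1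
      rw [card_orthogonal_qFrames Q hQ f.2] at h1
      rw [card_span_qFrames Q f.2] at h2
      have h3 := two_mul_le_of_qFrames Q hQ f.2
      have e1 : finrank F V - (k + 1) = (finrank F V - 2 - k) + 1 := by omega
      rw [e1, pow_succ] at h1
      rw [pow_succ] at h2
      rw [card_sdiff_pred _ _ hle, Nat.eq_of_mul_eq_mul_right hq h1,
        Nat.eq_of_mul_eq_mul_right hq h2]
    simp only [hfib]
    rw [Finset.sum_const, Finset.card_univ, smul_eq_mul, ← Nat.card_eq_fintype_card, ih,
      Fin.prod_univ_castSucc]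
    simp [mul_assoc]

theorem mem_orthogonal_cons (Q : QuadraticForm F V) {k : ℕ} (f : Fin (k + 1) → V) (v : V) :
    v ∈ (pB Q).orthogonal (Submodule.span F (Set.range f)) ↔
      v ∈ (pB Q).orthogonal (Submodule.span F (Set.range (Fin.tail f))) ∧ polar Q v (f 0) = 0 := by
  rw [mem_orthogonal_span_range, mem_orthogonal_span_range, Fin.forall_fin_succ, and_comm]
  have : (pB Q) (f 0) v = polar Q v (f 0) := by
    rw [polar_comm]; rfl
  rw [this]
  rfl

theorem tail_mem_qFrames (Q : QuadraticForm F V) {d : F} {k : ℕ} {f : Fin (k + 1) → V}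
    (hf : f ∈ qFrames Q d (k + 1)) : Fin.tail f ∈ qFrames Q d k :=
  ⟨(linearIndependent_finSucc.mp hf.1).1, fun i j => hf.2.1 i.succ j.succ, fun i => hf.2.2 i.succ⟩

theorem card_zeros_orthogonal [Fintype F] [FiniteDimensional F V]
    (Q : QuadraticForm F V) (hQ : (polarBilin Q).Nondegenerate) (k : ℕ) (f : Fin k → V)
    (hf : f ∈ qFrames Q 0 k) :
    Nat.card {v : V // v ∈ (pB Q).orthogonal (Submodule.span F (Set.range f)) ∧ Q v = 0}
        * Fintype.card F + Fintype.card F ^ finrank F V
      = Nat.card {v : V // Q v = 0} * Fintype.card F + Fintype.card F ^ (finrank F V - k) := by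
  have : Finite V := Module.finite_of_finite F
  induction k with
  | zero =>
    rw [Nat.sub_zero]
    congr 2
    refine Nat.card_congr (Equiv.subtypeEquivRight (fun v => ?_))
    rw [mem_orthogonal_span_range]
    constructor
    · exact fun h => h.2
    · exact fun h => ⟨fun j => j.elim0, h⟩
  | succ k ih =>
    have hg := tail_mem_qFrames Q hf
    have ih' := ih _ hg
    have hu : f 0 ∈ (pB Q).orthogonal (Submodule.span F (Set.range (Fin.tail f))) :=
      (mem_orthogonal_span_range (pB Q) _ _).2 (fun j => hf.2.1 j.succ 0)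
    have h1 := card_zeros_hyperplane Q _ hu (hf.2.2 0)
    have e1 : Nat.card {v : V // v ∈ (pB Q).orthogonal (Submodule.span F (Set.range (Fin.tail f)))
        ∧ polar Q v (f 0) = 0} = Fintype.card F ^ (finrank F V - (k + 1)) := by
      rw [← card_orthogonal_qFrames Q hQ hf]
      exact Nat.card_congr (Equiv.subtypeEquivRight (fun v => (mem_orthogonal_cons Q f v).symm))
    have e2 : Nat.card {v : V // (v ∈ (pB Q).orthogonal (Submodule.span F (Set.range (Fin.tail f)))
        ∧ polar Q v (f 0) = 0) ∧ Q v = 0} =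
        Nat.card {v : V // v ∈ (pB Q).orthogonal (Submodule.span F (Set.range f)) ∧ Q v = 0} :=
      Nat.card_congr (Equiv.subtypeEquivRight (fun v => by rw [mem_orthogonal_cons Q f v]))
    rw [e1, e2, card_orthogonal_qFrames Q hQ hg] at h1
    omega

theorem Q_eq_zero_of_mem_span (Q : QuadraticForm F V) {k : ℕ} {f : Fin k → V}
    (hf : f ∈ qFrames Q 0 k) {v : V} (hv : v ∈ Submodule.span F (Set.range f)) : Q v = 0 := by
  obtain ⟨c, rfl⟩ := (Submodule.mem_span_range_iff_exists_fun F).1 hv
  rw [Q_sum_of_orth Q f hf.2.1]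
  apply Finset.sum_eq_zero
  intro i _
  rw [hf.2.2, mul_zero]

theorem card_qFrames_zero_succ [Fintype F] [CharP F 2] [FiniteDimensional F V]
    (Q : QuadraticForm F V) (hQ : (polarBilin Q).Nondegenerate) (k Z : ℕ)
    (hZ : Z * Fintype.card F + Fintype.card F ^ finrank F V
      = Nat.card {v : V // Q v = 0} * Fintype.card F + Fintype.card F ^ (finrank F V - k)) :
    Nat.card (qFrames Q 0 (k + 1)) = Nat.card (qFrames Q 0 k) * (Z - Fintype.card F ^ k) := by
  classical
  have : Finite V := Module.finite_of_finite F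
  have hq : 0 < Fintype.card F := Fintype.card_pos
  have := Fintype.ofFinite (qFrames Q 0 k)
  rw [Nat.card_congr (qFramesSuccEquiv Q 0 k), Nat.card_sigma]
  have hfib : ∀ f : qFrames Q 0 k,
      Nat.card {v : V // (v ∈ (pB Q).orthogonal (Submodule.span F (Set.range f.1)) ∧
        v ∉ Submodule.span F (Set.range f.1)) ∧ Q v = 0} = Z - Fintype.card F ^ k := by
    intro f
    have hle := span_le_orthogonal_of_qFrames Q f.2
    have h1 := card_zeros_orthogonal Q hQ k f.1 f.2
    have h2 : Nat.card {v : V // v ∈ (pB Q).orthogonal (Submodule.span F (Set.range f.1)) ∧ Q v = 0}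
        = Z := by
      apply Nat.eq_of_mul_eq_mul_right hq
      omega
    have h3 : Nat.card {v : V // v ∈ Submodule.span F (Set.range f.1) ∧ Q v = 0}
        = Fintype.card F ^ k := by
      rw [← card_span_qFrames Q f.2]
      exact Nat.card_congr (Equiv.subtypeEquivRight (fun v =>
        ⟨fun h => h.1, fun h => ⟨h, Q_eq_zero_of_mem_span Q f.2 h⟩⟩))
    rw [card_sdiff_pred _ _ hle, h2, h3]
  simp only [hfib]
  rw [Finset.sum_const, Finset.card_univ, smul_eq_mul, ← Nat.card_eq_fintype_card]

end Cfsg.Agent.Lib.Helper44
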