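import Cfsg.Agent.Lib.Helper44.OCent3
import Cfsg.Agent.Lib.Helper44.InvCent5
import Cfsg.Agent.Lib.Helper45.Symp

/-!
# Centralisers of involutions in `O⁺_{2m}(q)`, `q` even: reduction to frames
-/

set_option autoImplicit false

namespace Cfsg.Agent.Lib.Helper44

open Matrix QuadraticMap Cfsg.Agent.Lib.Helper5

variable {F : Type*} [Field F]

theorem plusQF_polar_eq_J [CharP F 2] (m : ℕ) (u v : Fin m ⊕ Fin m → F) :
    polar (plusQF m F) u v = u ⬝ᵥ Matrix.J (Fin m) F *ᵥ v := by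
  rw [plusQF_polar, Cfsg.Agent.Lib.Helper45.dotProduct_J_mulVec, CharTwo.sub_eq_add,
    Finset.sum_add_distrib, add_comm]
  congr 1
  apply Finset.sum_congr rfl
  intro i _
  ring

theorem iso_apply {m : ℕ} (g : ↥(Cfsg.isometryGroup F (Cfsg.quadFormPlus m F)))
    (v : Fin m ⊕ Fin m → F) : plusQF m F (g.1.1 *ᵥ v) = plusQF m F v := by
  rw [plusQF_coe]
  exact g.2 v v

theorem iso_polar {m : ℕ} (g : ↥(Cfsg.isometryGroup F (Cfsg.quadFormPlus m F)))
    (u v : Fin m ⊕ Fin m → F) :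
    polar (plusQF m F) (g.1.1 *ᵥ u) (g.1.1 *ᵥ v) = polar (plusQF m F) u v := by
  rw [polar, polar, ← Matrix.mulVec_add, iso_apply, iso_apply, iso_apply]

theorem iso_mem_symplectic [CharP F 2] {m : ℕ}
    (g : ↥(Cfsg.isometryGroup F (Cfsg.quadFormPlus m F))) :
    g.1.1 ∈ Matrix.symplecticGroup (Fin m) F := by
  rw [Cfsg.Agent.Lib.Helper45.mem_symplecticGroup_iff_form]
  intro u v
  rw [← plusQF_polar_eq_J, ← plusQF_polar_eq_J, iso_polar]

theorem exists_inv_factor [CharP F 2] {m s : ℕ}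
    (T : Matrix (Fin m ⊕ Fin m) (Fin m ⊕ Fin m) F)
    (hT2 : T * Matrix.J (Fin m) F * Tᵀ = Matrix.J (Fin m) F) (hTT : T * T = 1)
    (hs : (T - 1).rank = s) :
    ∃ (W : Matrix (Fin m ⊕ Fin m) (Fin s) F) (L : Matrix (Fin s) (Fin m ⊕ Fin m) F)
      (S : Matrix (Fin s) (Fin s) F),
      L * W = 1 ∧ Sᵀ = S ∧ IsUnit S ∧ (T - 1) * Matrix.J (Fin m) F = W * S * Wᵀ ∧
        Wᵀ * Matrix.J (Fin m) F * W = 0 := by
  set J := Matrix.J (Fin m) F with hJ
  have hJJ : J * J = 1 := by rw [hJ, Matrix.J_squared, mat_neg_eq]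
  have hJT : Jᵀ = J := by rw [hJ, Matrix.J_transpose, mat_neg_eq]
  have hJu : IsUnit J := IsUnit.of_mul_eq_one _ hJJ
  have hNN : (T - 1) * (T - 1) = 0 := by
    have : (T - 1) * (T - 1) = (T * T + 1) - (T + T) := by noncomm_ring
    rw [this, hTT, mat_add_self, mat_add_self, sub_zero]
  have hJTt : J * Tᵀ = T * J := by
    calc J * Tᵀ = (T * T) * J * Tᵀ := by rw [hTT, one_mul]
      _ = T * (T * J * Tᵀ) := by simp only [mul_assoc]
      _ = T * J := by rw [hT2]
  have hM : ((T - 1) * J)ᵀ = (T - 1) * J := by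
    rw [transpose_mul, hJT, transpose_sub, transpose_one, mul_sub, hJTt, sub_mul, mul_one, one_mul]
  have hrank : ((T - 1) * J).rank = s := by
    rw [rank_mul_eq_left_of_isUnit_det _ _ ((Matrix.isUnit_iff_isUnit_det _).1 hJu), hs]
  obtain ⟨W, L, S, hL, hSs, hSu, hMS⟩ := exists_symm_factor _ hM s hrank
  have hLT : Wᵀ * Lᵀ = 1 := by rw [← transpose_mul, hL, transpose_one]
  have hN : T - 1 = W * S * Wᵀ * J := by
    rw [← hMS, mul_assoc, hJJ, mul_one]
  refine ⟨W, L, S, hL, hSs, hSu, hMS, ?_⟩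
  obtain ⟨⟨S₀, S', hS1, hS2⟩, hS₀⟩ := id hSu
  simp only at hS₀
  subst hS₀
  have h0 : (W * S₀ * Wᵀ * J) * (W * S₀ * Wᵀ * J) = 0 := by rw [← hN, hNN]
  calc Wᵀ * J * W = (S' * (L * W) * S₀) * (Wᵀ * J * W) * (S₀ * (Wᵀ * (J * J) * Lᵀ) * S') := by
        rw [hL, hJJ, Matrix.mul_one, Matrix.mul_one, hLT, hS2, Matrix.mul_one, hS1,
          Matrix.one_mul, Matrix.mul_one]
    _ = S' * L * ((W * S₀ * Wᵀ * J) * (W * S₀ * Wᵀ * J)) * J * Lᵀ * S' := by
        simp only [Matrix.mul_assoc]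
    _ = 0 := by rw [h0]; simp

theorem exists_congr_one [Finite F] [CharP F 2] {n : ℕ} {S : Matrix (Fin n) (Fin n) F}
    (hS : IsUnit S) (hsym : Sᵀ = S) (hna : ¬ AltM S) :
    ∃ g : (Matrix (Fin n) (Fin n) F)ˣ, 1 = g.1 * S * g.1ᵀ := by
  obtain ⟨A, rfl⟩ := hS
  have hdet : A.1.det ≠ 0 := ((Matrix.isUnit_iff_isUnit_det _).1 A.isUnit).ne_zero
  unfold AltM at hna
  push Not at hna
  obtain ⟨b, hb⟩ := exists_orthonormal_char2 perfect_of_char_two n (Matrix.toBilin' A.1)
    ⟨fun x y => by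
      simp only [Matrix.toBilin'_apply']
      exact bilin_symm hsym x y⟩
    (LinearMap.BilinForm.nondegenerate_toBilin'_iff_det_ne_zero.2 hdet)
    (by
      obtain ⟨x, hx⟩ := hna
      exact ⟨x, by rwa [Matrix.toBilin'_apply']⟩) (by simp)
  obtain ⟨g, hg⟩ := exists_congr_of_isometry A 1 b.equivFun.symm (by
    intro x y
    rw [← Matrix.toBilin'_apply', Module.Basis.equivFun_symm_apply, Module.Basis.equivFun_symm_apply,
      LinearMap.BilinForm.sum_left]
    simp only [LinearMap.BilinForm.sum_right, LinearMap.BilinForm.smul_left,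
      LinearMap.BilinForm.smul_right, hb, Units.val_one, Matrix.one_mulVec, dotProduct]
    apply Finset.sum_congr rfl
    intro i _
    simp [mul_comm])
  exact ⟨g, hg⟩

/-- the matrix action of the isometry group -/
noncomputable def isoToMat (m : ℕ) (F : Type*) [Field F] :
    ↥(Cfsg.isometryGroup F (Cfsg.quadFormPlus m F)) →*
      Matrix (Fin m ⊕ Fin m) (Fin m ⊕ Fin m) F :=
  (Units.coeHom _).comp (Subgroup.subtype _)

theorem isoToMat_apply (m : ℕ) (g : ↥(Cfsg.isometryGroup F (Cfsg.quadFormPlus m F))) :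
    isoToMat m F g = g.1.1 := rfl

theorem card_cent_O [Fintype F] [CharP F 2] {m s : ℕ}
    (x : ↥(Cfsg.isometryGroup F (Cfsg.quadFormPlus m F)))
    (W : Matrix (Fin m ⊕ Fin m) (Fin s) F) (L : Matrix (Fin s) (Fin m ⊕ Fin m) F)
    (S : Matrix (Fin s) (Fin s) F) (hL : L * W = 1) (hSu : IsUnit S)
    (hMS : (x.1.1 - 1) * Matrix.J (Fin m) F = W * S * Wᵀ) (d : F)
    (hfr : ∀ A : Matrix (Fin s) (Fin s) F, A * S * Aᵀ = S →
      (fun i a => (W * A) a i) ∈ qFrames (plusQF m F) d s) :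
    Nat.card (Subgroup.centralizer
        ({x} : Set ↥(Cfsg.isometryGroup F (Cfsg.quadFormPlus m F)))) *
      Nat.card (qFrames (plusQF m F) d s) =
    cntF S * Nat.card ↥(Cfsg.isometryGroup F (Cfsg.quadFormPlus m F)) := by
  set J := Matrix.J (Fin m) F with hJ
  set T : Matrix (Fin m ⊕ Fin m) (Fin m ⊕ Fin m) F := x.1.1 with hT
  have hJJ : J * J = 1 := by rw [hJ, Matrix.J_squared, mat_neg_eq]
  have hJu : IsUnit J := IsUnit.of_mul_eq_one _ hJJ
  have : Finite ↥(Cfsg.isometryGroup F (Cfsg.quadFormPlus m F)) := Subtype.finite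
  have hf₀ : (fun i a => W a i) ∈ qFrames (plusQF m F) d s := by
    have := hfr 1 (by simp)
    rwa [Matrix.mul_one] at this
  have hmulcol : ∀ (h : Matrix (Fin m ⊕ Fin m) (Fin m ⊕ Fin m) F),
      (fun (i : Fin s) => h *ᵥ (fun a => W a i)) = fun i a => (h * W) a i := by
    intro h
    funext i a
    simp [mulVec, dotProduct, Matrix.mul_apply]
  have hmain := card_mul_card_frames (isoToMat m F) (fun i a => W a i)
    (qFrames (plusQF m F) d s) (by
      intro f
      constructor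
      · intro hf
        obtain ⟨g, hg1, hg2⟩ := exists_isometry_of_frames (plusQF m F) (plusQF_nondeg m F) _ f
          hf₀.1 hf.1 (by
            intro c
            rw [Q_sum_of_orth _ _ hf₀.2.1, Q_sum_of_orth _ _ hf.2.1]
            simp only [hf₀.2.2, hf.2.2])
        obtain ⟨A, hA⟩ := exists_formGroup_of_linearEquiv
          (fun (u : Fin m ⊕ Fin m → F) (_ : Fin m ⊕ Fin m → F) => plusQF m F u) g
          (fun u _ => hg1 u)
        refine ⟨⟨A.1, ?_⟩, ?_⟩
        · intro u v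
          have := A.2 u v
          simp only [← plusQF_coe]
          exact this
        · funext i
          rw [isoToMat_apply]
          exact (hA _).trans (hg2 i)
      · rintro ⟨h, rfl⟩
        refine ⟨?_, ?_, ?_⟩
        · exact hf₀.1.map' (actL (isoToMat m F) h).toLinearMap (LinearEquiv.ker _)
        · intro i j
          rw [isoToMat_apply, iso_polar]
          exact hf₀.2.1 i j
        · intro i
          rw [isoToMat_apply, iso_apply]
          exact hf₀.2.2 i)
    (Subgroup.centralizer ({x} : Set ↥(Cfsg.isometryGroup F (Cfsg.quadFormPlus m F))))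
    {y | (Matrix.of y)ᵀ * S * (Matrix.of y) = W * S * Wᵀ} (by
      intro y hy
      have hy' : (Matrix.of y)ᵀ * S * ((Matrix.of y)ᵀ)ᵀ = W * S * Wᵀ := hy
      obtain ⟨h1, h2⟩ := eq_mul_of_congr hL hSu hy'
      have := hfr _ h1
      rw [← h2] at this
      exact this) (by
      intro h
      rw [Subgroup.mem_centralizer_singleton_iff, Set.mem_ofPred_eq]
      have e0 : (Matrix.of fun (i : Fin s) => (isoToMat m F) h *ᵥ fun a => W a i)
          = (h.1.1 * W)ᵀ := by
        have := hmulcol h.1.1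
        ext i a
        exact congrFun (congrFun this i) a
      rw [e0, transpose_transpose]
      have h2 : h.1.1 * J * h.1.1ᵀ = J := SymplecticGroup.mem_iff.1 (iso_mem_symplectic h)
      have e1 : h.1.1 * W * S * (h.1.1 * W)ᵀ = h.1.1 * ((T - 1) * J) * h.1.1ᵀ := by
        rw [hMS, transpose_mul]
        simp only [Matrix.mul_assoc]
      rw [e1, ← hMS]
      constructor
      · intro hc
        have hc' : h.1.1 * T = T * h.1.1 := congrArg (fun z => z.1.1) hc
        have hc2 : h.1.1 * (T - 1) = (T - 1) * h.1.1 := by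
          rw [mul_sub, sub_mul, hc', mul_one, one_mul]
        calc h.1.1 * ((T - 1) * J) * h.1.1ᵀ = (h.1.1 * (T - 1)) * J * h.1.1ᵀ := by
              simp only [mul_assoc]
          _ = (T - 1) * (h.1.1 * J * h.1.1ᵀ) := by rw [hc2]; simp only [mul_assoc]
          _ = _ := by rw [h2]
      · intro hc
        have hu : IsUnit (J * h.1.1ᵀ) := by
          refine hJu.mul ?_
          rw [Matrix.isUnit_iff_isUnit_det, det_transpose]
          exact SymplecticGroup.symplectic_det (iso_mem_symplectic h)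
        have h3 : (h.1.1 * (T - 1)) * (J * h.1.1ᵀ) = ((T - 1) * h.1.1) * (J * h.1.1ᵀ) := by
          calc (h.1.1 * (T - 1)) * (J * h.1.1ᵀ) = h.1.1 * ((T - 1) * J) * h.1.1ᵀ := by
                simp only [mul_assoc]
            _ = (T - 1) * J := hc
            _ = (T - 1) * (h.1.1 * J * h.1.1ᵀ) := by rw [h2]
            _ = _ := by simp only [mul_assoc]
        have h4 := hu.mul_right_cancel h3
        apply Subtype.ext
        apply Units.ext
        show h.1.1 * T = T * h.1.1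
        rw [mul_sub, sub_mul, mul_one, one_mul] at h4
        exact sub_left_injective h4)
  rw [hmain]
  congr 1
  rw [cntF, ← Nat.card_congr (solEquiv hL hSu)]
  refine Nat.card_congr ⟨fun y => ⟨(Matrix.of y.1)ᵀ, y.2⟩, fun Y => ⟨fun i a => Y.1 a i, Y.2⟩,
    fun y => rfl, fun Y => rfl⟩

end Cfsg.Agent.Lib.Helper44
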