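import Cfsg.Agent.Lib.Helper44.OCent4

/-!
# Centralisers of involutions in `O⁺_{2m}(q)`, `q` even: the two kinds of frames
-/

set_option autoImplicit false

namespace Cfsg.Agent.Lib.Helper44

open Matrix QuadraticMap Module Cfsg.Agent.Lib.Helper5 Cfsg.Agent.Lib.Helper94

variable {F : Type*} [Field F]

theorem plusQF_eq (m : ℕ) (v : Fin m ⊕ Fin m → F) :
    Cfsg.quadFormPlus m F v = plusQF m F v := (congrFun (plusQF_coe m F) v).symm

theorem Q_range_eq [CharP F 2] {m s : ℕ}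
    (x : ↥(Cfsg.isometryGroup F (Cfsg.quadFormPlus m F)))
    (W : Matrix (Fin m ⊕ Fin m) (Fin s) F) (S : Matrix (Fin s) (Fin s) F)
    (hMS : (x.1.1 - 1) * Matrix.J (Fin m) F = W * S * Wᵀ) (v : Fin m ⊕ Fin m → F) :
    plusQF m F ((x.1.1 - 1) *ᵥ v) =
      (Wᵀ *ᵥ (Matrix.J (Fin m) F *ᵥ v)) ⬝ᵥ S *ᵥ (Wᵀ *ᵥ (Matrix.J (Fin m) F *ᵥ v)) := by
  set J := Matrix.J (Fin m) F with hJ
  set T : Matrix (Fin m ⊕ Fin m) (Fin m ⊕ Fin m) F := x.1.1 with hT
  have hJJ : J * J = 1 := by rw [hJ, Matrix.J_squared, mat_neg_eq]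
  have hJT : Jᵀ = J := by rw [hJ, Matrix.J_transpose, mat_neg_eq]
  have hN : T - 1 = W * S * Wᵀ * J := by
    rw [← hMS, mul_assoc, hJJ, mul_one]
  have h1 : plusQF m F (T *ᵥ v) = plusQF m F v := iso_apply x v
  have h2 : T *ᵥ v = v + (T - 1) *ᵥ v := by
    rw [sub_mulVec, one_mulVec]; abel
  rw [h2, QuadraticMap.map_add (plusQF m F)] at h1
  have h3 : plusQF m F ((T - 1) *ᵥ v) = polar (plusQF m F) v ((T - 1) *ᵥ v) := by
    have h4 : plusQF m F ((T - 1) *ᵥ v) + polar (plusQF m F) v ((T - 1) *ᵥ v) = 0 := by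
      have : plusQF m F v + (plusQF m F ((T - 1) *ᵥ v) + polar (plusQF m F) v ((T - 1) *ᵥ v))
          = plusQF m F v + 0 := by rw [add_zero, ← add_assoc]; exact h1
      exact add_left_cancel this
    exact CharTwo.add_eq_zero.1 h4
  rw [h3, plusQF_polar_eq_J, hN]
  rw [← mulVec_mulVec, ← mulVec_mulVec, ← mulVec_mulVec, dotProduct_mulVec v J,
    ← mulVec_transpose, hJT, dotProduct_mulVec _ W, ← mulVec_transpose]

theorem Q_W_eq [CharP F 2] {m s : ℕ}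
    (x : ↥(Cfsg.isometryGroup F (Cfsg.quadFormPlus m F)))
    (W : Matrix (Fin m ⊕ Fin m) (Fin s) F) (L : Matrix (Fin s) (Fin m ⊕ Fin m) F)
    (S : Matrix (Fin s) (Fin s) F) (hL : L * W = 1)
    (hMS : (x.1.1 - 1) * Matrix.J (Fin m) F = W * S * Wᵀ) (c : Fin s → F) :
    plusQF m F (W *ᵥ (S *ᵥ c)) = c ⬝ᵥ S *ᵥ c := by
  set J := Matrix.J (Fin m) F with hJ
  have hJJ : J * J = 1 := by rw [hJ, Matrix.J_squared, mat_neg_eq]
  have hLT : Wᵀ * Lᵀ = 1 := by rw [← transpose_mul, hL, transpose_one]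
  have hN : x.1.1 - 1 = W * S * Wᵀ * J := by
    rw [← hMS, mul_assoc, hJJ, mul_one]
  have e3 : Wᵀ *ᵥ (J *ᵥ (J *ᵥ (Lᵀ *ᵥ c))) = c := by
    rw [mulVec_mulVec _ J J, hJJ, one_mulVec, mulVec_mulVec, hLT, one_mulVec]
  have h := Q_range_eq x W S hMS (J *ᵥ (Lᵀ *ᵥ c))
  rw [e3, hN, ← mulVec_mulVec, ← mulVec_mulVec, ← mulVec_mulVec, e3] at h
  exact h

theorem cols_mem_qFrames [CharP F 2] {m s : ℕ} (Y : Matrix (Fin m ⊕ Fin m) (Fin s) F)
    (L : Matrix (Fin s) (Fin m ⊕ Fin m) F) (hL : L * Y = 1)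
    (hY : Yᵀ * Matrix.J (Fin m) F * Y = 0) (d : F)
    (hd : ∀ i, plusQF m F (fun a => Y a i) = d) :
    (fun i a => Y a i) ∈ qFrames (plusQF m F) d s := by
  have h := cols_mem_tiFrames Y L hL hY
  refine ⟨h.1, ?_, hd⟩
  intro i j
  rw [plusQF_polar_eq_J]
  have := h.2 i j
  rwa [sympB_apply] at this

theorem frames_of_data [CharP F 2] {m s : ℕ}
    (W : Matrix (Fin m ⊕ Fin m) (Fin s) F) (L : Matrix (Fin s) (Fin m ⊕ Fin m) F)
    (S : Matrix (Fin s) (Fin s) F) (hL : L * W = 1) (hSu : IsUnit S)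
    (hiso : Wᵀ * Matrix.J (Fin m) F * W = 0) (d : F)
    (hd : ∀ A : Matrix (Fin s) (Fin s) F, A * S * Aᵀ = S → ∀ i,
      plusQF m F (W *ᵥ (fun a => A a i)) = d)
    (A : Matrix (Fin s) (Fin s) F) (hA : A * S * Aᵀ = S) :
    (fun i a => (W * A) a i) ∈ qFrames (plusQF m F) d s := by
  obtain ⟨⟨A₀, A', hA1, hA2⟩, hA₀⟩ := isUnit_of_congr hSu hA
  simp only at hA₀
  subst hA₀
  apply cols_mem_qFrames (W * A₀) (A' * L)
  · calc A' * L * (W * A₀) = A' * (L * W) * A₀ := by simp only [Matrix.mul_assoc]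
      _ = 1 := by rw [hL, Matrix.mul_one, hA2]
  · rw [transpose_mul]
    calc A₀ᵀ * Wᵀ * Matrix.J (Fin m) F * (W * A₀)
        = A₀ᵀ * (Wᵀ * Matrix.J (Fin m) F * W) * A₀ := by simp only [Matrix.mul_assoc]
      _ = 0 := by rw [hiso]; simp
  · intro i
    have : (fun a => (W * A₀) a i) = W *ᵥ (fun a => A₀ a i) := by
      funext a
      simp [Matrix.mul_apply, mulVec, dotProduct]
    rw [this]
    exact hd A₀ hA i

theorem exists_fixed_nonsingular_of_lt {m s : ℕ}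
    (T : Matrix (Fin m ⊕ Fin m) (Fin m ⊕ Fin m) F) (hs : (T - 1).rank = s) (hsm : s < m) :
    ∃ w, plusQF m F w ≠ 0 ∧ T *ᵥ w = w := by
  by_contra hcon
  push Not at hcon
  set K := LinearMap.ker (Matrix.mulVecLin (T - 1)) with hK
  have hmem : ∀ w, w ∈ K → plusQF m F w = 0 := by
    intro w hw
    by_contra h0
    apply hcon w h0
    rw [hK, LinearMap.mem_ker, Matrix.mulVecLin_apply, sub_mulVec, one_mulVec] at hw
    exact sub_eq_zero.1 hw
  have h1 : finrank F K + s = 2 * m := by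
    have := LinearMap.finrank_range_add_finrank_ker (Matrix.mulVecLin (T - 1))
    rw [finrank_plus] at this
    rw [← hs, Matrix.rank, ← this, add_comm]
  have h2 : K ≤ (pB (plusQF m F)).orthogonal K := by
    intro a ha
    rw [LinearMap.BilinForm.mem_orthogonal_iff]
    intro b hb
    change polar (plusQF m F) b a = 0
    rw [polar, hmem _ (K.add_mem hb ha), hmem _ ha, hmem _ hb]
    simp
  have h3 := Submodule.finrank_mono h2
  rw [LinearMap.BilinForm.finrank_orthogonal (plusQF_nondeg m F), finrank_plus] at h3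
  omega

/-- data for the non-alternating types `b_s`, `c_s`. -/
theorem cent_O_nonalt [Fintype F] [CharP F 2] {m s : ℕ}
    (x : ↥(Cfsg.isometryGroup F (Cfsg.quadFormPlus m F))) (hx : x ^ 2 = 1)
    (hs : (x.1.1 - 1).rank = s)
    (hna : Odd s ∨ ∃ v, Cfsg.quadFormPlus m F ((x.1.1 - 1) *ᵥ v) ≠ 0) :
    Nat.card (Subgroup.centralizer
        ({x} : Set ↥(Cfsg.isometryGroup F (Cfsg.quadFormPlus m F)))) *
      Nat.card (qFrames (plusQF m F) 1 s) =
      cntF (1 : Matrix (Fin s) (Fin s) F) *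
        Nat.card ↥(Cfsg.isometryGroup F (Cfsg.quadFormPlus m F)) ∧
    (∃ w, plusQF m F w ≠ 0 ∧ x.1.1 *ᵥ w = w) ∧ 1 ≤ s ∧ s ≤ m := by
  have hTT : x.1.1 * x.1.1 = 1 := by
    have := congrArg (fun z => z.1.1) hx
    rwa [_root_.sq] at this
  obtain ⟨W, L, S, hL, hSs, hSu, hMS, hiso⟩ := exists_inv_factor x.1.1
    (SymplecticGroup.mem_iff.1 (iso_mem_symplectic x)) hTT hs
  have hS : ¬ AltM S := by
    rcases hna with hodd | ⟨v, hv⟩
    · exact not_altM_of_odd hodd hSu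
    · intro ha
      apply hv
      rw [plusQF_eq, Q_range_eq x W S hMS]
      exact ha _
  obtain ⟨g, hg⟩ := exists_congr_one hSu hSs hS
  obtain ⟨Φ, Φ', hΦ1, hΦ2⟩ := g
  simp only at hg
  have hΦ1T : Φ'ᵀ * Φᵀ = 1 := by rw [← transpose_mul, hΦ1, transpose_one]
  have hΦ2T : Φᵀ * Φ'ᵀ = 1 := by rw [← transpose_mul, hΦ2, transpose_one]
  have hSΦ : S = Φ' * Φ'ᵀ := by
    calc S = (Φ' * Φ) * S * (Φᵀ * Φ'ᵀ) := by rw [hΦ2, hΦ2T, one_mul, mul_one]
      _ = Φ' * (Φ * S * Φᵀ) * Φ'ᵀ := by simp only [mul_assoc]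
      _ = _ := by rw [← hg, mul_one]
  have hL' : (Φ * L) * (W * Φ') = 1 := by
    calc (Φ * L) * (W * Φ') = Φ * (L * W) * Φ' := by simp only [Matrix.mul_assoc]
      _ = 1 := by rw [hL, Matrix.mul_one, hΦ1]
  have hMS' : (x.1.1 - 1) * Matrix.J (Fin m) F = (W * Φ') * (1 : Matrix (Fin s) (Fin s) F) * (W * Φ')ᵀ := by
    rw [hMS, hSΦ, transpose_mul]
    simp only [Matrix.mul_assoc, Matrix.one_mul]
  have hiso' : (W * Φ')ᵀ * Matrix.J (Fin m) F * (W * Φ') = 0 := by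
    rw [transpose_mul]
    calc Φ'ᵀ * Wᵀ * Matrix.J (Fin m) F * (W * Φ')
        = Φ'ᵀ * (Wᵀ * Matrix.J (Fin m) F * W) * Φ' := by simp only [Matrix.mul_assoc]
      _ = 0 := by rw [hiso]; simp
  have hQW : ∀ c, plusQF m F ((W * Φ') *ᵥ c) = c ⬝ᵥ c := by
    intro c
    have := Q_W_eq x (W * Φ') (Φ * L) 1 hL' hMS' c
    rwa [one_mulVec] at this
  have hfr := frames_of_data (W * Φ') (Φ * L) 1 hL' isUnit_one hiso' 1 (by
    intro A hA i
    rw [hQW]
    rw [Matrix.mul_one] at hA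
    have hA' : Aᵀ * A = 1 := mul_eq_one_comm.1 hA
    have := congrFun (congrFun hA' i) i
    rw [Matrix.mul_apply, Matrix.one_apply_eq] at this
    rw [← this]
    rfl)
  have hf₀ := hfr 1 (by simp)
  rw [Matrix.mul_one] at hf₀
  have hs1 : 1 ≤ s := by
    rcases Nat.eq_zero_or_pos s with h0 | h0
    · exfalso
      subst h0
      apply hS
      intro v
      simp [dotProduct]
    · exact h0
  refine ⟨card_cent_O x (W * Φ') (Φ * L) 1 hL' isUnit_one hMS' 1 hfr, ?_, hs1, ?_⟩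
  · refine ⟨fun a => (W * Φ') a ⟨0, hs1⟩, ?_, ?_⟩
    · rw [hf₀.2.2 ⟨0, hs1⟩]
      exact one_ne_zero
    · have hJJ : Matrix.J (Fin m) F * Matrix.J (Fin m) F = 1 := by
        rw [Matrix.J_squared, mat_neg_eq]
      have hN : x.1.1 - 1 = (W * Φ') * (1 : Matrix (Fin s) (Fin s) F) * (W * Φ')ᵀ * Matrix.J (Fin m) F := by
        rw [← hMS', mul_assoc, hJJ, mul_one]
      have hcol : (fun a => (W * Φ') a ⟨0, hs1⟩) = (W * Φ') *ᵥ Pi.single ⟨0, hs1⟩ 1 := by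
        rw [mulVec_single_one]
        rfl
      have h0 : (x.1.1 - 1) *ᵥ (fun a => (W * Φ') a ⟨0, hs1⟩) = 0 := by
        rw [hcol, mulVec_mulVec, hN]
        have : (W * Φ') * (1 : Matrix (Fin s) (Fin s) F) * (W * Φ')ᵀ * Matrix.J (Fin m) F * (W * Φ')
            = (W * Φ') * (1 : Matrix (Fin s) (Fin s) F) * ((W * Φ')ᵀ * Matrix.J (Fin m) F * (W * Φ')) := by
          simp only [Matrix.mul_assoc]
        rw [this, hiso', Matrix.mul_zero, zero_mulVec]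
      rw [sub_mulVec, one_mulVec] at h0
      exact sub_eq_zero.1 h0
  · have := two_mul_le_of_qFrames (plusQF m F) (plusQF_nondeg m F) hf₀
    rw [finrank_plus] at this
    omega

/-- data for the alternating types `a_s`. -/
theorem cent_O_alt [Fintype F] [CharP F 2] {m s : ℕ}
    (x : ↥(Cfsg.isometryGroup F (Cfsg.quadFormPlus m F))) (hx : x ^ 2 = 1)
    (hs : (x.1.1 - 1).rank = s)
    (halt : ∀ v, Cfsg.quadFormPlus m F ((x.1.1 - 1) *ᵥ v) = 0) :
    ∃ S : Matrix (Fin s) (Fin s) F, IsUnit S ∧ AltM S ∧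
    Nat.card (Subgroup.centralizer
        ({x} : Set ↥(Cfsg.isometryGroup F (Cfsg.quadFormPlus m F)))) *
      Nat.card (qFrames (plusQF m F) 0 s) =
      cntF S * Nat.card ↥(Cfsg.isometryGroup F (Cfsg.quadFormPlus m F)) ∧
    0 < Nat.card (qFrames (plusQF m F) 0 s) ∧ s ≤ m := by
  have hTT : x.1.1 * x.1.1 = 1 := by
    have := congrArg (fun z => z.1.1) hx
    rwa [_root_.sq] at this
  obtain ⟨W, L, S, hL, hSs, hSu, hMS, hiso⟩ := exists_inv_factor x.1.1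
    (SymplecticGroup.mem_iff.1 (iso_mem_symplectic x)) hTT hs
  have hJJ : Matrix.J (Fin m) F * Matrix.J (Fin m) F = 1 := by
    rw [Matrix.J_squared, mat_neg_eq]
  have hN : x.1.1 - 1 = W * S * Wᵀ * Matrix.J (Fin m) F := by
    rw [← hMS, mul_assoc, hJJ, mul_one]
  have hLT : Wᵀ * Lᵀ = 1 := by rw [← transpose_mul, hL, transpose_one]
  obtain ⟨⟨S₀, S', hS1, hS2⟩, hS₀⟩ := id hSu
  simp only at hS₀
  subst hS₀
  have hQW : ∀ c, plusQF m F (W *ᵥ c) = 0 := by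
    intro c
    have h := halt (Matrix.J (Fin m) F *ᵥ (Lᵀ *ᵥ (S' *ᵥ c)))
    rw [plusQF_eq, hN] at h
    have e : (W * S₀ * Wᵀ * Matrix.J (Fin m) F) *ᵥ (Matrix.J (Fin m) F *ᵥ (Lᵀ *ᵥ (S' *ᵥ c)))
        = W *ᵥ c := by
      simp only [mulVec_mulVec]
      congr 1
      calc W * S₀ * Wᵀ * Matrix.J (Fin m) F * (Matrix.J (Fin m) F * (Lᵀ * S'))
          = W * S₀ * (Wᵀ * (Matrix.J (Fin m) F * Matrix.J (Fin m) F) * Lᵀ) * S' := by
            simp only [Matrix.mul_assoc]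
        _ = W := by
            rw [hJJ, Matrix.mul_one, hLT, Matrix.mul_one, Matrix.mul_assoc, hS1, Matrix.mul_one]
    rwa [e] at h
  have ha : AltM S₀ := by
    intro c
    rw [← Q_W_eq x W L S₀ hL hMS c]
    exact hQW _
  have hfr := frames_of_data W L S₀ hL hSu hiso 0 (fun A _ i => hQW _)
  have hf₀ := hfr 1 (by simp)
  refine ⟨S₀, hSu, ha, card_cent_O x W L S₀ hL hSu hMS 0 hfr, ?_, ?_⟩
  · have : Nonempty (qFrames (plusQF m F) 0 s) := ⟨⟨_, hf₀⟩⟩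
    have : Finite (qFrames (plusQF m F) 0 s) := Subtype.finite
    exact Nat.card_pos
  · have := two_mul_le_of_qFrames (plusQF m F) (plusQF_nondeg m F) hf₀
    rw [finrank_plus] at this
    omega

end Cfsg.Agent.Lib.Helper44
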