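import Cfsg.Agent.Lib.Helper44.InvolChar2
import Cfsg.Agent.Lib.Helper44.SOIndex

/-!
# Centralisers in `Ω` versus centralisers in `O` (characteristic two)
-/

set_option autoImplicit false

namespace Cfsg.Agent.Lib.Helper44

open Module QuadraticMap Matrix

variable {F : Type*} [Field F] {ι : Type} [Fintype ι] [DecidableEq ι]

theorem mul_reflElt_mem_Omega_iff₂ [Fintype F] [CharP F 2] (Q : QuadraticForm F (ι → F))
    (hQ : (polarBilin Q).Nondegenerate) (h : Fintype.card F ≠ 2 ∨ Fintype.card ι ≠ 4)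
    (g : ↥(Cfsg.isometryGroup F ⇑Q)) {x : ι → F} (hx : Q x ≠ 0) :
    g * reflElt Q x ∈ Cfsg.Omega F ⇑Q ↔ g ∉ Cfsg.Omega F ⇑Q := by
  rw [mem_Omega_iff_even_rank Q hQ h, mem_Omega_iff_even_rank Q hQ h]
  have h1 := rank_sub_one_add_finrank_fixSp (g : GL ι F)
  have h2 := rank_sub_one_add_finrank_fixSp ((g * reflElt Q x : ↥(Cfsg.isometryGroup F ⇑Q)) : GL ι F)
  have h3 : glEquiv ((g * reflElt Q x : ↥(Cfsg.isometryGroup F ⇑Q)) : GL ι F)
      = glEquiv (g : GL ι F) * refl Q x := by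
    rw [Subgroup.coe_mul, map_mul]
    congr 1
    exact congrArg Subtype.val (isoEquiv_reflElt Q x)
  rw [h3] at h2
  have h4 := finrank_fixSp_mul_refl hQ (glEquiv_mem_OQ.2 g.2) hx
  rw [Nat.not_even_iff_odd, Nat.even_iff, Nat.odd_iff]
  omega

theorem card_cent_Omega_of_fixed [Fintype F] [CharP F 2] (Q : QuadraticForm F (ι → F))
    (hQ : (polarBilin Q).Nondegenerate) (h : Fintype.card F ≠ 2 ∨ Fintype.card ι ≠ 4)
    (x : ↥(Cfsg.isometryGroup F ⇑Q)) (w : ι → F) (hw : Q w ≠ 0)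
    (hxw : ((x : GL ι F) : Matrix ι ι F) *ᵥ w = w) :
    Nat.card (Subgroup.centralizer ({x} : Set ↥(Cfsg.isometryGroup F ⇑Q))) =
      2 * Nat.card {g : ↥(Cfsg.Omega F ⇑Q) // (g : ↥(Cfsg.isometryGroup F ⇑Q)) * x = x * g} := by
  classical
  set r := reflElt Q w with hr0
  have hr : r * x = x * r := by
    have := reflElt_commute_of_fixed Q x w hxw
    rw [mul_inv_eq_iff_eq_mul] at this
    exact this.symm
  have hrr : r * r = 1 := reflElt_mul_self Q w
  have hcomm : ∀ g : ↥(Cfsg.isometryGroup F ⇑Q), g * x = x * g → (g * r) * x = x * (g * r) := by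
    intro g hg
    rw [mul_assoc, hr, ← mul_assoc, hg, mul_assoc]
  have hmem := fun g : ↥(Cfsg.isometryGroup F ⇑Q) => mul_reflElt_mem_Omega_iff₂ Q hQ h g hw
  have e : Subgroup.centralizer ({x} : Set ↥(Cfsg.isometryGroup F ⇑Q)) ≃
      {g : ↥(Cfsg.Omega F ⇑Q) // (g : ↥(Cfsg.isometryGroup F ⇑Q)) * x = x * g} ⊕
      {g : ↥(Cfsg.Omega F ⇑Q) // (g : ↥(Cfsg.isometryGroup F ⇑Q)) * x = x * g} :=
    { toFun := fun g => if hg : g.1 ∈ Cfsg.Omega F ⇑Q
        then Sum.inl ⟨⟨g.1, hg⟩, Subgroup.mem_centralizer_singleton_iff.1 g.2⟩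
        else Sum.inr ⟨⟨g.1 * r, (hmem g.1).2 hg⟩,
          hcomm _ (Subgroup.mem_centralizer_singleton_iff.1 g.2)⟩
      invFun := fun s => Sum.elim
        (fun g => ⟨g.1.1, Subgroup.mem_centralizer_singleton_iff.2 g.2⟩)
        (fun g => ⟨g.1.1 * r, Subgroup.mem_centralizer_singleton_iff.2 (hcomm _ g.2)⟩) s
      left_inv := by
        intro g
        by_cases hg : g.1 ∈ Cfsg.Omega F ⇑Q
        · simp [hg]
        · simp [hg, mul_assoc, hrr]
      right_inv := by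
        rintro (g | g)
        · simp [g.1.2]
        · have hg : g.1.1 * r ∉ Cfsg.Omega F ⇑Q := fun hc => (hmem g.1.1).1 hc g.1.2
          simp [hg, mul_assoc, hrr] }
  rw [Nat.card_congr e, Nat.card_sum, two_mul]

theorem card_cent_Omega_of_max [Fintype F] [CharP F 2] (Q : QuadraticForm F (ι → F))
    (hQ : (polarBilin Q).Nondegenerate) (h : Fintype.card F ≠ 2 ∨ Fintype.card ι ≠ 4)
    (x : ↥(Cfsg.isometryGroup F ⇑Q))
    (hU : ∀ v, Q ((((x : GL ι F) : Matrix ι ι F) - 1) *ᵥ v) = 0)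
    (hdim : 2 * (((x : GL ι F) : Matrix ι ι F) - 1).rank = Fintype.card ι) :
    Nat.card (Subgroup.centralizer ({x} : Set ↥(Cfsg.isometryGroup F ⇑Q))) =
      Nat.card {g : ↥(Cfsg.Omega F ⇑Q) // (g : ↥(Cfsg.isometryGroup F ⇑Q)) * x = x * g} := by
  have key : ∀ g : ↥(Cfsg.isometryGroup F ⇑Q), g * x = x * g → g ∈ Cfsg.Omega F ⇑Q := by
    intro g hg
    obtain ⟨l, hl, hgl⟩ := exists_list_reflectionMatrix _ hQ h g
    rw [mem_Omega_iff_of_prod_char_two _ hQ h g l hl hgl]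
    have h3 := even_finrank_inf_map_of_prod Q hQ
      (U := LinearMap.range (Matrix.mulVecLin (((x : GL ι F) : Matrix ι ι F) - 1))) (by
        rintro _ ⟨v, rfl⟩
        exact hU v) hdim g l hl hgl
    have h4 := range_conj (g : GL ι F) (x : GL ι F) (x : GL ι F) (by
      have : g * x * g⁻¹ = x := by rw [hg, mul_inv_cancel_right]
      exact congrArg Subtype.val this)
    rw [← h4, inf_idem, Nat.even_add] at h3
    exact h3.1 (Even.add_self _)
  refine Nat.card_congr ⟨fun g => ⟨⟨g.1, key _ (Subgroup.mem_centralizer_singleton_iff.1 g.2)⟩,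
    Subgroup.mem_centralizer_singleton_iff.1 g.2⟩,
    fun g => ⟨g.1.1, Subgroup.mem_centralizer_singleton_iff.2 g.2⟩, fun g => rfl, fun g => rfl⟩

end Cfsg.Agent.Lib.Helper44
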