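import Cfsg.Agent.Lib.Helper44.OCent5
import Cfsg.Agent.Lib.Helper44.OCent6

/-!
# Orders of centralisers of involutions in `Ω⁺_{2m}(q)`, `q` even
-/

set_option autoImplicit false

namespace Cfsg.Agent.Lib.Helper44

open Matrix QuadraticMap Module Cfsg.Agent.Lib.Helper5

variable {F : Type*} [Field F]

omit [Field F] in
theorem gen_hyp_plus [Fintype F] {m : ℕ} (h : Fintype.card F ≠ 2 ∨ m ≠ 2) :
    Fintype.card F ≠ 2 ∨ Fintype.card (Fin m ⊕ Fin m) ≠ 4 := by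
  rcases h with h | h
  · exact Or.inl h
  · right
    simp only [Fintype.card_sum, Fintype.card_fin]
    omega

theorem card_cent_Omega_plus_of_fixed [Fintype F] [CharP F 2] {m : ℕ}
    (h : Fintype.card F ≠ 2 ∨ m ≠ 2) :
    ∀ (x : ↥(Cfsg.isometryGroup F (Cfsg.quadFormPlus m F))) (w : Fin m ⊕ Fin m → F),
      Cfsg.quadFormPlus m F w ≠ 0 → x.1.1 *ᵥ w = w →
    Nat.card (Subgroup.centralizer ({x} : Set ↥(Cfsg.isometryGroup F (Cfsg.quadFormPlus m F)))) =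
      2 * Nat.card {g : ↥(Cfsg.Omega F (Cfsg.quadFormPlus m F)) //
        (g : ↥(Cfsg.isometryGroup F (Cfsg.quadFormPlus m F))) * x = x * g} := by
  have := card_cent_Omega_of_fixed (plusQF m F) (plusQF_nondeg m F) (gen_hyp_plus h)
  rw [plusQF_coe] at this
  exact this

theorem card_cent_Omega_plus_of_max [Fintype F] [CharP F 2] {m : ℕ}
    (h : Fintype.card F ≠ 2 ∨ m ≠ 2) :
    ∀ (x : ↥(Cfsg.isometryGroup F (Cfsg.quadFormPlus m F))),
      (∀ v, Cfsg.quadFormPlus m F ((x.1.1 - 1) *ᵥ v) = 0) →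
      2 * (x.1.1 - 1).rank = Fintype.card (Fin m ⊕ Fin m) →
    Nat.card (Subgroup.centralizer ({x} : Set ↥(Cfsg.isometryGroup F (Cfsg.quadFormPlus m F)))) =
      Nat.card {g : ↥(Cfsg.Omega F (Cfsg.quadFormPlus m F)) //
        (g : ↥(Cfsg.isometryGroup F (Cfsg.quadFormPlus m F))) * x = x * g} := by
  have := card_cent_Omega_of_max (plusQF m F) (plusQF_nondeg m F) (gen_hyp_plus h)
  rw [plusQF_coe] at this
  exact this

/-- types `b_s`, `c_s`. -/
theorem card_cent_Omega_nonalt [Fintype F] [CharP F 2] {m s : ℕ}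
    (h : Fintype.card F ≠ 2 ∨ m ≠ 2)
    (x : ↥(Cfsg.isometryGroup F (Cfsg.quadFormPlus m F))) (hx : x ^ 2 = 1)
    (hs : (x.1.1 - 1).rank = s)
    (hna : Odd s ∨ ∃ v, Cfsg.quadFormPlus m F ((x.1.1 - 1) *ᵥ v) ≠ 0) :
    1 ≤ s ∧ s ≤ m ∧
    Nat.card {g : ↥(Cfsg.Omega F (Cfsg.quadFormPlus m F)) //
        (g : ↥(Cfsg.isometryGroup F (Cfsg.quadFormPlus m F))) * x = x * g} =
      cntF (1 : Matrix (Fin s) (Fin s) F) *
        (Fintype.card F ^ ((s - 1) * s / 2 + 2 * (s - 1) * (m - s)) *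
          (Fintype.card F ^ ((m - s) ^ 2) *
            ∏ i ∈ Finset.range (m - s), (Fintype.card F ^ (2 * (i + 1)) - 1))) := by
  obtain ⟨h1, ⟨w, hw, hxw⟩, hs1, hsm⟩ := cent_O_nonalt x hx hs hna
  refine ⟨hs1, hsm, ?_⟩
  rw [← plusQF_eq] at hw
  rw [card_cent_Omega_plus_of_fixed h x w hw hxw] at h1
  obtain ⟨k, rfl⟩ : ∃ k, s = k + 1 := ⟨s - 1, by omega⟩
  obtain ⟨m', rfl⟩ : ∃ m', m = m' + 1 := ⟨m - 1, by omega⟩
  rw [card_qFrames_one _ (plusQF_nondeg _ F), finrank_plus, plusQF_coe, card_GO_plus_succ_eq] at h1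
  have hN := card_ones_plus (F := F) (m' + 1)
  generalize Nat.card {v : Fin (m' + 1) ⊕ Fin (m' + 1) → F //
    Cfsg.quadFormPlus (m' + 1) F v = 1} = N at hN h1
  generalize Nat.card {g : ↥(Cfsg.Omega F (Cfsg.quadFormPlus (m' + 1) F)) //
        (g : ↥(Cfsg.isometryGroup F (Cfsg.quadFormPlus (m' + 1) F))) * x = x * g} = C at h1 ⊢
  generalize cntF (1 : Matrix (Fin (k + 1)) (Fin (k + 1)) F) = c at h1 ⊢
  have hq : 1 < Fintype.card F := Fintype.one_lt_card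
  set q := Fintype.card F
  have hkm : k ≤ m' := by omega
  have har := sp_parabolic_arith q m' k hq.le hkm
  have e1 : 2 * (m' + 1) - 2 = 2 * m' := by omega
  have e2 : m' + 1 - (k + 1) = m' - k := by omega
  have e3 : k + 1 - 1 = k := by omega
  rw [e1] at h1
  rw [e2, e3]
  have hNeq : N = q ^ m' * (q ^ (m' + 1) - 1) := by
    apply Nat.eq_of_mul_eq_mul_left (by omega : 0 < q)
    have : q * (q ^ m' * (q ^ (m' + 1) - 1)) = q ^ (2 * (m' + 1)) - q ^ (m' + 1) := by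
      rw [← mul_assoc, ← pow_succ', Nat.mul_sub, mul_one, ← pow_add]
      congr 2
      ring
    rw [this]
    omega
  have hNpos : 0 < N := by
    rw [hNeq]
    apply Nat.mul_pos (pow_pos (by omega) _)
    have : 1 < q ^ (m' + 1) := Nat.one_lt_pow (by omega) hq
    omega
  have hP : 0 < ∏ i : Fin k, (q ^ (2 * m' - (i : ℕ)) - q ^ (i : ℕ)) := by
    apply Finset.prod_pos
    intro i _
    apply Nat.sub_pos_of_lt
    apply Nat.pow_lt_pow_right hq
    have := i.2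
    omega
  have e4 : q ^ ((m' + 1) * m') * (q ^ (m' + 1) - 1) = N * q ^ (m' ^ 2) := by
    rw [hNeq]
    have : q ^ ((m' + 1) * m') = q ^ m' * q ^ (m' ^ 2) := by
      rw [← pow_add]; congr 1; ring
    rw [this]; ring
  rw [e4, mul_assoc N, ← har] at h1
  apply Nat.eq_of_mul_eq_mul_right (Nat.mul_pos (Nat.mul_pos hNpos hP) (by norm_num : 0 < 2))
  calc C * (N * (∏ i : Fin k, (q ^ (2 * m' - (i : ℕ)) - q ^ (i : ℕ))) * 2)
      = 2 * C * (N * ∏ i : Fin k, (q ^ (2 * m' - (i : ℕ)) - q ^ (i : ℕ))) := by ring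
    _ = _ := by rw [h1]; ring

theorem sum_two_mul_sub (m s : ℕ) (hs : s ≤ m) :
    ∑ i ∈ Finset.range s, 2 * (m - i - 1) + s * (s + 1) = 2 * m * s := by
  induction s with
  | zero => simp
  | succ s ih =>
    have ih' := ih (by omega)
    rw [Finset.sum_range_succ]
    obtain ⟨c, rfl⟩ : ∃ c, m = s + 1 + c := ⟨m - (s + 1), by omega⟩
    have e : s + 1 + c - s - 1 = c := by omega
    rw [e]
    have e1 : (s + 1) * (s + 1 + 1) = s * (s + 1) + 2 * (s + 1) := by ring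
    have e2 : 2 * (s + 1 + c) * (s + 1) = 2 * (s + 1 + c) * s + 2 * (s + 1 + c) := by ring
    rw [e1, e2]
    omega

theorem exp_arith_alt {m s : ℕ} (hs : s ≤ m) :
    ∑ i ∈ Finset.range s, 2 * (m - i - 1)
      = ∑ i ∈ Finset.range s, i + (2 * m * s - (3 * s ^ 2 + s) / 2) := by
  have h1 := sum_two_mul_sub m s hs
  rw [Finset.sum_range_id]
  generalize ∑ i ∈ Finset.range s, 2 * (m - i - 1) = A at h1 ⊢
  obtain ⟨c, rfl⟩ := Nat.exists_eq_add_of_le hs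
  rcases Nat.eq_zero_or_pos s with h0 | h0
  · subst h0; simp at h1 ⊢; exact h1
  obtain ⟨t, rfl⟩ : ∃ t, s = t + 1 := ⟨s - 1, by omega⟩
  obtain ⟨a, ha⟩ := Nat.even_mul_succ_self t
  have e0 : (t + 1) * (t + 1 - 1) = a + a := by
    rw [Nat.add_sub_cancel, mul_comm]; exact ha
  rw [e0]
  have e1 : (t + 1) * (t + 1 + 1) = (a + a) + 2 * (t + 1) := by rw [← ha]; ring
  have e2 : 3 * (t + 1) ^ 2 + (t + 1) = 3 * (a + a) + 4 * (t + 1) := by rw [← ha]; ring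
  have e3 : 2 * (t + 1 + c) * (t + 1) = 2 * (a + a) + 2 * (t + 1) + 2 * ((t + 1) * c) := by
    rw [← ha]; ring
  rw [e1, e3] at h1
  rw [e2, e3]
  generalize (t + 1) * c = w at *
  omega

/-- type `a_s`: the centraliser in `O`. -/
theorem card_cent_O_alt [Fintype F] [CharP F 2] {m k : ℕ}
    (x : ↥(Cfsg.isometryGroup F (Cfsg.quadFormPlus m F))) (hx : x ^ 2 = 1)
    (hs : (x.1.1 - 1).rank = 2 * k)
    (halt : ∀ v, Cfsg.quadFormPlus m F ((x.1.1 - 1) *ᵥ v) = 0) :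
    2 * k ≤ m ∧
    Nat.card (Subgroup.centralizer
        ({x} : Set ↥(Cfsg.isometryGroup F (Cfsg.quadFormPlus m F)))) =
      Fintype.card F ^ (2 * m * (2 * k) - (3 * (2 * k) ^ 2 + 2 * k) / 2) *
        (Fintype.card F ^ (k ^ 2) * ∏ i ∈ Finset.range k, (Fintype.card F ^ (2 * (i + 1)) - 1)) *
        Nat.card ↥(Cfsg.isometryGroup F (Cfsg.quadFormPlus (m - 2 * k) F)) := by
  obtain ⟨S, hSu, ha, h1, hpos, hsm⟩ := cent_O_alt x hx hs halt
  refine ⟨hsm, ?_⟩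
  rw [cntF_alt hSu ha, card_symplecticGroup] at h1
  have h2 := card_GO_plus_frames (F := F) m (2 * k) hsm
  rw [Finset.prod_pow_eq_pow_sum, Finset.prod_pow_eq_pow_sum, exp_arith_alt hsm, pow_add] at h2
  have hq : 0 < Fintype.card F := Fintype.card_pos
  apply Nat.eq_of_mul_eq_mul_right
    (Nat.mul_pos hpos (pow_pos hq (∑ i ∈ Finset.range (2 * k), i)))
  rw [← mul_assoc, h1, mul_assoc, h2]
  ring

theorem card_GO_plus_zero [Fintype F] :
    Nat.card ↥(Cfsg.isometryGroup F (Cfsg.quadFormPlus 0 F)) = 1 := by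
  have := card_GO_plus_mul (F := F) 0
  simp only [pow_zero, Finset.range_zero, Finset.prod_empty, mul_one, zero_mul] at this
  omega

/-- type `a_s`. -/
theorem card_cent_Omega_alt [Fintype F] [CharP F 2] {m s : ℕ}
    (h : Fintype.card F ≠ 2 ∨ m ≠ 2)
    (x : ↥(Cfsg.isometryGroup F (Cfsg.quadFormPlus m F))) (hx : x ^ 2 = 1)
    (hs : (x.1.1 - 1).rank = s) (heven : Even s)
    (halt : ∀ v, Cfsg.quadFormPlus m F ((x.1.1 - 1) *ᵥ v) = 0) :
    Nat.card {g : ↥(Cfsg.Omega F (Cfsg.quadFormPlus m F)) //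
        (g : ↥(Cfsg.isometryGroup F (Cfsg.quadFormPlus m F))) * x = x * g} =
      Fintype.card F ^ (2 * m * s - (3 * s ^ 2 + s) / 2) *
        (Fintype.card F ^ ((s / 2) ^ 2) *
          ∏ i : Fin (s / 2), (Fintype.card F ^ (2 * ((i : ℕ) + 1)) - 1)) *
        (if s = m then 1 else Fintype.card F ^ ((m - s) * (m - s - 1)) *
          (Fintype.card F ^ (m - s) - 1) *
          ∏ i : Fin (m - s - 1), (Fintype.card F ^ (2 * ((i : ℕ) + 1)) - 1)) := by
  obtain ⟨k, hk⟩ := heven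
  have hk' : s = 2 * k := by omega
  subst hk'
  obtain ⟨hsm, h1⟩ := card_cent_O_alt x hx hs halt
  have e : 2 * k / 2 = k := by omega
  rw [e, Fin.prod_univ_eq_prod_range (fun i => Fintype.card F ^ (2 * (i + 1)) - 1),
    Fin.prod_univ_eq_prod_range (fun i => Fintype.card F ^ (2 * (i + 1)) - 1)]
  split_ifs with hm
  · rw [← card_cent_Omega_plus_of_max h x halt (by
      rw [hs, hm]; simp [two_mul]), h1]
    have : m - 2 * k = 0 := by omega
    rw [this, card_GO_plus_zero]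
  · obtain ⟨w, hw, hxw⟩ := exists_fixed_nonsingular_of_lt x.1.1 hs (by omega)
    rw [← plusQF_eq] at hw
    rw [card_cent_Omega_plus_of_fixed h x w hw hxw] at h1
    obtain ⟨d, hd⟩ : ∃ d, m - 2 * k = d + 1 := ⟨m - 2 * k - 1, by omega⟩
    rw [hd, card_GO_plus_succ_eq] at h1
    rw [hd, Nat.add_sub_cancel]
    apply Nat.eq_of_mul_eq_mul_left (by norm_num : 0 < 2)
    rw [h1]
    ring

theorem exp_arith_b {m s : ℕ} (h1 : 1 ≤ s) (h : s ≤ m) :
    2 * m * (s - 1) - (3 * s ^ 2 - 3 * s) / 2 = (s - 1) * s / 2 + 2 * (s - 1) * (m - s) := by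
  obtain ⟨c, rfl⟩ := Nat.exists_eq_add_of_le h
  obtain ⟨k, rfl⟩ : ∃ k, s = k + 1 := ⟨s - 1, by omega⟩
  obtain ⟨a, ha⟩ := Nat.even_mul_succ_self k
  have e1 : k + 1 + c - (k + 1) = c := by omega
  rw [e1, Nat.add_sub_cancel, ha]
  have e2 : 3 * (k + 1) ^ 2 = 3 * (a + a) + 3 * (k + 1) := by rw [← ha]; ring
  have e3 : 2 * (k + 1 + c) * k = 2 * (a + a) + 2 * (k * c) := by rw [← ha]; ring
  have e4 : 2 * k * c = 2 * (k * c) := by ring
  rw [e2, e3, e4]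
  generalize k * c = w at *
  omega

theorem exp_arith_c {m s : ℕ} (h1 : 2 ≤ s) (h : s ≤ m) :
    2 * m * (s - 1) - (3 * s ^ 2 - 5 * s) / 2 - 1
      = (s - 1) + ((s - 1) * s / 2 + 2 * (s - 1) * (m - s)) := by
  obtain ⟨c, rfl⟩ := Nat.exists_eq_add_of_le h
  obtain ⟨k, rfl⟩ : ∃ k, s = k + 1 := ⟨s - 1, by omega⟩
  obtain ⟨a, ha⟩ := Nat.even_mul_succ_self k
  have e1 : k + 1 + c - (k + 1) = c := by omega
  rw [e1, Nat.add_sub_cancel, ha]
  have e2 : 3 * (k + 1) ^ 2 = 3 * (a + a) + 3 * (k + 1) := by rw [← ha]; ring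
  have e3 : 2 * (k + 1 + c) * k = 2 * (a + a) + 2 * (k * c) := by rw [← ha]; ring
  have e4 : 2 * k * c = 2 * (k * c) := by ring
  have e5 : k ≤ a + a := by
    rw [← ha]; exact Nat.le_mul_of_pos_right k (Nat.succ_pos k)
  rw [e2, e3, e4]
  generalize k * c = w at *
  omega

theorem card_cent_Omega_b [Fintype F] [CharP F 2] {m s : ℕ}
    (h : Fintype.card F ≠ 2 ∨ m ≠ 2)
    (x : ↥(Cfsg.isometryGroup F (Cfsg.quadFormPlus m F))) (hx : x ^ 2 = 1)
    (hs : (x.1.1 - 1).rank = s) (hodd : Odd s) :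
    Nat.card {g : ↥(Cfsg.Omega F (Cfsg.quadFormPlus m F)) //
        (g : ↥(Cfsg.isometryGroup F (Cfsg.quadFormPlus m F))) * x = x * g} =
      Fintype.card F ^ (2 * m * (s - 1) - (3 * s ^ 2 - 3 * s) / 2) *
        (Fintype.card F ^ (((s - 1) / 2) ^ 2) *
          ∏ i : Fin ((s - 1) / 2), (Fintype.card F ^ (2 * ((i : ℕ) + 1)) - 1)) *
        (Fintype.card F ^ ((m - s) ^ 2) *
          ∏ i : Fin (m - s), (Fintype.card F ^ (2 * ((i : ℕ) + 1)) - 1)) := by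
  obtain ⟨hs1, hsm, h1⟩ := card_cent_Omega_nonalt h x hx hs (Or.inl hodd)
  obtain ⟨k, rfl⟩ := hodd
  rw [h1, cntF_one_odd, card_symplecticGroup, exp_arith_b hs1 hsm,
    Fin.prod_univ_eq_prod_range (fun i => Fintype.card F ^ (2 * (i + 1)) - 1),
    Fin.prod_univ_eq_prod_range (fun i => Fintype.card F ^ (2 * (i + 1)) - 1)]
  have e : (2 * k + 1 - 1) / 2 = k := by omega
  rw [e]
  ring

theorem card_cent_Omega_c [Fintype F] [CharP F 2] {m s : ℕ}
    (h : Fintype.card F ≠ 2 ∨ m ≠ 2)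
    (x : ↥(Cfsg.isometryGroup F (Cfsg.quadFormPlus m F))) (hx : x ^ 2 = 1)
    (hs : (x.1.1 - 1).rank = s) (heven : Even s)
    (hna : ∃ v, Cfsg.quadFormPlus m F ((x.1.1 - 1) *ᵥ v) ≠ 0) :
    Nat.card {g : ↥(Cfsg.Omega F (Cfsg.quadFormPlus m F)) //
        (g : ↥(Cfsg.isometryGroup F (Cfsg.quadFormPlus m F))) * x = x * g} =
      Fintype.card F ^ (2 * m * (s - 1) - (3 * s ^ 2 - 5 * s) / 2 - 1) *
        (Fintype.card F ^ (((s - 2) / 2) ^ 2) *
          ∏ i : Fin ((s - 2) / 2), (Fintype.card F ^ (2 * ((i : ℕ) + 1)) - 1)) *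
        (Fintype.card F ^ ((m - s) ^ 2) *
          ∏ i : Fin (m - s), (Fintype.card F ^ (2 * ((i : ℕ) + 1)) - 1)) := by
  obtain ⟨hs1, hsm, h1⟩ := card_cent_Omega_nonalt h x hx hs (Or.inr hna)
  obtain ⟨k', hk'⟩ := heven
  obtain ⟨k, rfl⟩ : ∃ k, s = 2 * (k + 1) := ⟨k' - 1, by omega⟩
  rw [h1, cntF_one_even, exp_arith_c (by omega) hsm,
    Fin.prod_univ_eq_prod_range (fun i => Fintype.card F ^ (2 * (i + 1)) - 1),
    Fin.prod_univ_eq_prod_range (fun i => Fintype.card F ^ (2 * (i + 1)) - 1),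
    Fin.prod_univ_eq_prod_range (fun i => Fintype.card F ^ (2 * (i + 1)) - 1)]
  have e : (2 * (k + 1) - 2) / 2 = k := by omega
  rw [e, pow_add]
  ring

end Cfsg.Agent.Lib.Helper44
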