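import Cfsg.Agent.Lib.Helper44.PolarPair
import Cfsg.Agent.Lib.Helper44.InvBlocks
import Cfsg.Agent.Lib.Helper44.Grouping

/-!
# Orthogonal decompositions into planes permuted by an isometry whose square is a scalar
-/

namespace Cfsg.Agent.Lib.Helper44

open Submodule Module

section PlaneSys

variable {F V : Type*} [Field F] [AddCommGroup V] [Module F V]
  {β : LinearMap.BilinForm F V}

/-- `Y` is an orthogonal sum of hyperbolic planes `⟨e i, f i⟩` permuted by `X`, through an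
involution of the index set -/
def HasPlaneSys (β : LinearMap.BilinForm F V) (X : V →ₗ[F] V) (Y : Submodule F V) : Prop :=
  ∃ (ι : Type) (_ : Fintype ι) (e f : ι → V) (π : ι → ι), (∀ i, π (π i) = i) ∧
    (∀ i, β (e i) (f i) ≠ 0) ∧
    (∀ i j, i ≠ j → β (e i) (e j) = 0 ∧ β (e i) (f j) = 0 ∧ β (f i) (e j) = 0 ∧
      β (f i) (f j) = 0) ∧
    (∀ i, X (e i) ∈ span F {e (π i), f (π i)} ∧ X (f i) ∈ span F {e (π i), f (π i)}) ∧
    span F (Set.range e ∪ Set.range f) = Y

theorem HasPlaneSys.bot (X : V →ₗ[F] V) : HasPlaneSys β X ⊥ :=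
  ⟨Empty, inferInstance, fun i => i.elim, fun i => i.elim, fun i => i, fun i => i.elim,
    fun i => i.elim, fun i => i.elim, fun i => i.elim, by simp⟩

theorem HasPlaneSys.sum (halt : β.IsAlt) {X : V →ₗ[F] V} {Y₁ Y₂ : Submodule F V}
    (A : HasPlaneSys β X Y₁) (B : HasPlaneSys β X Y₂) (h : ∀ u ∈ Y₁, ∀ v ∈ Y₂, β u v = 0) :
    HasPlaneSys β X (Y₁ ⊔ Y₂) := by
  obtain ⟨ι₁, _, e₁, f₁, π₁, h1, h2, h3, h4, h5⟩ := A
  obtain ⟨ι₂, _, e₂, f₂, π₂, k1, k2, k3, k4, k5⟩ := B
  have h' : ∀ u ∈ Y₁, ∀ v ∈ Y₂, β v u = 0 := by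
    intro u hu v hv
    rw [← halt.neg_eq, h u hu v hv, neg_zero]
  have he₁ : ∀ i, e₁ i ∈ Y₁ := fun i => h5 ▸ subset_span (Or.inl ⟨i, rfl⟩)
  have hf₁ : ∀ i, f₁ i ∈ Y₁ := fun i => h5 ▸ subset_span (Or.inr ⟨i, rfl⟩)
  have he₂ : ∀ i, e₂ i ∈ Y₂ := fun i => k5 ▸ subset_span (Or.inl ⟨i, rfl⟩)
  have hf₂ : ∀ i, f₂ i ∈ Y₂ := fun i => k5 ▸ subset_span (Or.inr ⟨i, rfl⟩)
  refine ⟨ι₁ ⊕ ι₂, inferInstance, Sum.elim e₁ e₂, Sum.elim f₁ f₂, Sum.map π₁ π₂, ?_, ?_, ?_, ?_, ?_⟩
  · rintro (i | i)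
    · simp [h1]
    · simp [k1]
  · rintro (i | i)
    · exact h2 i
    · exact k2 i
  · rintro (i | i) (j | j) hij
    · exact h3 i j (fun h => hij (by rw [h]))
    · exact ⟨h _ (he₁ i) _ (he₂ j), h _ (he₁ i) _ (hf₂ j), h _ (hf₁ i) _ (he₂ j),
        h _ (hf₁ i) _ (hf₂ j)⟩
    · exact ⟨h' _ (he₁ j) _ (he₂ i), h' _ (hf₁ j) _ (he₂ i), h' _ (he₁ j) _ (hf₂ i),
        h' _ (hf₁ j) _ (hf₂ i)⟩
    · exact k3 i j (fun h => hij (by rw [h]))
  · rintro (i | i)
    · exact h4 i
    · exact k4 i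
  · rw [Set.Sum.elim_range, Set.Sum.elim_range, ← h5, ← k5, ← span_union]
    congr 1
    ext v
    simp only [Set.mem_union]
    tauto

theorem HasPlaneSys.single {X : V →ₗ[F] V} {a b : V} (hab : β a b ≠ 0)
    (hXa : X a ∈ span F {a, b}) (hXb : X b ∈ span F {a, b}) :
    HasPlaneSys β X (span F {a, b}) :=
  ⟨Unit, inferInstance, fun _ => a, fun _ => b, fun i => i, fun _ => rfl, fun _ => hab,
    fun _ _ h => absurd rfl h, fun _ => ⟨hXa, hXb⟩, by
      rw [Set.range_const, Set.range_const]; rfl⟩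

theorem HasPlaneSys.swap (halt : β.IsAlt) {X : V →ₗ[F] V} (hX : ∀ u v, β (X u) (X v) = β u v)
    {z : F} (hXX : ∀ v, X (X v) = z • v) {v w : V} (hvw : β v w ≠ 0)
    (h1 : β v (X v) = 0) (h2 : β v (X w) = 0) (h3 : β w (X v) = 0) (h4 : β w (X w) = 0) :
    HasPlaneSys β X (span F {v, w} ⊔ span F {X v, X w}) := by
  refine ⟨Fin 2, inferInstance, ![v, X v], ![w, X w], ![1, 0], ?_, ?_, ?_, ?_, ?_⟩
  · intro i
    fin_cases i <;> rfl
  · intro i
    fin_cases i
    · exact hvw
    · change β (X v) (X w) ≠ 0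
      rw [hX]; exact hvw
  · intro i j hij
    fin_cases i <;> fin_cases j
    · exact absurd rfl hij
    · exact ⟨h1, h2, h3, h4⟩
    · refine ⟨?_, ?_, ?_, ?_⟩
      · change β (X v) v = 0
        rw [← halt.neg_eq, h1, neg_zero]
      · change β (X v) w = 0
        rw [← halt.neg_eq, h3, neg_zero]
      · change β (X w) v = 0
        rw [← halt.neg_eq, h2, neg_zero]
      · change β (X w) w = 0
        rw [← halt.neg_eq, h4, neg_zero]
    · exact absurd rfl hij
  · intro i
    fin_cases i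
    · exact ⟨subset_span (Or.inl rfl), subset_span (Or.inr rfl)⟩
    · constructor
      · change X (X v) ∈ span F {v, w}
        rw [hXX]
        exact smul_mem _ _ (subset_span (Or.inl rfl))
      · change X (X w) ∈ span F {v, w}
        rw [hXX]
        exact smul_mem _ _ (subset_span (Or.inr rfl))
  · rw [← span_union]
    congr 1
    ext u
    simp only [Matrix.range_cons, Matrix.range_empty, Set.mem_union, Set.mem_insert_iff,
      Set.mem_singleton_iff, Set.union_empty]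
    tauto

theorem exists_separating {Y : Submodule F V} (hY : NDOn β Y) {v u : V}
    (hv : v ∈ Y) (hu : u ∈ Y) (hv0 : v ≠ 0) (hne : u ∉ span F {v}) :
    ∃ w ∈ Y, β v w ≠ 0 ∧ β u w = 0 := by
  by_contra hcon
  push Not at hcon
  have hcon' : ∀ w ∈ Y, β u w = 0 → β v w = 0 := by
    intro w hw h
    by_contra h'
    exact hcon w hw h' h
  have hu0 : u ≠ 0 := by
    rintro rfl
    exact hne (zero_mem _)
  obtain ⟨w₀, hw₀, hw₀'⟩ : ∃ w₀ ∈ Y, β u w₀ ≠ 0 := by
    by_contra h
    push Not at h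
    exact hu0 (hY u hu h)
  have h1 : v - (β v w₀ / β u w₀) • u = 0 := by
    apply hY _ (sub_mem hv (smul_mem _ _ hu))
    intro y hy
    have h2 := hcon' (y - (β u y / β u w₀) • w₀) (sub_mem hy (smul_mem _ _ hw₀))
      (by rw [map_sub, map_smul, smul_eq_mul, div_mul_cancel₀ _ hw₀', sub_self])
    rw [map_sub, map_smul, smul_eq_mul, sub_eq_zero] at h2
    rw [map_sub, map_smul, LinearMap.sub_apply, LinearMap.smul_apply, smul_eq_mul, h2]
    field_simp
    ring
  rw [sub_eq_zero] at h1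
  generalize β v w₀ / β u w₀ = c at h1
  have hc : c ≠ 0 := by
    intro h
    rw [h, zero_smul] at h1
    exact hv0 h1
  apply hne
  rw [mem_span_singleton]
  refine ⟨c⁻¹, ?_⟩
  rw [h1, smul_smul, inv_mul_cancel₀ hc, one_smul]

theorem planeSys_stepA [FiniteDimensional F V] (halt : β.IsAlt) {X : V →ₗ[F] V}
    (hX : ∀ u v, β (X u) (X v) = β u v) {z : F} (hz : z ≠ 0) (hXX : ∀ v, X (X v) = z • v)
    {Y : Submodule F V} (hY : NDOn β Y) (hinv : ∀ y ∈ Y, X y ∈ Y) {a b : V} (ha : a ∈ Y)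
    (hb : b ∈ Y) (hab : β a b ≠ 0) {α₁ γ₁ α₂ γ₂ : F} (hXa : X a = α₁ • a + γ₁ • b)
    (hXb : X b = α₂ • a + γ₂ • b)
    (ih : ∀ Y' : Submodule F V, finrank F Y' < finrank F Y → NDOn β Y' → (∀ y ∈ Y', X y ∈ Y') →
      HasPlaneSys β X Y') : HasPlaneSys β X Y := by
  obtain ⟨p1, p2, p3⟩ := peel halt hY ha hb hab
  have hB := ih _ p2 p1 (peel_inv hX hXX hz hinv hXa hXb)
  have hA : HasPlaneSys β X (span F {a, b}) :=
    HasPlaneSys.single hab (mem_span_pair.2 ⟨_, _, hXa.symm⟩) (mem_span_pair.2 ⟨_, _, hXb.symm⟩)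
  have hsup : span F {a, b} ⊔ (Y ⊓ LinearMap.ker (β a) ⊓ LinearMap.ker (β b)) = Y := by
    apply le_antisymm
    · refine sup_le ?_ (inf_le_left.trans inf_le_left)
      rw [span_le]
      rintro _ (rfl | rfl)
      · exact ha
      · exact hb
    · intro y hy
      obtain ⟨α, γ, y', hy', rfl⟩ := p3 y hy
      exact add_mem (mem_sup_left (mem_span_pair.2 ⟨_, _, rfl⟩)) (mem_sup_right hy')
  rw [← hsup]
  refine hA.sum halt hB ?_
  rintro u hu y ⟨⟨-, hy2⟩, hy3⟩
  replace hy2 : β a y = 0 := hy2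
  replace hy3 : β b y = 0 := hy3
  obtain ⟨α, γ, rfl⟩ := mem_span_pair.1 hu
  rw [map_add, map_smul, map_smul, LinearMap.add_apply, LinearMap.smul_apply,
    LinearMap.smul_apply, hy2, hy3, smul_zero, smul_zero, add_zero]

theorem hasPlaneSys [FiniteDimensional F V] (halt : β.IsAlt) {X : V →ₗ[F] V}
    (hX : ∀ u v, β (X u) (X v) = β u v) {z : F} (hz : z ≠ 0) (hXX : ∀ v, X (X v) = z • v) :
    ∀ (n : ℕ) (Y : Submodule F V), finrank F Y = n → NDOn β Y → (∀ y ∈ Y, X y ∈ Y) →
      HasPlaneSys β X Y := by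
  intro n
  induction n using Nat.strong_induction_on with
  | _ n ih =>
    intro Y hn hY hinv
    have ih' : ∀ Y' : Submodule F V, finrank F Y' < finrank F Y → NDOn β Y' →
        (∀ y ∈ Y', X y ∈ Y') → HasPlaneSys β X Y' := by
      intro Y' h1 h2 h3
      exact ih _ (by rw [← hn]; exact h1) Y' rfl h2 h3
    by_cases hbot : Y = ⊥
    · rw [hbot]; exact HasPlaneSys.bot X
    by_cases h1 : ∃ v ∈ Y, β v (X v) ≠ 0
    · obtain ⟨v, hv, hv'⟩ := h1
      exact planeSys_stepA halt hX hz hXX hY hinv hv (hinv v hv) hv'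
        (α₁ := 0) (γ₁ := 1) (α₂ := z) (γ₂ := 0) (by rw [zero_smul, one_smul, zero_add])
        (by rw [hXX, zero_smul, add_zero]) ih'
    push Not at h1
    by_cases h2 : ∃ v ∈ Y, X v ∉ span F {v}
    · obtain ⟨v, hv, hv'⟩ := h2
      have hv0 : v ≠ 0 := by
        rintro rfl
        apply hv'
        rw [map_zero]
        exact zero_mem _
      obtain ⟨w, hw, hvw, hw'⟩ := exists_separating hY hv (hinv v hv) hv0 hv'
      have q1 : β v (X v) = 0 := h1 v hv
      have q4 : β w (X w) = 0 := h1 w hw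
      have q3 : β w (X v) = 0 := by rw [← halt.neg_eq, hw', neg_zero]
      have q2 : β v (X w) = 0 := by
        rw [← hX, hXX, map_smul, hw', smul_zero]
      obtain ⟨p1, p2, p3⟩ := peel halt hY hv hw hvw
      have hXv1 : X v ∈ Y ⊓ LinearMap.ker (β v) ⊓ LinearMap.ker (β w) :=
        ⟨⟨hinv v hv, q1⟩, q3⟩
      have hXw1 : X w ∈ Y ⊓ LinearMap.ker (β v) ⊓ LinearMap.ker (β w) :=
        ⟨⟨hinv w hw, q2⟩, q4⟩
      have hvw' : β (X v) (X w) ≠ 0 := by rw [hX]; exact hvw
      obtain ⟨r1, r2, r3⟩ := peel halt p1 hXv1 hXw1 hvw'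
      set Y2 : Submodule F V := Y ⊓ LinearMap.ker (β v) ⊓ LinearMap.ker (β w) ⊓
        LinearMap.ker (β (X v)) ⊓ LinearMap.ker (β (X w)) with hY2
      have hmem : ∀ y, y ∈ Y2 ↔ y ∈ Y ∧ β v y = 0 ∧ β w y = 0 ∧ β (X v) y = 0 ∧ β (X w) y = 0 := by
        intro y
        rw [hY2, mem_inf, mem_inf, mem_inf, mem_inf, LinearMap.mem_ker, LinearMap.mem_ker,
          LinearMap.mem_ker, LinearMap.mem_ker]
        tauto
      have hinv2 : ∀ y ∈ Y2, X y ∈ Y2 := by
        intro y hy
        rw [hmem] at hy ⊢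
        obtain ⟨y0, y1, y2, y3, y4⟩ := hy
        refine ⟨hinv y y0, ?_, ?_, ?_, ?_⟩
        · rw [← hX, hXX, map_smul, y3, smul_zero]
        · rw [← hX, hXX, map_smul, y4, smul_zero]
        · rw [hX, y1]
        · rw [hX, y2]
      have hB := ih' Y2 (r2.trans p2) r1 hinv2
      have hA := HasPlaneSys.swap halt hX hXX hvw q1 q2 q3 q4
      have hsup : (span F {v, w} ⊔ span F {X v, X w}) ⊔ Y2 = Y := by
        apply le_antisymm
        · refine sup_le (sup_le ?_ ?_) (fun y hy => ((hmem y).1 hy).1)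
          · rw [span_le]
            rintro _ (rfl | rfl)
            · exact hv
            · exact hw
          · rw [span_le]
            rintro _ (rfl | rfl)
            · exact hinv _ hv
            · exact hinv _ hw
        · intro y hy
          obtain ⟨α, γ, y', hy', rfl⟩ := p3 y hy
          obtain ⟨α', γ', y'', hy'', rfl⟩ := r3 y' hy'
          rw [← add_assoc]
          exact add_mem (mem_sup_left (add_mem (mem_sup_left (mem_span_pair.2 ⟨_, _, rfl⟩))
            (mem_sup_right (mem_span_pair.2 ⟨_, _, rfl⟩)))) (mem_sup_right hy'')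
      rw [← hsup]
      refine hA.sum halt hB ?_
      intro u hu y hy
      obtain ⟨-, y1, y2, y3, y4⟩ := (hmem y).1 hy
      have hle : span F {v, w} ⊔ span F {X v, X w} ≤ LinearMap.ker (β.flip y) := by
        refine sup_le ?_ ?_
        · rw [span_le]
          rintro _ (rfl | rfl)
          · exact y1
          · exact y2
        · rw [span_le]
          rintro _ (rfl | rfl)
          · exact y3
          · exact y4
      exact hle hu
    · push Not at h2
      obtain ⟨a, ha, ha0⟩ := (Submodule.ne_bot_iff Y).1 hbot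
      obtain ⟨b, hb, hab⟩ : ∃ b ∈ Y, β a b ≠ 0 := by
        by_contra h
        push Not at h
        exact ha0 (hY a ha h)
      obtain ⟨c, hc⟩ := mem_span_singleton.1 (h2 a ha)
      obtain ⟨c', hc'⟩ := mem_span_singleton.1 (h2 b hb)
      exact planeSys_stepA halt hX hz hXX hY hinv ha hb hab
        (α₁ := c) (γ₁ := 0) (α₂ := 0) (γ₂ := c') (by rw [zero_smul, add_zero, hc])
        (by rw [zero_smul, zero_add, hc']) ih'

theorem bilin_span_zero {S T : Set V} (h : ∀ x ∈ S, ∀ y ∈ T, β x y = 0) :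
    ∀ u ∈ span F S, ∀ v ∈ span F T, β u v = 0 := by
  have h1 : ∀ u ∈ span F S, ∀ y ∈ T, β u y = 0 := by
    intro u hu y hy
    have hle : span F S ≤ LinearMap.ker (β.flip y) := by
      rw [span_le]
      intro x hx
      exact h x hx y hy
    exact hle hu
  intro u hu v hv
  have hle : span F T ≤ LinearMap.ker (β u) := by
    rw [span_le]
    intro y hy
    exact h1 u hu y hy
  exact hle hv

theorem linearIndependent_of_dual {κ : Type*} {b b' : κ → V} (h1 : ∀ k, β (b k) (b' k) ≠ 0)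
    (h2 : ∀ k l, k ≠ l → β (b k) (b' l) = 0) : LinearIndependent F b := by
  classical
  rw [linearIndependent_iff']
  intro s c hc l hl
  have h3 : β (∑ k ∈ s, c k • b k) (b' l) = 0 := by rw [hc, map_zero, LinearMap.zero_apply]
  rw [map_sum, LinearMap.sum_apply, Finset.sum_eq_single l] at h3
  · rw [map_smul, LinearMap.smul_apply, smul_eq_mul] at h3
    exact (mul_eq_zero.1 h3).resolve_right (h1 l)
  · intro k _ hk
    rw [map_smul, LinearMap.smul_apply, h2 k l hk, smul_zero]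
  · intro h
    exact absurd hl h

theorem plane_grouping [FiniteDimensional F V] (hβ : β.Nondegenerate) (halt : β.IsAlt)
    {X : V →ₗ[F] V} (hinj : Function.Injective X) (h : HasPlaneSys β X ⊤) {a t : ℕ} (ha : 0 < a)
    (hdim : finrank F V = 2 * a * t) :
    ∃ D : Fin t → Submodule F V, (∀ j, finrank F (D j) = 2 * a) ∧ iSupIndep D ∧ iSup D = ⊤ ∧
      (∀ j, ∀ u ∈ D j, u ≠ 0 → ∃ v ∈ D j, β u v ≠ 0) ∧
      (∀ j j', j ≠ j' → ∀ u ∈ D j, ∀ v ∈ D j', β u v = 0) ∧
      ∃ σ : Equiv.Perm (Fin t), ∀ j, (D j).map X = D (σ j) := by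
  classical
  obtain ⟨ι, _, e, f, π, h1, h2, h3, h4, h5⟩ := h
  have hli : LinearIndependent F (Sum.elim e f) := by
    refine linearIndependent_of_dual (β := β) (b' := Sum.elim f e) ?_ ?_
    · rintro (i | i)
      · exact h2 i
      · change β (f i) (e i) ≠ 0
        rw [← halt.neg_eq, neg_ne_zero]
        exact h2 i
    · rintro (i | i) (j | j) hij
      · exact (h3 i j (fun h => hij (by rw [h]))).2.1
      · change β (e i) (e j) = 0
        by_cases hij' : i = j
        · rw [hij']; exact halt _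
        · exact (h3 i j hij').1
      · change β (f i) (f j) = 0
        by_cases hij' : i = j
        · rw [hij']; exact halt _
        · exact (h3 i j hij').2.2.2
      · exact (h3 i j (fun h => hij (by rw [h]))).2.2.1
  have hsp : span F (Set.range (Sum.elim e f)) = ⊤ := by
    rw [Set.Sum.elim_range, h5]
  have hcard : Fintype.card ι = a * t := by
    have h6 := finrank_span_eq_card hli
    rw [hsp, finrank_top, hdim, Fintype.card_sum] at h6
    nlinarith
  obtain ⟨blk, hb1, hb2⟩ := inv_blocks h1 ha hcard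
  have hg : ∀ j, Fintype.card {k // Sum.elim blk blk k = j} = 2 * a := by
    intro j
    rw [Fintype.card_congr (Equiv.subtypeSum (p := fun k => Sum.elim blk blk k = j)),
      Fintype.card_sum]
    simp only [Sum.elim_inl, Sum.elim_inr]
    rw [two_mul]
    congr 1 <;> exact (Fintype.card_congr (Equiv.refl _)).trans (hb1 j)
  obtain ⟨g1, g2, g3⟩ := grouping hli hsp.ge (Sum.elim blk blk) hg
  have horth : ∀ j j', j ≠ j' → ∀ u ∈ blockSpan F (Sum.elim e f) (Sum.elim blk blk) j,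
      ∀ v ∈ blockSpan F (Sum.elim e f) (Sum.elim blk blk) j', β u v = 0 := by
    intro j j' hjj'
    refine bilin_span_zero ?_
    rintro _ ⟨k, hk, rfl⟩ _ ⟨l, hl, rfl⟩
    have hkl : Sum.elim blk blk k ≠ Sum.elim blk blk l := by
      rw [show Sum.elim blk blk k = j from hk, show Sum.elim blk blk l = j' from hl]
      exact hjj'
    rcases k with i | i <;> rcases l with i' | i'
    · exact (h3 i i' (fun h => hkl (by rw [h]))).1
    · exact (h3 i i' (fun h => hkl (by rw [h]; rfl))).2.1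
    · exact (h3 i i' (fun h => hkl (by rw [h]; rfl))).2.2.1
    · exact (h3 i i' (fun h => hkl (by rw [h]))).2.2.2
  refine ⟨blockSpan F (Sum.elim e f) (Sum.elim blk blk), g1, g2, g3, ?_, horth,
    grouping_perm hli hsp.ge (by omega) _ hg hinj ?_⟩
  · intro j u hu hu0
    by_contra hcon
    push Not at hcon
    apply hu0
    apply hβ.1
    intro v
    have hle : span F (Set.range (Sum.elim e f)) ≤ LinearMap.ker (β u) := by
      rw [span_le]
      rintro _ ⟨k, rfl⟩
      by_cases hk : Sum.elim blk blk k = j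
      · exact hcon _ (hk ▸ mem_blockSpan _ _ k)
      · exact horth j _ (fun h => hk h.symm) u hu _ (mem_blockSpan _ _ k)
    rw [hsp] at hle
    exact hle trivial
  · intro j
    obtain ⟨j', hj'⟩ := hb2 j
    refine ⟨j', ?_⟩
    have hle : ∀ i, blk i = j → span F {e (π i), f (π i)} ≤
        blockSpan F (Sum.elim e f) (Sum.elim blk blk) j' := by
      intro i hi
      rw [span_le]
      rintro _ (rfl | rfl)
      · have := mem_blockSpan (F := F) (Sum.elim e f) (Sum.elim blk blk) (Sum.inl (π i))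
        rwa [Sum.elim_inl, Sum.elim_inl, hj' i hi] at this
      · have := mem_blockSpan (F := F) (Sum.elim e f) (Sum.elim blk blk) (Sum.inr (π i))
        rwa [Sum.elim_inr, Sum.elim_inr, hj' i hi] at this
    rintro (i | i) hi
    · exact hle i hi (h4 i).1
    · exact hle i hi (h4 i).2

end PlaneSys

end Cfsg.Agent.Lib.Helper44
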