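import Mathlib

set_option autoImplicit false

namespace Cfsg.Agent.Lib.Helper44

open Module

section

variable {F V : Type*} [Field F] [AddCommGroup V] [Module F V]
  (β : LinearMap.BilinForm F V)

/-- the form is non-degenerate on the subspace -/
def NDOn (Y : Submodule F V) : Prop := ∀ y ∈ Y, (∀ y' ∈ Y, β y y' = 0) → y = 0

/-- the form vanishes on the subspace -/
def TIOn (Y : Submodule F V) : Prop := ∀ y ∈ Y, ∀ y' ∈ Y, β y y' = 0

variable {β}

theorem peel [FiniteDimensional F V] (halt : β.IsAlt) {Y : Submodule F V} (hY : NDOn β Y) {a b : V}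
    (ha : a ∈ Y) (hb : b ∈ Y) (hab : β a b ≠ 0) :
    NDOn β (Y ⊓ LinearMap.ker (β a) ⊓ LinearMap.ker (β b)) ∧
    finrank F ↥(Y ⊓ LinearMap.ker (β a) ⊓ LinearMap.ker (β b)) < finrank F Y ∧
    ∀ y ∈ Y, ∃ α γ : F, ∃ y' ∈ Y ⊓ LinearMap.ker (β a) ⊓ LinearMap.ker (β b),
      y = α • a + γ • b + y' := by
  have hba : β b a = - β a b := (halt.neg_eq a b).symm
  have haa : β a a = 0 := halt a
  have hbb : β b b = 0 := halt b
  have hdec : ∀ y ∈ Y, ∃ α γ : F, ∃ y' ∈ Y ⊓ LinearMap.ker (β a) ⊓ LinearMap.ker (β b),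
      y = α • a + γ • b + y' := by
    intro y hy
    refine ⟨-(β b y / β a b), β a y / β a b, y - (-(β b y / β a b)) • a - (β a y / β a b) • b,
      ⟨⟨?_, ?_⟩, ?_⟩, by abel⟩
    · exact Y.sub_mem (Y.sub_mem hy (Y.smul_mem _ ha)) (Y.smul_mem _ hb)
    · change β a _ = 0
      simp only [map_sub, map_smul, smul_eq_mul, haa]
      field_simp
      ring
    · change β b _ = 0
      simp only [map_sub, map_smul, smul_eq_mul, hbb, hba]
      field_simp
      ring
  refine ⟨?_, ?_, hdec⟩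
  · rintro y ⟨⟨hy1, hy2⟩, hy3⟩ hy
    apply hY y hy1
    intro z hz
    obtain ⟨α, γ, z', hz', rfl⟩ := hdec z hz
    replace hy2 : β a y = 0 := hy2
    replace hy3 : β b y = 0 := hy3
    have e1 : β y a = 0 := by rw [← halt.neg_eq, hy2, neg_zero]
    have e2 : β y b = 0 := by rw [← halt.neg_eq, hy3, neg_zero]
    simp only [map_add, map_smul, smul_eq_mul, e1, e2, hy z' hz', mul_zero, add_zero]
  · apply Submodule.finrank_lt_finrank_of_lt
    refine lt_of_le_of_ne (inf_le_left.trans inf_le_left) ?_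
    intro h
    have h1 : a ∈ Y ⊓ LinearMap.ker (β a) ⊓ LinearMap.ker (β b) := by rw [h]; exact ha
    have h2 : β b a = 0 := h1.2
    rw [hba, neg_eq_zero] at h2
    exact hab h2

theorem peel_inv {X : V →ₗ[F] V} (hX : ∀ u v, β (X u) (X v) = β u v) {z : F}
    (hXX : ∀ v, X (X v) = z • v) (hz : z ≠ 0) {Y : Submodule F V} (hYX : ∀ y ∈ Y, X y ∈ Y) {a b : V}
    {α₁ γ₁ α₂ γ₂ : F} (hXa : X a = α₁ • a + γ₁ • b) (hXb : X b = α₂ • a + γ₂ • b) :
    ∀ y ∈ Y ⊓ LinearMap.ker (β a) ⊓ LinearMap.ker (β b),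
      X y ∈ Y ⊓ LinearMap.ker (β a) ⊓ LinearMap.ker (β b) := by
  rintro y ⟨⟨hy1, hy2⟩, hy3⟩
  replace hy2 : β a y = 0 := hy2
  replace hy3 : β b y = 0 := hy3
  have key : ∀ c : V, β (X c) y = 0 → β c (X y) = 0 := by
    intro c hc
    have h1 : c = X (z⁻¹ • X c) := by
      rw [map_smul, hXX, smul_smul, inv_mul_cancel₀ hz, one_smul]
    rw [h1, hX, map_smul, LinearMap.smul_apply, hc, smul_zero]
  refine ⟨⟨hYX y hy1, ?_⟩, ?_⟩
  · change β a _ = 0
    apply key
    rw [hXa]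
    simp [hy2, hy3]
  · change β b _ = 0
    apply key
    rw [hXb]
    simp [hy2, hy3]

theorem assemble (halt : β.IsAlt) {Y Y' U' W' : Submodule F V} {a b : V} (hab : β a b ≠ 0)
    (hY' : ∀ y ∈ Y', β a y = 0 ∧ β b y = 0) (ha : a ∈ Y) (hb : b ∈ Y) (hY'Y : Y' ≤ Y)
    (hdec : ∀ y ∈ Y, ∃ α γ : F, ∃ y' ∈ Y', y = α • a + γ • b + y')
    (hsup : U' ⊔ W' = Y') (hdis : Disjoint U' W') (hU' : TIOn β U') (hW' : TIOn β W') :
    (Submodule.span F {a} ⊔ U') ⊔ (Submodule.span F {b} ⊔ W') = Y ∧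
    Disjoint (Submodule.span F {a} ⊔ U') (Submodule.span F {b} ⊔ W') ∧
    TIOn β (Submodule.span F {a} ⊔ U') ∧ TIOn β (Submodule.span F {b} ⊔ W') := by
  have hU'Y' : U' ≤ Y' := hsup ▸ le_sup_left
  have hW'Y' : W' ≤ Y' := hsup ▸ le_sup_right
  have hmem : ∀ (c : V) (S : Submodule F V) (x : V), x ∈ Submodule.span F {c} ⊔ S ↔
      ∃ α : F, ∃ s ∈ S, x = α • c + s := by
    intro c S x
    rw [Submodule.mem_sup]
    constructor
    · rintro ⟨y, hy, s, hs, rfl⟩
      obtain ⟨α, rfl⟩ := Submodule.mem_span_singleton.1 hy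
      exact ⟨α, s, hs, rfl⟩
    · rintro ⟨α, s, hs, rfl⟩
      exact ⟨_, Submodule.mem_span_singleton.2 ⟨α, rfl⟩, s, hs, rfl⟩
  have hTI : ∀ (c : V) (S : Submodule F V), (∀ s ∈ S, β c s = 0) → TIOn β S →
      TIOn β (Submodule.span F {c} ⊔ S) := by
    intro c S hc hS x hx y hy
    obtain ⟨α, s, hs, rfl⟩ := (hmem c S x).1 hx
    obtain ⟨α', s', hs', rfl⟩ := (hmem c S y).1 hy
    have e1 : β s c = 0 := by rw [← halt.neg_eq, hc s hs, neg_zero]
    have e2 : β c c = 0 := halt c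
    simp [e1, e2, hc s' hs', hS s hs s' hs']
  refine ⟨?_, ?_, hTI a U' (fun s hs => (hY' s (hU'Y' hs)).1) hU',
    hTI b W' (fun s hs => (hY' s (hW'Y' hs)).2) hW'⟩
  · apply le_antisymm
    · refine sup_le (sup_le ?_ (hU'Y'.trans hY'Y)) (sup_le ?_ (hW'Y'.trans hY'Y))
      · rw [Submodule.span_singleton_le_iff_mem]; exact ha
      · rw [Submodule.span_singleton_le_iff_mem]; exact hb
    · intro y hy
      obtain ⟨α, γ, y', hy', rfl⟩ := hdec y hy
      rw [← hsup] at hy'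
      obtain ⟨u, hu, w, hw, rfl⟩ := Submodule.mem_sup.1 hy'
      have e : α • a + γ • b + (u + w) = (α • a + u) + (γ • b + w) := by abel
      rw [e]
      exact Submodule.add_mem_sup ((hmem a U' _).2 ⟨α, u, hu, rfl⟩) ((hmem b W' _).2 ⟨γ, w, hw, rfl⟩)
  · rw [Submodule.disjoint_def]
    intro x hx1 hx2
    obtain ⟨α, u, hu, rfl⟩ := (hmem a U' x).1 hx1
    obtain ⟨γ, w, hw, hxw⟩ := (hmem b W' _).1 hx2
    have hba : β b a = - β a b := (halt.neg_eq a b).symm
    have h1 : β b (α • a + u) = β b (γ • b + w) := by rw [hxw]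
    have h2 : β a (α • a + u) = β a (γ • b + w) := by rw [hxw]
    have hbb : β b b = 0 := halt b
    have haa : β a a = 0 := halt a
    simp only [map_add, map_smul, smul_eq_mul, (hY' u (hU'Y' hu)).2, (hY' w (hW'Y' hw)).2, hbb, hba,
      mul_zero, add_zero, mul_neg, neg_eq_zero] at h1
    simp only [map_add, map_smul, smul_eq_mul, (hY' u (hU'Y' hu)).1, (hY' w (hW'Y' hw)).1, haa,
      mul_zero, add_zero] at h2
    have hα : α = 0 := (mul_eq_zero.1 h1).resolve_right hab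
    have hγ : γ = 0 := (mul_eq_zero.1 h2.symm).resolve_right hab
    rw [hα, hγ, zero_smul, zero_smul, zero_add, zero_add] at hxw
    have h3 : u ∈ U' ⊓ W' := ⟨hu, hxw ▸ hw⟩
    rw [hdis.eq_bot] at h3
    rw [hα, zero_smul, zero_add]
    exact h3

theorem exists_swap_pair [FiniteDimensional F V] (halt : β.IsAlt) (h2 : (2 : F) ≠ 0)
    {X : V →ₗ[F] V} (hX : ∀ u v, β (X u) (X v) = β u v) (hXX : ∀ v, X (X v) = (-1 : F) • v) :
    ∀ (n : ℕ) (Y : Submodule F V), finrank F Y = n → NDOn β Y → (∀ y ∈ Y, X y ∈ Y) →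
      ∃ U W : Submodule F V, U ⊔ W = Y ∧ Disjoint U W ∧ TIOn β U ∧ TIOn β W ∧
        (∀ u ∈ U, X u ∈ W) ∧ (∀ w ∈ W, X w ∈ U) := by
  intro n
  induction n using Nat.strong_induction_on with
  | _ n ih =>
    intro Y hn hY hYX
    by_cases hbot : Y = ⊥
    · refine ⟨⊥, ⊥, by rw [hbot]; simp, disjoint_bot_left, ?_, ?_, ?_, ?_⟩
      · intro y hy; rw [(Submodule.mem_bot F).1 hy]; simp
      · intro y hy; rw [(Submodule.mem_bot F).1 hy]; simp
      · intro y hy; rw [(Submodule.mem_bot F).1 hy]; simp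
      · intro y hy; rw [(Submodule.mem_bot F).1 hy]; simp
    · obtain ⟨e, he, hee⟩ : ∃ e ∈ Y, β e (X e) ≠ 0 := by
        by_contra hcon
        push Not at hcon
        have h1 : ∀ u ∈ Y, ∀ v ∈ Y, β u (X v) = 0 := by
          intro u hu v hv
          have h3 := hcon (u + v) (Y.add_mem hu hv)
          simp only [map_add, LinearMap.add_apply, hcon u hu, hcon v hv, zero_add, add_zero] at h3
          have h4 : β v (X u) = β u (X v) := by
            rw [← hX v (X u), hXX, map_smul, smul_eq_mul, neg_one_mul, halt.neg_eq]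
          rw [h4] at h3
          have h5 : (2 : F) * β u (X v) = 0 := by rw [two_mul]; exact h3
          exact (mul_eq_zero.1 h5).resolve_left h2
        apply hbot
        rw [Submodule.eq_bot_iff]
        intro y hy
        apply hY y hy
        intro y' hy'
        have h3 : y' = X (-(X y')) := by rw [map_neg, hXX]; simp
        rw [h3]
        exact h1 y hy _ (Y.neg_mem (hYX y' hy'))
      obtain ⟨p1, p2, p3⟩ := peel halt hY he (hYX e he) hee
      have p4 := peel_inv (β := β) hX hXX (by simp) hYX (a := e) (b := X e) (α₁ := 0) (γ₁ := 1)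
        (α₂ := -1) (γ₂ := 0) (by simp) (by rw [hXX]; simp)
      obtain ⟨U', W', q1, q2, q3, q4, q5, q6⟩ := ih _ (hn ▸ p2) _ rfl p1 p4
      obtain ⟨r1, r2, r3, r4⟩ := assemble (Y' := Y ⊓ LinearMap.ker (β e) ⊓ LinearMap.ker (β (X e)))
        halt hee (fun y hy => ⟨hy.1.2, hy.2⟩) he (hYX e he)
        (inf_le_left.trans inf_le_left) p3 q1 q2 q3 q4
      refine ⟨_, _, r1, r2, r3, r4, ?_, ?_⟩
      · intro u hu
        obtain ⟨y, hy, s, hs, rfl⟩ := Submodule.mem_sup.1 hu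
        obtain ⟨α, rfl⟩ := Submodule.mem_span_singleton.1 hy
        rw [map_add, map_smul]
        exact Submodule.add_mem_sup (Submodule.mem_span_singleton.2 ⟨α, rfl⟩) (q5 s hs)
      · intro u hu
        obtain ⟨y, hy, s, hs, rfl⟩ := Submodule.mem_sup.1 hu
        obtain ⟨α, rfl⟩ := Submodule.mem_span_singleton.1 hy
        rw [map_add, map_smul, hXX]
        exact Submodule.add_mem_sup (Submodule.mem_span_singleton.2 ⟨α * (-1), by rw [mul_smul]⟩)
          (q6 s hs)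

theorem exists_fix_pair [FiniteDimensional F V] (halt : β.IsAlt) (h2 : (2 : F) ≠ 0)
    {X : V →ₗ[F] V} (hX : ∀ u v, β (X u) (X v) = β u v) (hXX : ∀ v, X (X v) = (1 : F) • v) :
    ∀ (n : ℕ) (Y : Submodule F V), finrank F Y = n → NDOn β Y → (∀ y ∈ Y, X y ∈ Y) →
      ∃ U W : Submodule F V, U ⊔ W = Y ∧ Disjoint U W ∧ TIOn β U ∧ TIOn β W ∧
        (∀ u ∈ U, X u ∈ U) ∧ (∀ w ∈ W, X w ∈ W) := by
  intro n
  induction n using Nat.strong_induction_on with
  | _ n ih =>
    intro Y hn hY hYX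
    by_cases hbot : Y = ⊥
    · refine ⟨⊥, ⊥, by rw [hbot]; simp, disjoint_bot_left, ?_, ?_, ?_, ?_⟩
      · intro y hy; rw [(Submodule.mem_bot F).1 hy]; simp
      · intro y hy; rw [(Submodule.mem_bot F).1 hy]; simp
      · intro y hy; rw [(Submodule.mem_bot F).1 hy]; simp
      · intro y hy; rw [(Submodule.mem_bot F).1 hy]; simp
    · obtain ⟨e, he, he0, ε, hεε, hXe⟩ : ∃ e ∈ Y, e ≠ 0 ∧ ∃ ε : F, ε * ε = 1 ∧ X e = ε • e := by
        obtain ⟨y, hy, hy0⟩ := (Submodule.ne_bot_iff Y).1 hbot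
        by_cases h : y + X y = 0
        · refine ⟨y, hy, hy0, -1, by ring, ?_⟩
          rw [neg_one_smul]
          exact eq_neg_of_add_eq_zero_right h
        · refine ⟨y + X y, Y.add_mem hy (hYX y hy), h, 1, by ring, ?_⟩
          rw [map_add, hXX, one_smul, one_smul, add_comm]
      obtain ⟨f, hf, hef⟩ : ∃ f ∈ Y, β e f ≠ 0 := by
        by_contra hcon
        push Not at hcon
        exact he0 (hY e he hcon)
      have hf' : f + ε • X f ∈ Y := Y.add_mem hf (Y.smul_mem _ (hYX f hf))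
      have hXf' : X (f + ε • X f) = ε • (f + ε • X f) := by
        rw [map_add, map_smul, hXX, one_smul, smul_add, smul_smul, hεε, one_smul, add_comm]
      have hef' : β e (f + ε • X f) ≠ 0 := by
        have h1 : β e (X f) = ε * β e f := by
          have h3 : e = ε • X e := by rw [hXe, smul_smul, hεε, one_smul]
          conv_lhs => rw [h3]
          rw [map_smul, LinearMap.smul_apply, hX, smul_eq_mul]
        rw [map_add, map_smul, h1, smul_eq_mul, ← mul_assoc, hεε, one_mul, ← two_mul]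
        exact mul_ne_zero h2 hef
      obtain ⟨p1, p2, p3⟩ := peel halt hY he hf' hef'
      have p4 := peel_inv (β := β) hX hXX one_ne_zero hYX (a := e) (b := f + ε • X f) (α₁ := ε)
        (γ₁ := 0) (α₂ := 0) (γ₂ := ε) (by rw [hXe]; simp) (by rw [hXf']; simp)
      obtain ⟨U', W', q1, q2, q3, q4, q5, q6⟩ := ih _ (hn ▸ p2) _ rfl p1 p4
      obtain ⟨r1, r2, r3, r4⟩ := assemble
        (Y' := Y ⊓ LinearMap.ker (β e) ⊓ LinearMap.ker (β (f + ε • X f)))
        halt hef' (fun y hy => ⟨hy.1.2, hy.2⟩) he hf'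
        (inf_le_left.trans inf_le_left) p3 q1 q2 q3 q4
      refine ⟨_, _, r1, r2, r3, r4, ?_, ?_⟩
      · intro u hu
        obtain ⟨y, hy, s, hs, rfl⟩ := Submodule.mem_sup.1 hu
        obtain ⟨α, rfl⟩ := Submodule.mem_span_singleton.1 hy
        rw [map_add, map_smul, hXe]
        exact Submodule.add_mem_sup (Submodule.mem_span_singleton.2 ⟨α * ε, by rw [mul_smul]⟩)
          (q5 s hs)
      · intro u hu
        obtain ⟨y, hy, s, hs, rfl⟩ := Submodule.mem_sup.1 hu
        obtain ⟨α, rfl⟩ := Submodule.mem_span_singleton.1 hy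
        rw [map_add, map_smul, hXf']
        exact Submodule.add_mem_sup (Submodule.mem_span_singleton.2 ⟨α * ε, by rw [mul_smul]⟩)
          (q6 s hs)

/-- an isometry of a symplectic space (odd characteristic) whose square is a scalar fixes or
interchanges two complementary totally isotropic subspaces -/
theorem exists_polar_pair [FiniteDimensional F V] [Nontrivial V] (hβ : β.Nondegenerate)
    (halt : β.IsAlt) (h2 : (2 : F) ≠ 0)
    {X : V →ₗ[F] V} (hX : ∀ u v, β (X u) (X v) = β u v) {z : F} (hXX : ∀ v, X (X v) = z • v) :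
    ∃ U W : Submodule F V, IsCompl U W ∧ TIOn β U ∧ TIOn β W ∧
      ((U.map X = U ∧ W.map X = W) ∨ (U.map X = W ∧ W.map X = U)) := by
  have hz : z = 1 ∨ z = -1 := by
    obtain ⟨u, hu⟩ := exists_ne (0 : V)
    obtain ⟨v, hv⟩ : ∃ v, β u v ≠ 0 := by
      by_contra hcon
      push Not at hcon
      exact hu (hβ.1 u hcon)
    have h1 : β (X (X u)) (X (X v)) = β u v := by rw [hX, hX]
    rw [hXX, hXX, map_smul, map_smul, LinearMap.smul_apply, smul_eq_mul, smul_eq_mul,
      ← mul_assoc] at h1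
    have h3 : z * z = 1 := mul_right_cancel₀ hv (by rw [h1, one_mul])
    exact mul_self_eq_one_iff.1 h3
  have hz0 : z ≠ 0 := by
    rcases hz with h | h <;> rw [h] <;> simp
  have hND : NDOn β ⊤ := fun y _ hy => hβ.1 y (fun y' => hy y' trivial)
  have hmap : ∀ A B : Submodule F V, (∀ a ∈ A, X a ∈ B) → (∀ b ∈ B, X b ∈ A) → A.map X = B := by
    intro A B hAB hBA
    apply le_antisymm
    · rintro _ ⟨a, ha, rfl⟩
      exact hAB a ha
    · intro b hb
      refine ⟨z⁻¹ • X b, A.smul_mem _ (hBA b hb), ?_⟩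
      rw [map_smul, hXX, smul_smul, inv_mul_cancel₀ hz0, one_smul]
  rcases hz with rfl | rfl
  · obtain ⟨U, W, h1, h3, h4, h5, h6, h7⟩ := exists_fix_pair halt h2 hX hXX _ ⊤ rfl hND
      (fun _ _ => trivial)
    exact ⟨U, W, ⟨h3, codisjoint_iff.2 h1⟩, h4, h5, Or.inl ⟨hmap U U h6 h6, hmap W W h7 h7⟩⟩
  · obtain ⟨U, W, h1, h3, h4, h5, h6, h7⟩ := exists_swap_pair halt h2 hX hXX _ ⊤ rfl hND
      (fun _ _ => trivial)
    exact ⟨U, W, ⟨h3, codisjoint_iff.2 h1⟩, h4, h5, Or.inr ⟨hmap U W h6 h7, hmap W U h7 h6⟩⟩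

end

end Cfsg.Agent.Lib.Helper44
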