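import Cfsg.Agent.Lib.Helper44.CenterOmega
import Cfsg.Agent.Lib.Helper44.InvolStd
import Cfsg.Agent.Lib.Helper18.R23.T

set_option autoImplicit false

namespace Cfsg.Agent.Lib.Helper44

open QuadraticMap Module Matrix

variable {F : Type*} [Field F] {ι : Type} [Fintype ι] [DecidableEq ι]

theorem eichlerElt_add (Q : QuadraticForm F (ι → F)) (u v v' : ι → F) (hu : Q u = 0)
    (huv : polar Q u v = 0) (huv' : polar Q u v' = 0) (h : polar Q u (v + v') = 0) :
    eichlerElt Q u (v + v') hu h = eichlerElt Q u v hu huv * eichlerElt Q u v' hu huv' := by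
  apply isometryGroup_ext
  apply matrix_ext_mulVec
  intro x
  rw [Subgroup.coe_mul, Units.val_mul, ← Matrix.mulVec_mulVec, eichlerElt_mulVec,
    eichlerElt_mulVec, eichlerElt_mulVec]
  exact (eichlerLin_comp Q hu huv huv' x).symm

/-- in characteristic two, three hyperbolic pairs give `2`-rank at least three in `PΩ` -/
theorem rank_POmega_of_hypSys [Fintype F] [CharP F 2] (Q : QuadraticForm F (ι → F))
    (hQ : (polarBilin Q).Nondegenerate) (hn : 5 ≤ Fintype.card ι) {k : ℕ} (hk : 3 ≤ k)
    {e f : Fin k → (ι → F)} (h : HypSys Q k e f) : Cfsg.PRankAtLeast 2 3 (Cfsg.POmega F ⇑Q) := by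
  let i0 : Fin k := ⟨0, by omega⟩
  let i1 : Fin k := ⟨1, by omega⟩
  let i2 : Fin k := ⟨2, by omega⟩
  have h01 : i0 ≠ i1 := by simp [i0, i1, Fin.ext_iff]
  have h02 : i0 ≠ i2 := by simp [i0, i2, Fin.ext_iff]
  have h12 : i1 ≠ i2 := by simp [i1, i2, Fin.ext_iff]
  let vv : (Fin 3 → F) → (ι → F) := fun c => c 0 • e i1 + c 1 • e i2 + c 2 • f i1
  have hvadd : ∀ c c', vv (c + c') = vv c + vv c' := by
    intro c c'
    simp only [vv, Pi.add_apply]
    module
  have huv : ∀ c, polar Q (e i0) (vv c) = 0 := by
    intro c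
    simp only [vv, polar_add_right, polar_smul_right, h.ee, h.ef, if_neg h01, smul_zero, add_zero]
  let φ : Multiplicative (Fin 3 → F) →* ↥(Cfsg.Omega F ⇑Q) :=
    { toFun := fun c => ⟨eichlerElt Q (e i0) (vv (Multiplicative.toAdd c)) (h.Qe i0) (huv _),
        eichlerElt_mem_Omega Q hQ hn _ _ _ _⟩
      map_one' := by
        apply Subtype.ext
        apply isometryGroup_ext
        apply matrix_ext_mulVec
        intro x
        rw [eichlerElt_mulVec, eichler_apply]
        simp [vv]
      map_mul' := by
        intro c c'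
        apply Subtype.ext
        show eichlerElt Q (e i0) (vv (Multiplicative.toAdd c + Multiplicative.toAdd c')) _ _ = _
        have := eichlerElt_add Q (e i0) (vv (Multiplicative.toAdd c))
          (vv (Multiplicative.toAdd c')) (h.Qe i0) (huv _) (huv _) (by rw [← hvadd]; exact huv _)
        rw [Subgroup.coe_mul, ← this]
        congr 1
        exact hvadd _ _ }
  have hcen : Subgroup.center ↥(Cfsg.Omega F ⇑Q) = ⊥ :=
    Subgroup.card_eq_one.1 (card_center_Omega_eq_one Q hQ hn (Or.inl CharTwo.two_eq_zero))
  refine Cfsg.Agent.Lib.Helper18.R23.rank_quot_of_hom (V := Fin 3 → F)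
    (fun v => CharTwo.add_self_eq_zero v) ?_ φ _ ?_
  · rw [Nat.card_eq_fintype_card, Fintype.card_fun, Fintype.card_fin]
    have : 2 ≤ Fintype.card F := Fintype.one_lt_card
    calc 8 = 2 ^ 3 := by norm_num
      _ ≤ Fintype.card F ^ 3 := Nat.pow_le_pow_left this 3
  · intro c hc
    rw [hcen, Subgroup.mem_bot] at hc
    set c' := Multiplicative.toAdd c with hc'
    have h1 : eichlerElt Q (e i0) (vv c') (h.Qe i0) (huv _) = 1 := congrArg Subtype.val hc
    have h2 := eichlerElt_mulVec Q (e i0) (vv c') (h.Qe i0) (huv _) (f i0)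
    rw [h1, eichler_apply, h.ef, if_pos rfl] at h2
    simp only [OneMemClass.coe_one, Units.val_one, Matrix.one_mulVec, one_smul, mul_one] at h2
    -- `vv c'` is a multiple of `e i0`
    have h3 : vv c' = (polar Q (vv c') (f i0) - Q (vv c')) • e i0 := by
      rw [sub_smul]
      have : f i0 + polar Q (vv c') (f i0) • e i0 - vv c' - Q (vv c') • e i0 - f i0 = 0 := by
        rw [← h2]; abel
      have e2 : polar Q (vv c') (f i0) • e i0 - Q (vv c') • e i0 - vv c' = 0 := by
        rw [← this]; abel
      exact (sub_eq_zero.1 e2).symm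
    have hfe : ∀ i j, polar Q (f i) (e j) = if j = i then 1 else 0 := by
      intro i j; rw [polar_comm, h.ef]
    have c0 : c' 0 = 0 := by
      have := congrArg (fun y => polar Q (f i1) y) h3
      simp only [vv, polar_add_right, polar_smul_right, hfe, h.ff, smul_eq_mul,
        if_neg h12.symm, if_neg h01, mul_zero, add_zero] at this
      simpa using this
    have c1 : c' 1 = 0 := by
      have := congrArg (fun y => polar Q (f i2) y) h3
      simp only [vv, polar_add_right, polar_smul_right, hfe, h.ff, smul_eq_mul,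
        if_neg h12, if_neg h02, mul_zero, add_zero, zero_add] at this
      simpa using this
    have c2 : c' 2 = 0 := by
      have := congrArg (fun y => polar Q (e i1) y) h3
      simp only [vv, polar_add_right, polar_smul_right, h.ee, h.ef, smul_eq_mul,
        mul_zero, zero_add] at this
      simpa using this
    have : c' = 0 := by
      funext i
      fin_cases i
      · exact c0
      · exact c1
      · exact c2
    exact this

end Cfsg.Agent.Lib.Helper44
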