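import Cfsg.Agent.Lib.Helper44.Index

set_option autoImplicit false

namespace Cfsg.Agent.Lib.Helper44

open QuadraticMap Module

variable {F V : Type*} [Field F] [AddCommGroup V] [Module F V]

/-- a diagonal binary form over a finite field of odd characteristic is universal -/
theorem exists_diag_rep [Fintype F] (h2 : (2 : F) ≠ 0) {a₀ a₁ : F} (h0 : a₀ ≠ 0) (h1 : a₁ ≠ 0)
    (c : F) : ∃ α β : F, a₀ * α ^ 2 + a₁ * β ^ 2 = c := by
  have hf : (Polynomial.C a₀ * Polynomial.X ^ 2 : Polynomial F).degree = 2 :=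
    Polynomial.degree_C_mul_X_pow 2 h0
  have hg : (Polynomial.C a₁ * Polynomial.X ^ 2 - Polynomial.C c : Polynomial F).degree
      = 2 := by
    rw [Polynomial.degree_sub_eq_left_of_degree_lt]
    · exact Polynomial.degree_C_mul_X_pow 2 h1
    · rw [Polynomial.degree_C_mul_X_pow 2 h1]
      exact lt_of_le_of_lt Polynomial.degree_C_le (by norm_num)
  obtain ⟨α, β, h⟩ := FiniteField.exists_root_sum_quadratic hf hg
    (FiniteField.odd_card_of_char_ne_two (ringChar_ne_two_of_two_ne_zero h2))
  refine ⟨α, β, ?_⟩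
  simp only [Polynomial.eval_mul, Polynomial.eval_C, Polynomial.eval_pow, Polynomial.eval_X,
    Polynomial.eval_sub] at h
  linear_combination h

theorem Q_lin2 (Q : QuadraticForm F V) (u v : V) (x y : F) :
    Q (x • u + y • v) = Q u * x ^ 2 + polar Q u v * (x * y) + Q v * y ^ 2 := by
  rw [QuadraticMap.map_add (⇑Q), QuadraticMap.map_smul, QuadraticMap.map_smul, polar_smul_left,
    polar_smul_right]
  simp only [smul_eq_mul]; ring

/-- rotating a pair of reflections inside a plane -/
theorem refl_mul_refl_rotate (Q : QuadraticForm F V) {u v : V} (hu : Q u ≠ 0) (hv : Q v ≠ 0)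
    (α β : F) (hN : Q (α • u + β • v) ≠ 0) :
    Q ((-(β * Q v)) • u + (α * Q u + β * polar Q u v) • v) = Q u * Q v * Q (α • u + β • v) ∧
    refl Q (α • u + β • v) * refl Q ((-(β * Q v)) • u + (α * Q u + β * polar Q u v) • v)
      = refl Q u * refl Q v := by
  have hb : Q ((-(β * Q v)) • u + (α * Q u + β * polar Q u v) • v)
      = Q u * Q v * Q (α • u + β • v) := by
    rw [Q_lin2, Q_lin2]; ring
  refine ⟨hb, ?_⟩
  ext x
  simp only [LinearEquiv.mul_apply, refl_apply, hb]
  have huu : polar Q u u = 2 * Q u := by rw [polar_self]; simp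
  have hvv : polar Q v v = 2 * Q v := by rw [polar_self]; simp
  have hvu : polar Q v u = polar Q u v := polar_comm _ _ _
  simp only [polar_add_left, polar_add_right, polar_sub_right, polar_smul_left, polar_smul_right,
    huu, hvv, hvu, smul_eq_mul]
  rw [Q_lin2] at hN ⊢
  generalize polar Q u x = p
  generalize polar Q v x = r
  generalize polar Q u v = B at *
  generalize Q u = A at *
  generalize Q v = C at *
  obtain ⟨N, hNdef⟩ : ∃ N, N = A * α ^ 2 + B * (α * β) + C * β ^ 2 := ⟨_, rfl⟩
  rw [← hNdef] at hN ⊢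
  match_scalars <;> field_simp <;> (rw [hNdef]; ring)

/-- the class `c·(F^×)²` -/
def InCl (c y : F) : Prop := ∃ t : F, t ≠ 0 ∧ y = c * t ^ 2

theorem InCl.ne_zero {c y : F} (hc : c ≠ 0) (h : InCl c y) : y ≠ 0 := by
  obtain ⟨t, ht, rfl⟩ := h
  exact mul_ne_zero hc (pow_ne_zero 2 ht)

theorem not_isSquare_of_not_inCl {c y : F} (hc : c ≠ 0) (hy : y ≠ 0) (h : ¬ InCl c y) :
    ¬ IsSquare (c * y) := by
  rintro ⟨e, he⟩
  apply h
  have he0 : e ≠ 0 := by
    rintro rfl
    simp only [mul_zero, mul_eq_zero] at he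
    rcases he with h | h
    · exact hc h
    · exact hy h
  refine ⟨e / c, div_ne_zero he0 hc, ?_⟩
  field_simp
  linear_combination he

theorem exists_sq_of_not_inCl [Fintype F] {c y₁ y₂ : F} (hc : c ≠ 0) (h1 : y₁ ≠ 0) (h2 : y₂ ≠ 0)
    (n1 : ¬ InCl c y₁) (n2 : ¬ InCl c y₂) : ∃ d : F, d ≠ 0 ∧ y₁ * y₂ = d ^ 2 := by
  obtain ⟨e, he⟩ := isSquare_mul_of_not_isSquare (not_isSquare_of_not_inCl hc h1 n1)
    (not_isSquare_of_not_inCl hc h2 n2)
  have he0 : e ≠ 0 := by
    rintro rfl
    have : c * y₁ * (c * y₂) ≠ 0 := mul_ne_zero (mul_ne_zero hc h1) (mul_ne_zero hc h2)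
    exact this (by rw [he]; simp)
  refine ⟨e / c, div_ne_zero he0 hc, ?_⟩
  field_simp
  linear_combination he

/-- subgroup generated by the reflections of class `c` -/
def reflClassSubgroup (Q : QuadraticForm F V) (c : F) : Subgroup ↥(OQ Q) :=
  Subgroup.closure {g | ∃ v, InCl c (Q v) ∧ g = reflO Q v}

theorem reflO_mem_reflClassSubgroup (Q : QuadraticForm F V) {c : F} {v : V} (h : InCl c (Q v)) :
    reflO Q v ∈ reflClassSubgroup Q c := Subgroup.subset_closure ⟨v, h, rfl⟩

theorem reflO_mul_mem_of_nondeg [Fintype F] (h2 : (2 : F) ≠ 0) (Q : QuadraticForm F V) {c : F}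
    (hc : c ≠ 0) {u v : V} (hu : Q u ≠ 0) (hv : Q v ≠ 0) (nu : ¬ InCl c (Q u))
    (nv : ¬ InCl c (Q v)) (hd : 4 * Q u * Q v - polar Q u v ^ 2 ≠ 0) :
    reflO Q u * reflO Q v ∈ reflClassSubgroup Q c := by
  have h4 : (4 : F) ≠ 0 := by
    have : (4 : F) = 2 * 2 := by norm_num
    rw [this]; exact mul_ne_zero h2 h2
  obtain ⟨x, β, hx⟩ := exists_diag_rep h2 hu
    (div_ne_zero hd (mul_ne_zero h4 hu)) c
  set α := x - polar Q u v * β / (2 * Q u) with hα
  have hQa : Q (α • u + β • v) = c := by
    rw [Q_lin2, ← hx, hα]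
    field_simp
    ring
  obtain ⟨hb, hrot⟩ := refl_mul_refl_rotate Q hu hv α β (by rw [hQa]; exact hc)
  have e : reflO Q u * reflO Q v = reflO Q (α • u + β • v) *
      reflO Q ((-(β * Q v)) • u + (α * Q u + β * polar Q u v) • v) := Subtype.ext hrot.symm
  rw [e]
  apply Subgroup.mul_mem
  · exact reflO_mem_reflClassSubgroup Q ⟨1, one_ne_zero, by rw [hQa]; simp⟩
  · obtain ⟨d, hd0, hd⟩ := exists_sq_of_not_inCl hc hu hv nu nv
    exact reflO_mem_reflClassSubgroup Q ⟨d, hd0, by rw [hb, hQa, hd]; ring⟩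

theorem exists_nonsingular_perp [FiniteDimensional F V] {Q : QuadraticForm F V}
    (hQ : (polarBilin Q).Nondegenerate) (X : Submodule F V) {u : V} (huX : u ∈ X) (hu : Q u ≠ 0)
    (hX : 2 * finrank F X ≤ finrank F V) :
    ∃ m, (∀ x ∈ X, polar Q x m = 0) ∧ Q m ≠ 0 := by
  by_contra hcon
  push Not at hcon
  have hsing : ∀ m ∈ LinearMap.BilinForm.orthogonal (polarBilin Q) X, Q m = 0 := fun m hm =>
    hcon m (fun x hx => (LinearMap.BilinForm.mem_orthogonal_iff.1 hm) x hx)
  have hle : LinearMap.BilinForm.orthogonal (polarBilin Q) X ≤ LinearMap.BilinForm.orthogonal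
      (polarBilin Q) (LinearMap.BilinForm.orthogonal (polarBilin Q) X) := by
    intro w hw
    rw [LinearMap.BilinForm.mem_orthogonal_iff]
    intro n hn
    rw [polarBilin_apply_apply, polar, hsing _ (Submodule.add_mem _ hn hw), hsing _ hn,
      hsing _ hw]
    simp
  rw [LinearMap.BilinForm.orthogonal_orthogonal hQ (polarBilin_isRefl Q)] at hle
  have hfr := LinearMap.BilinForm.finrank_orthogonal hQ X
  have hXle := Submodule.finrank_le X
  have heq : LinearMap.BilinForm.orthogonal (polarBilin Q) X = X :=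
    Submodule.eq_of_le_of_finrank_le hle (by omega)
  exact hu (hsing u (by rw [heq]; exact huX))

theorem exists_connecting [Fintype F] [FiniteDimensional F V] (h2 : (2 : F) ≠ 0)
    {Q : QuadraticForm F V} (hQ : (polarBilin Q).Nondegenerate)
    (heven : Even (finrank F V)) (h43 : ¬ (finrank F V = 4 ∧ Fintype.card F = 3))
    {u z : V} (hu : Q u ≠ 0) (hz : Q z = 0) (hz0 : z ≠ 0) (huz : polar Q u z = 0) :
    ∃ w, Q w = Q u ∧ polar Q u w = 0 ∧ (polar Q z w) ^ 2 ≠ 4 * Q u ^ 2 := by
  classical
  have h4 : (4 : F) ≠ 0 := by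
    have : (4 : F) = 2 * 2 := by norm_num
    rw [this]; exact mul_ne_zero h2 h2
  have hzz : polar Q z z = 0 := by rw [polar_self, hz]; simp
  have hnot : z ∉ Submodule.span F {u} := by
    intro hmem
    obtain ⟨k, hk⟩ := Submodule.mem_span_singleton.1 hmem
    have : k * k * Q u = 0 := by
      rw [← hz, ← hk, QuadraticMap.map_smul, smul_eq_mul]
    have hk0 : k = 0 := by
      rcases mul_eq_zero.1 this with h | h
      · exact mul_self_eq_zero.1 h
      · exact absurd h hu
    apply hz0
    rw [← hk, hk0, zero_smul]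
  obtain ⟨w₀, hw1, hw2⟩ := exists_perp_polar_eq_one hQ hnot
  have hzw₀ : polar Q z w₀ = 1 := by rw [polar_comm]; exact hw2
  by_cases hq : Fintype.card F = 3
  · -- dimension at least six
    have hli : LinearIndependent F ![u, z, w₀] := by
      rw [Fintype.linearIndependent_iff]
      intro g hg
      simp only [Fin.sum_univ_three, Matrix.cons_val_zero, Matrix.cons_val_one,
        Matrix.cons_val_two, Matrix.head_cons, Matrix.tail_cons] at hg
      have e2 : g 2 = 0 := by
        have := congrArg (fun y => polar Q z y) hg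
        simp only [polar_add_right, polar_smul_right, hzz, hzw₀, polar_comm Q z u, huz,
          smul_eq_mul, polar_zero_right] at this
        simpa using this
      have e1 : g 1 = 0 := by
        have := congrArg (fun y => polar Q w₀ y) hg
        simp only [polar_add_right, polar_smul_right, hw2, polar_comm Q w₀ u, hw1, e2,
          smul_eq_mul, polar_zero_right] at this
        simpa using this
      have e0 : g 0 = 0 := by
        rw [e1, e2] at hg
        simp only [zero_smul, add_zero] at hg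
        rcases smul_eq_zero.1 hg with h | h
        · exact h
        · exfalso; apply hu; rw [h]; simp
      intro i
      fin_cases i
      · exact e0
      · exact e1
      · exact e2
    have h3 : 3 ≤ finrank F V := by
      have := hli.fintype_card_le_finrank
      simpa using this
    have h6 : 6 ≤ finrank F V := by
      obtain ⟨k, hk⟩ := heven
      have : finrank F V ≠ 4 := fun h => h43 ⟨h, hq⟩
      omega
    obtain ⟨m₁, hm₁, hQm₁⟩ := exists_nonsingular_perp hQ (Submodule.span F (Set.range ![u, z]))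
      (Submodule.subset_span ⟨0, rfl⟩) hu (by
        have := finrank_range_le_card (R := F) ![u, z]
        simp only [Fintype.card_fin] at this
        have h' : finrank F (Submodule.span F (Set.range ![u, z])) ≤ 2 := this
        omega)
    obtain ⟨m₂, hm₂, hQm₂⟩ := exists_nonsingular_perp hQ
      (Submodule.span F (Set.range ![u, z, m₁]))
      (Submodule.subset_span ⟨0, rfl⟩) hu (by
        have := finrank_range_le_card (R := F) ![u, z, m₁]
        simp only [Fintype.card_fin] at this
        have h' : finrank F (Submodule.span F (Set.range ![u, z, m₁])) ≤ 3 := this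
        omega)
    have a1 : polar Q u m₁ = 0 := hm₁ u (Submodule.subset_span ⟨0, rfl⟩)
    have a2 : polar Q z m₁ = 0 := hm₁ z (Submodule.subset_span ⟨1, rfl⟩)
    have b1 : polar Q u m₂ = 0 := hm₂ u (Submodule.subset_span ⟨0, rfl⟩)
    have b2 : polar Q z m₂ = 0 := hm₂ z (Submodule.subset_span ⟨1, rfl⟩)
    have b3 : polar Q m₁ m₂ = 0 := hm₂ m₁ (Submodule.subset_span ⟨2, rfl⟩)
    obtain ⟨α, β, hαβ⟩ := exists_diag_rep h2 hQm₁ hQm₂ (Q u)
    refine ⟨α • m₁ + β • m₂, ?_, ?_, ?_⟩
    · rw [Q_lin2, b3, ← hαβ]; ring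
    · simp [polar_add_right, polar_smul_right, a1, b1]
    · simp only [polar_add_right, polar_smul_right, a2, b2, smul_eq_mul, mul_zero, add_zero]
      intro h
      have : 4 * Q u ^ 2 ≠ 0 := mul_ne_zero h4 (pow_ne_zero 2 hu)
      exact this (by rw [← h]; simp)
  · have hodd := FiniteField.odd_card_of_char_ne_two (ringChar_ne_two_of_two_ne_zero h2)
    have h1 := Fintype.one_lt_card (α := F)
    have h5 : 3 < Fintype.card F := by
      omega
    obtain ⟨b, -, hb⟩ := Finset.exists_mem_notMem_of_card_lt_card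
      (s := ({0, 2 * Q u, -(2 * Q u)} : Finset F)) (t := Finset.univ)
      (lt_of_le_of_lt Finset.card_le_three (by rw [Finset.card_univ]; exact h5))
    simp only [Finset.mem_insert, Finset.mem_singleton, not_or] at hb
    obtain ⟨hb0, hb1, hb2⟩ := hb
    refine ⟨((Q u - b ^ 2 * Q w₀) / b) • z + b • w₀, ?_, ?_, ?_⟩
    · rw [Q_lin2, hz, hzw₀]
      field_simp
      ring
    · simp [polar_add_right, polar_smul_right, huz, hw1]
    · simp only [polar_add_right, polar_smul_right, hzz, hzw₀, smul_eq_mul, mul_zero, zero_add,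
        mul_one]
      intro h
      have : (b - 2 * Q u) * (b + 2 * Q u) = 0 := by linear_combination h
      rcases mul_eq_zero.1 this with h | h
      · exact hb1 (by linear_combination h)
      · exact hb2 (by linear_combination h)

theorem reflO_mul_mem_aux [Fintype F] [FiniteDimensional F V] (h2 : (2 : F) ≠ 0)
    {Q : QuadraticForm F V} (hQ : (polarBilin Q).Nondegenerate)
    (heven : Even (finrank F V)) (h43 : ¬ (finrank F V = 4 ∧ Fintype.card F = 3))
    {c : F} (hc : c ≠ 0) {u v : V} (hu : Q u ≠ 0) (huv : Q v = Q u) (nu : ¬ InCl c (Q u))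
    (hB : polar Q u v = 2 * Q u) : reflO Q u * reflO Q v ∈ reflClassSubgroup Q c := by
  have h4 : (4 : F) ≠ 0 := by
    have : (4 : F) = 2 * 2 := by norm_num
    rw [this]; exact mul_ne_zero h2 h2
  by_cases hz0 : v - u = 0
  · have : v = u := sub_eq_zero.1 hz0
    rw [this, reflO_mul_self]
    exact Subgroup.one_mem _
  have hzdef : v - u = (-1 : F) • u + (1 : F) • v := by simp; abel
  have hz : Q (v - u) = 0 := by
    rw [hzdef, Q_lin2, huv, hB]; ring
  have huu : polar Q u u = 2 * Q u := by rw [polar_self]; simp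
  have huz : polar Q u (v - u) = 0 := by
    rw [polar_sub_right, hB, huu]; ring
  obtain ⟨w, hw, huw, hzw⟩ := exists_connecting h2 hQ heven h43 hu hz hz0 huz
  have e : reflO Q u * reflO Q v = (reflO Q u * reflO Q w) * (reflO Q w * reflO Q v) := by
    rw [mul_assoc, ← mul_assoc (reflO Q w), reflO_mul_self, one_mul]
  rw [e]
  apply Subgroup.mul_mem
  · apply reflO_mul_mem_of_nondeg h2 Q hc hu (by rw [hw]; exact hu) nu (by rw [hw]; exact nu)
    rw [huw, hw]
    have : 4 * Q u * Q u - 0 ^ 2 = 4 * Q u ^ 2 := by ring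
    rw [this]
    exact mul_ne_zero h4 (pow_ne_zero 2 hu)
  · apply reflO_mul_mem_of_nondeg h2 Q hc (by rw [hw]; exact hu) (by rw [huv]; exact hu)
      (by rw [hw]; exact nu) (by rw [huv]; exact nu)
    have hwv : polar Q w v = polar Q (v - u) w := by
      rw [polar_sub_left, huw, polar_comm]; ring
    rw [hwv, hw, huv]
    intro h
    exact hzw (by linear_combination -h)

theorem reflO_neg (Q : QuadraticForm F V) (v : V) : reflO Q (-v) = reflO Q v :=
  Subtype.ext (refl_neg Q v)

theorem reflO_mul_mem_of_eq [Fintype F] [FiniteDimensional F V] (h2 : (2 : F) ≠ 0)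
    {Q : QuadraticForm F V} (hQ : (polarBilin Q).Nondegenerate)
    (heven : Even (finrank F V)) (h43 : ¬ (finrank F V = 4 ∧ Fintype.card F = 3))
    {c : F} (hc : c ≠ 0) {u v : V} (hu : Q u ≠ 0) (huv : Q v = Q u) (nu : ¬ InCl c (Q u)) :
    reflO Q u * reflO Q v ∈ reflClassSubgroup Q c := by
  by_cases hd : 4 * Q u * Q v - polar Q u v ^ 2 ≠ 0
  · exact reflO_mul_mem_of_nondeg h2 Q hc hu (by rw [huv]; exact hu) nu (by rw [huv]; exact nu) hd
  · push Not at hd
    rw [huv] at hd
    have : (polar Q u v - 2 * Q u) * (polar Q u v + 2 * Q u) = 0 := by linear_combination -hd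
    rcases mul_eq_zero.1 this with h | h
    · exact reflO_mul_mem_aux h2 hQ heven h43 hc hu huv nu (by linear_combination h)
    · rw [← reflO_neg Q v]
      exact reflO_mul_mem_aux h2 hQ heven h43 hc hu (by rw [QuadraticMap.map_neg, huv]) nu
        (by rw [polar_neg_right]; linear_combination -h)

theorem reflO_mul_mem [Fintype F] [FiniteDimensional F V] (h2 : (2 : F) ≠ 0)
    {Q : QuadraticForm F V} (hQ : (polarBilin Q).Nondegenerate)
    (heven : Even (finrank F V)) (h43 : ¬ (finrank F V = 4 ∧ Fintype.card F = 3))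
    {c : F} (hc : c ≠ 0) {u v : V} (hu : Q u ≠ 0) (hv : Q v ≠ 0) (nu : ¬ InCl c (Q u))
    (nv : ¬ InCl c (Q v)) : reflO Q u * reflO Q v ∈ reflClassSubgroup Q c := by
  obtain ⟨d, hd0, hd⟩ := exists_sq_of_not_inCl hc hu hv nu nv
  have hk : Q u / d ≠ 0 := div_ne_zero hu hd0
  have e : reflO Q v = reflO Q ((Q u / d) • v) := Subtype.ext (refl_smul Q v hk).symm
  rw [e]
  apply reflO_mul_mem_of_eq h2 hQ heven h43 hc hu _ nu
  rw [QuadraticMap.map_smul, smul_eq_mul]
  field_simp
  linear_combination hd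

/-- a character which is trivial exactly on the reflections of class `c` -/
theorem exists_class_char [Fintype F] [FiniteDimensional F V] (h2 : (2 : F) ≠ 0)
    {Q : QuadraticForm F V} (hQ : (polarBilin Q).Nondegenerate) {c : F} (hc : c ≠ 0) :
    ∃ χ : ↥(OQ Q) →* ℤˣ, (∀ v, InCl c (Q v) → χ (reflO Q v) = 1) ∧
      (∀ v, Q v ≠ 0 → ¬ InCl c (Q v) → χ (reflO Q v) = -1) := by
  classical
  have h : (∃ t : F, t ≠ 0 ∧ t ≠ 1) ∨ finrank F V ≠ 4 := Or.inl (gen_hyp_of_two_ne_zero h2)
  obtain ⟨φ, a, b, ha, hb, hab, hφ⟩ := exists_spinor_char h2 hQ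
  have hδ : ∀ w, Q w ≠ 0 → parityChar Q hQ h (reflO Q w) = -1 := by
    intro w hw
    have := parityChar_prod_reflO Q hQ h [w] (by simpa using hw)
    simpa using this
  -- values of `φ` on the two classes
  obtain ⟨e, e', hee', h1, h2'⟩ : ∃ e e' : ℤˣ, e * e' = -1 ∧
      (∀ v, InCl c (Q v) → φ (reflO Q v) = e) ∧
      (∀ v, Q v ≠ 0 → ¬ InCl c (Q v) → φ (reflO Q v) = e') := by
    by_cases hsq : IsSquare c
    · refine ⟨a, b, hab, ?_, ?_⟩
      · intro v hv
        rw [hφ v (hv.ne_zero hc), if_pos]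
        obtain ⟨t, -, ht⟩ := hv
        rw [ht]
        exact hsq.mul ⟨t, by ring⟩
      · intro v hv nv
        rw [hφ v hv, if_neg]
        intro hs
        exact not_isSquare_of_not_inCl hc hv nv (hsq.mul hs)
    · refine ⟨b, a, by rw [mul_comm]; exact hab, ?_, ?_⟩
      · intro v hv
        rw [hφ v (hv.ne_zero hc), if_neg]
        obtain ⟨t, ht0, ht⟩ := hv
        rw [ht, mul_comm]
        exact not_isSquare_mul_of_isSquare_of_not (pow_ne_zero 2 ht0) ⟨t, by ring⟩ hsq
      · intro v hv nv
        rw [hφ v hv, if_pos]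
        by_contra hs
        exact not_isSquare_of_not_inCl hc hv nv (isSquare_mul_of_not_isSquare hsq hs)
  rcases Int.units_eq_one_or e with rfl | rfl
  · refine ⟨φ, h1, ?_⟩
    intro v hv nv
    rw [h2' v hv nv]
    simpa using hee'
  · refine ⟨φ * parityChar Q hQ h, ?_, ?_⟩
    · intro v hv
      rw [MonoidHom.mul_apply, h1 v hv, hδ v (hv.ne_zero hc)]
      simp
    · intro v hv nv
      rw [MonoidHom.mul_apply, h2' v hv nv, hδ v hv]
      have : e' = 1 := by simpa using hee'
      rw [this]; simp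

theorem index_reflClassSubgroup [Fintype F] [FiniteDimensional F V] (h2 : (2 : F) ≠ 0)
    {Q : QuadraticForm F V} (hQ : (polarBilin Q).Nondegenerate) (hn : 2 ≤ finrank F V)
    (heven : Even (finrank F V)) (h43 : ¬ (finrank F V = 4 ∧ Fintype.card F = 3))
    {c : F} (hc : c ≠ 0) : (reflClassSubgroup Q c).index = 2 := by
  classical
  have h : (∃ t : F, t ≠ 0 ∧ t ≠ 1) ∨ finrank F V ≠ 4 := Or.inl (gen_hyp_of_two_ne_zero h2)
  obtain ⟨χ, hχ1, hχ2⟩ := exists_class_char h2 hQ hc
  have hker : ∀ g ∈ reflClassSubgroup Q c, χ g = 1 := by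
    intro g hg
    have : reflClassSubgroup Q c ≤ χ.ker := by
      rw [reflClassSubgroup, Subgroup.closure_le]
      rintro _ ⟨v, hv, rfl⟩
      exact hχ1 v hv
    exact this hg
  -- a vector of the other class
  obtain ⟨w₀, hw₀, nw₀⟩ : ∃ w₀, Q w₀ ≠ 0 ∧ ¬ InCl c (Q w₀) := by
    obtain ⟨u, -, v, -, hu, hv, -, -, -, -, hns⟩ := exists_quadruple h2 hQ hn
    by_cases h1 : InCl c (Q u)
    · refine ⟨v, hv, ?_⟩
      intro h3
      obtain ⟨t, -, ht⟩ := h1
      obtain ⟨s, -, hs⟩ := h3
      exact hns ⟨c * t * s, by rw [ht, hs]; ring⟩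
    · exact ⟨u, hu, h1⟩
  rw [Subgroup.index_eq_two_iff]
  refine ⟨reflO Q w₀, fun g => ?_⟩
  have hor : ∀ l : List V, (∀ v ∈ l, Q v ≠ 0) →
      ((l.map (reflO Q)).prod * reflO Q w₀ ∈ reflClassSubgroup Q c ∨
        (l.map (reflO Q)).prod ∈ reflClassSubgroup Q c) := by
    intro l
    induction l using List.reverseRecOn with
    | nil => intro _; right; simp
    | append_singleton l v ih =>
      intro hl
      have hv : Q v ≠ 0 := hl v (by simp)
      have hl' : ∀ w ∈ l, Q w ≠ 0 := fun w hw => hl w (by simp [hw])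
      rw [List.map_append, List.prod_append]
      simp only [List.map_cons, List.map_nil, List.prod_cons, List.prod_nil, mul_one]
      by_cases hcl : InCl c (Q v)
      · rcases ih hl' with h1 | h1
        · left
          have e : (l.map (reflO Q)).prod * reflO Q v * reflO Q w₀ =
              ((l.map (reflO Q)).prod * reflO Q w₀) * reflO Q (refl Q w₀ v) := by
            have e2 : reflO Q (refl Q w₀ v) = reflO Q w₀ * reflO Q v * reflO Q w₀ := by
              apply Subtype.ext
              have := conj_refl (refl_mem Q w₀) v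
              rw [refl_inv] at this
              exact this.symm
            rw [e2]
            simp only [mul_assoc]
            rw [← mul_assoc (reflO Q w₀) (reflO Q w₀), reflO_mul_self, one_mul]
          rw [e]
          exact Subgroup.mul_mem _ h1 (reflO_mem_reflClassSubgroup Q
            (by rw [mem_OQ.1 (refl_mem Q w₀)]; exact hcl))
        · right
          exact Subgroup.mul_mem _ h1 (reflO_mem_reflClassSubgroup Q hcl)
      · rcases ih hl' with h1 | h1
        · right
          have e : (l.map (reflO Q)).prod * reflO Q v =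
              ((l.map (reflO Q)).prod * reflO Q w₀) * (reflO Q w₀ * reflO Q v) := by
            simp only [mul_assoc]
            rw [← mul_assoc (reflO Q w₀) (reflO Q w₀), reflO_mul_self, one_mul]
          rw [e]
          exact Subgroup.mul_mem _ h1 (reflO_mul_mem h2 hQ heven h43 hc hw₀ hv nw₀ hcl)
        · left
          rw [mul_assoc]
          exact Subgroup.mul_mem _ h1 (reflO_mul_mem h2 hQ heven h43 hc hv hw₀ hcl nw₀)
  obtain ⟨l, hl, rfl⟩ := exists_prod_reflO hQ h g
  rcases hor l hl with h1 | h1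
  · left
    refine ⟨h1, fun h3 => ?_⟩
    have e1 := hker _ h1
    rw [map_mul, hker _ h3, hχ2 w₀ hw₀ nw₀] at e1
    exact absurd e1 (by decide)
  · right
    refine ⟨h1, fun h3 => ?_⟩
    have e1 := hker _ h3
    rw [map_mul, hker _ h1, hχ2 w₀ hw₀ nw₀] at e1
    exact absurd e1 (by decide)

end Cfsg.Agent.Lib.Helper44
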