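import Cfsg.Agent.Lib.Helper43.RegNilp3
import Cfsg.Agent.Lib.Helper43.GLEquiv

/-!
# Matrices commuting with a regular unipotent matrix (any index type)
-/

namespace Cfsg.Agent.Lib.Helper44

open Module Polynomial Cfsg.Agent.Lib.Helper43

section EndLevel

variable {K V : Type*} [Field K] [AddCommGroup V] [Module K V] [FiniteDimensional K V]

theorem exists_scalar_add_nilpotent (f : V →ₗ[K] V) (n : ℕ) (hn : finrank K V = n) (hf : f ^ n = 0)
    (hker : finrank K (LinearMap.ker f) ≤ 1) (hn1 : 1 ≤ n)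
    (X : V →ₗ[K] V) (hX : ∀ x, X (f x) = f (X x)) :
    ∃ c : K, IsNilpotent (X - algebraMap K (Module.End K V) c) ∧ LinearMap.det X = c ^ n := by
  obtain ⟨p, rfl⟩ := exists_aeval_eq_of_commute f n hn hf hker hn1 X hX
  refine ⟨p.coeff 0, ?_⟩
  have h1 : aeval f p = algebraMap K (Module.End K V) (p.coeff 0)
      + aeval f (p.divX * Polynomial.X) := by
    conv_lhs => rw [← Polynomial.divX_mul_X_add p]
    rw [map_add, aeval_C, add_comm]
  have h2 : IsNilpotent (aeval f (p.divX * Polynomial.X)) := by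
    refine ⟨n, ?_⟩
    rw [← map_pow, mul_pow, map_mul, map_pow _ Polynomial.X, aeval_X, hf, mul_zero]
  constructor
  · rw [h1, add_sub_cancel_left]
    exact h2
  · rw [h1, det_algebraMap_add_nilpotent _ _ h2, hn]

end EndLevel

section MatLevel

variable {ι : Type*} [Fintype ι] [DecidableEq ι] {F : Type*} [Field F]

/-- regular unipotent matrices -/
def RegU (n : ℕ) (A : Matrix ι ι F) : Prop := (A - 1) ^ n = 0 ∧ (A - 1).rank = n - 1

theorem RegU.pow_eq_zero {n : ℕ} {A : Matrix ι ι F} (h : RegU n A) :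
    (Matrix.mulVecLin (A - 1)) ^ n = 0 := by
  rw [← mulVecLin_pow', h.1]; simp

theorem RegU.finrank_ker_le {n : ℕ} (hcard : Fintype.card ι = n) {A : Matrix ι ι F}
    (h : RegU n A) : finrank F (LinearMap.ker (Matrix.mulVecLin (A - 1))) ≤ 1 := by
  have := finrank_ker_mulVecLin (A - 1)
  rw [hcard, h.2] at this
  omega

theorem RegU.transpose {n : ℕ} {A : Matrix ι ι F} (h : RegU n A) : RegU n A.transpose := by
  have e : A.transpose - 1 = (A - 1).transpose := by
    rw [Matrix.transpose_sub, Matrix.transpose_one]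
  refine ⟨?_, ?_⟩
  · rw [e, ← Matrix.transpose_pow, h.1, Matrix.transpose_zero]
  · rw [e, Matrix.rank_transpose, h.2]

theorem RegU.of_mul_eq_one {n : ℕ} {A A' : Matrix ι ι F} (h : RegU n A) (hAA' : A * A' = 1) :
    RegU n A' := by
  have hA'A : A' * A = 1 := mul_eq_one_comm.1 hAA'
  have e : A' - 1 = (-A') * (A - 1) := by
    rw [mul_sub, neg_mul, hA'A, mul_one]; abel
  have hc : Commute (-A') (A - 1) := by
    change -A' * (A - 1) = (A - 1) * -A'
    rw [mul_sub, sub_mul, neg_mul, hA'A, mul_neg, hAA', mul_one, one_mul]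
  refine ⟨?_, ?_⟩
  · rw [e, hc.mul_pow, h.1, mul_zero]
  · rw [e, Matrix.rank_mul_eq_right_of_isUnit_det, h.2]
    rw [Matrix.det_neg]
    have h1 : IsUnit A'.det := by
      apply IsUnit.of_mul_eq_one A.det
      rw [← Matrix.det_mul, hA'A, Matrix.det_one]
    exact (IsUnit.pow _ (isUnit_one.neg)).mul h1

theorem RegU.conj {n : ℕ} {A : Matrix ι ι F} (h : RegU n A) {P P' : Matrix ι ι F}
    (hPP' : P * P' = 1) : RegU n (P * A * P') := by
  have hP'P : P' * P = 1 := mul_eq_one_comm.1 hPP'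
  have e : ∀ k : ℕ, (P * A * P' - 1) ^ k = P * (A - 1) ^ k * P' := by
    intro k
    induction k with
    | zero => rw [pow_zero, pow_zero, mul_one, hPP']
    | succ k ih =>
      rw [pow_succ, ih, pow_succ]
      have : P * A * P' - 1 = P * (A - 1) * P' := by
        rw [mul_sub, sub_mul, mul_one, hPP']
      rw [this]
      calc P * (A - 1) ^ k * P' * (P * (A - 1) * P')
          = P * (A - 1) ^ k * (P' * P) * (A - 1) * P' := by noncomm_ring
        _ = P * ((A - 1) ^ k * (A - 1)) * P' := by rw [hP'P]; noncomm_ring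
  have hP : IsUnit P.det := by
    apply IsUnit.of_mul_eq_one P'.det
    rw [← Matrix.det_mul, hPP', Matrix.det_one]
  have hP' : IsUnit P'.det := by
    apply IsUnit.of_mul_eq_one P.det
    rw [← Matrix.det_mul, hP'P, Matrix.det_one]
  refine ⟨?_, ?_⟩
  · rw [e, h.1, mul_zero, zero_mul]
  · have := e 1
    rw [pow_one, pow_one] at this
    rw [this, Matrix.rank_mul_eq_left_of_isUnit_det _ _ hP',
      Matrix.rank_mul_eq_right_of_isUnit_det _ _ hP, h.2]

theorem RegU.exists_conj {n : ℕ} (hcard : Fintype.card ι = n) (hn : 1 ≤ n) {A A' : Matrix ι ι F}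
    (h : RegU n A) (h' : RegU n A') :
    ∃ g : GL ι F, (g : Matrix ι ι F) * A = A' * (g : Matrix ι ι F) := by
  let f : (ι → F) →ₗ[F] (ι → F) := Matrix.mulVecLin (A - 1)
  let f' : (ι → F) →ₗ[F] (ι → F) := Matrix.mulVecLin (A' - 1)
  have hfin : finrank F (ι → F) = n := by rw [Module.finrank_fintype_fun_eq_card, hcard]
  obtain ⟨X, hX⟩ := exists_equiv_intertwining f f' n hfin hn h.pow_eq_zero
    (h.finrank_ker_le hcard) h'.pow_eq_zero (h'.finrank_ker_le hcard)
  refine ⟨glEquiv.symm X, ?_⟩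
  apply mulVec_ext
  intro v
  have h1 : X ((A - 1).mulVec v) = (A' - 1).mulVec (X v) := hX v
  rw [Matrix.sub_mulVec, Matrix.sub_mulVec, Matrix.one_mulVec, Matrix.one_mulVec, map_sub] at h1
  rw [← Matrix.mulVec_mulVec, ← Matrix.mulVec_mulVec, glEquiv_symm_mulVec, glEquiv_symm_mulVec]
  exact sub_left_injective h1

theorem RegU.exists_scalar {n : ℕ} (hcard : Fintype.card ι = n) (hn : 1 ≤ n) {A : Matrix ι ι F}
    (h : RegU n A) (B : Matrix ι ι F) (hB : B * A = A * B) :
    ∃ c : F, IsNilpotent (B - c • (1 : Matrix ι ι F)) ∧ B.det = c ^ n := by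
  let f : (ι → F) →ₗ[F] (ι → F) := Matrix.mulVecLin (A - 1)
  let X : (ι → F) →ₗ[F] (ι → F) := Matrix.toLin' B
  have hfin : finrank F (ι → F) = n := by rw [Module.finrank_fintype_fun_eq_card, hcard]
  have hX : ∀ x, X (f x) = f (X x) := by
    intro x
    change B.mulVec ((A - 1).mulVec x) = (A - 1).mulVec (B.mulVec x)
    rw [Matrix.mulVec_mulVec, Matrix.mulVec_mulVec, mul_sub, sub_mul, hB, mul_one, one_mul]
  obtain ⟨c, ⟨k, hk⟩, hc⟩ := exists_scalar_add_nilpotent f n hfin h.pow_eq_zero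
    (h.finrank_ker_le hcard) hn X hX
  refine ⟨c, ⟨k, ?_⟩, by rw [← hc, LinearMap.det_toLin']⟩
  have e : Matrix.toLin' B - algebraMap F (Module.End F (ι → F)) c
      = Matrix.toLin' (B - c • (1 : Matrix ι ι F)) := by
    rw [map_sub, map_smul, Matrix.toLin'_one]
    rfl
  rw [e, ← Matrix.toLin'_pow] at hk
  exact Matrix.toLin'.injective (by rw [hk, map_zero])

theorem scalar_eq_of_nilpotent [Nonempty ι] {X : Matrix ι ι F} {a b : F}
    (ha : IsNilpotent (X - a • (1 : Matrix ι ι F))) (hb : IsNilpotent (X - b • (1 : Matrix ι ι F))) :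
    a = b := by
  have hc : Commute (X - b • (1 : Matrix ι ι F)) (X - a • (1 : Matrix ι ι F)) := by
    change (X - b • (1 : Matrix ι ι F)) * (X - a • (1 : Matrix ι ι F))
      = (X - a • (1 : Matrix ι ι F)) * (X - b • (1 : Matrix ι ι F))
    simp only [sub_mul, mul_sub, Matrix.smul_mul, Matrix.mul_smul, one_mul, mul_one]
    rw [smul_comm]
    abel
  obtain ⟨k, hk⟩ := hc.isNilpotent_sub hb ha
  have e : X - b • (1 : Matrix ι ι F) - (X - a • (1 : Matrix ι ι F)) = (a - b) • 1 := by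
    rw [sub_smul]; abel
  rw [e, _root_.smul_pow, one_pow] at hk
  obtain ⟨i⟩ := ‹Nonempty ι›
  have h1 := congrFun (congrFun hk i) i
  simp only [Matrix.smul_apply, Matrix.one_apply_eq, smul_eq_mul, mul_one, Matrix.zero_apply] at h1
  exact sub_eq_zero.1 (pow_eq_zero_iff (M₀ := F) (by rintro rfl; simp at h1) |>.1 h1)

end MatLevel

end Cfsg.Agent.Lib.Helper44
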