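import Cfsg.Agent.Lib.Helper44.RegComm
import Cfsg.Agent.Lib.Helper44.GUSim
import Cfsg.Agent.Lib.Helper44.Avg
import Cfsg.Agent.Lib.Helper43.JordanBlock

/-!
# Regular unipotent elements of the general unitary group
-/

namespace Cfsg.Agent.Lib.Helper44

open Cfsg.Agent.Lib.Helper43 Matrix

theorem exists_regU_GU {K : Type*} [Field K] [Fintype K] {q n : ℕ} (hK : Fintype.card K = q ^ 2)
    (hn : 1 ≤ n) :
    ∃ B : ↥(Cfsg.GU n K q), RegU n ((B : GL (Fin n) K) : Matrix (Fin n) (Fin n) K) := by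
  have hq : q ≠ 0 := by
    rintro rfl
    have : 0 < Fintype.card K := Fintype.card_pos
    rw [hK] at this
    simp at this
  have hJ : RegU n (Cfsg.jordanBlock n K) :=
    ⟨jordanBlock_sub_one_pow n K, rank_jordanBlock_sub_one n K⟩
  let A : GL (Fin n) K := Matrix.SpecialLinearGroup.toGL ⟨Cfsg.jordanBlock n K, det_jordanBlock n K⟩
  have hA : (A : Matrix (Fin n) (Fin n) K) = Cfsg.jordanBlock n K := rfl
  have hmap : (Cfsg.jordanBlock n K).map (fun x : K => x ^ q) = Cfsg.jordanBlock n K := by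
    ext i j
    simp only [Cfsg.jordanBlock, Matrix.map_apply, Matrix.of_apply]
    split_ifs <;> simp [hq]
  have hdet : IsUnit ((Cfsg.jordanBlock n K)ᵀ).det := by
    rw [Matrix.det_transpose, det_jordanBlock]; exact isUnit_one
  have hJ' : RegU n ((Cfsg.jordanBlock n K)ᵀ)⁻¹ :=
    hJ.transpose.of_mul_eq_one (Matrix.mul_nonsing_inv _ hdet)
  obtain ⟨g, hg⟩ := RegU.exists_conj (Fintype.card_fin n) hn hJ hJ'
  obtain ⟨B, hB⟩ := (GU_similar_iff hK A).2 (by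
    rw [hA, hmap]
    exact ⟨g, hg⟩)
  refine ⟨B, ?_⟩
  obtain ⟨c, hc⟩ := isConj_iff.1 hB
  have h1 : ((B : GL (Fin n) K) : Matrix (Fin n) (Fin n) K)
      = (c : Matrix (Fin n) (Fin n) K) * Cfsg.jordanBlock n K
        * ((c⁻¹ : GL (Fin n) K) : Matrix (Fin n) (Fin n) K) := by
    rw [← hc]; rfl
  rw [h1]
  exact hJ.conj (by rw [← Units.val_mul, mul_inv_cancel]; rfl)

theorem norm_one_of_commute_regU {K : Type*} [Field K] [Fintype K] {q n : ℕ}
    (hK : Fintype.card K = q ^ 2) (hn : 1 ≤ n) {A : Matrix (Fin n) (Fin n) K} (hA : RegU n A)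
    (g : GL (Fin n) K) (hg : g ∈ Cfsg.GU n K q)
    (hc : (g : Matrix (Fin n) (Fin n) K) * A = A * (g : Matrix (Fin n) (Fin n) K)) :
    ∃ c : K, c ^ (q + 1) = 1 ∧ (g : Matrix (Fin n) (Fin n) K).det = c ^ n := by
  obtain ⟨σ, hσ, hσσ, -⟩ := exists_frob_sq hK
  have hne : Nonempty (Fin n) := ⟨⟨0, by omega⟩⟩
  obtain ⟨c, ⟨k, hk⟩, hdet⟩ := hA.exists_scalar (Fintype.card_fin n) hn _ hc
  refine ⟨c, ?_, hdet⟩
  have hc0 : c ≠ 0 := by
    rintro rfl
    rw [zero_pow (by omega)] at hdet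
    exact Matrix.GeneralLinearGroup.det_ne_zero g hdet
  have hd := isDagger_conjTranspose (n := Fin n) σ hσσ
  set G := (g : Matrix (Fin n) (Fin n) K) with hG
  have h1 : (G.map σ)ᵀ * G = 1 := (mem_GU_iff σ hσ g).1 hg
  have h2 : G * (G.map σ)ᵀ = 1 := mul_eq_one_comm.1 h1
  have n1 : IsNilpotent ((G.map σ)ᵀ - σ c • (1 : Matrix (Fin n) (Fin n) K)) := by
    refine ⟨k, ?_⟩
    have e : (G.map σ)ᵀ - σ c • (1 : Matrix (Fin n) (Fin n) K)
        = (fun X : Matrix (Fin n) (Fin n) K => (X.map σ)ᵀ) (G - c • (1 : Matrix (Fin n) (Fin n) K)) := by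
      refine Eq.trans ?_ (hd.sub _ _).symm
      change _ = (G.map σ)ᵀ - ((c • (1 : Matrix (Fin n) (Fin n) K)).map σ)ᵀ
      congr 1
      ext i j
      by_cases hij : i = j
      · subst hij; simp
      · simp [Matrix.one_apply, hij, Ne.symm hij]
    rw [e, ← hd.pow, hk, hd.zero]
  have n2 : IsNilpotent ((G.map σ)ᵀ - c⁻¹ • (1 : Matrix (Fin n) (Fin n) K)) := by
    refine ⟨k, ?_⟩
    have e : (G.map σ)ᵀ - c⁻¹ • (1 : Matrix (Fin n) (Fin n) K)
        = (-c⁻¹) • ((G.map σ)ᵀ * (G - c • (1 : Matrix (Fin n) (Fin n) K))) := by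
      rw [mul_sub, h1, Matrix.mul_smul, mul_one, smul_sub, smul_smul, neg_mul, inv_mul_cancel₀ hc0,
        neg_smul, neg_smul, one_smul]
      abel
    have hcm : Commute (G.map σ)ᵀ (G - c • (1 : Matrix (Fin n) (Fin n) K)) := by
      change (G.map σ)ᵀ * (G - c • (1 : Matrix (Fin n) (Fin n) K))
        = (G - c • (1 : Matrix (Fin n) (Fin n) K)) * (G.map σ)ᵀ
      rw [mul_sub, sub_mul, h1, h2, Matrix.mul_smul, Matrix.smul_mul, mul_one, one_mul]
    rw [e, smul_pow, hcm.mul_pow, hk, mul_zero, smul_zero]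
  have h3 := scalar_eq_of_nilpotent n1 n2
  rw [hσ] at h3
  rw [pow_succ, h3, inv_mul_cancel₀ hc0]

end Cfsg.Agent.Lib.Helper44
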