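import Mathlib
import Cfsg.Agent.S2639
import Cfsg.Agent.Lib.Helper45.SimMat
import Cfsg.Agent.Lib.Helper5.GUOrder
import Cfsg.Agent.Lib.Helper44.SpConj

set_option autoImplicit false

namespace Cfsg.Agent.Lib.Helper44

open Matrix Polynomial Cfsg.Agent.Lib.Helper45

/-- two matrices killed by the same irreducible polynomial are similar. -/
theorem conj_of_irreducible_aeval {n : Type*} [Fintype n] [DecidableEq n] {F : Type*} [Field F]
    (A B : Matrix n n F) (g : F[X]) (hg : Irreducible g) (hA : aeval A g = 0)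
    (hB : aeval B g = 0) : ∃ P : GL n F, (P : Matrix n n F) * A = B * (P : Matrix n n F) := by
  obtain ⟨T, hT⟩ := exists_hasType A
  obtain ⟨T', hT'⟩ := exists_hasType B
  have key : ∀ (C : Matrix n n F), aeval C g = 0 → ∀ f : F[X], ¬ g ∣ f →
      (aeval C f).rank = Fintype.card n := by
    intro C hC f hd
    obtain ⟨a, b, hab⟩ := (hg.coprime_iff_not_dvd).2 hd
    have h1 : aeval C b * aeval C f = 1 := by
      have := congrArg (aeval C) hab
      simpa [hC] using this
    exact Matrix.rank_of_isUnit _ (IsUnit.of_mul_eq_one _ (mul_eq_one_comm.1 h1))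
  have : T = T' := hT.eq_of_rank_eq hT' (fun f => by
    by_cases hd : g ∣ f
    · obtain ⟨k, rfl⟩ := hd
      simp [hA, hB]
    · rw [key A hA f hd, key B hB f hd])
  subst this
  exact hT.conj hT'

theorem hermForm_smul_left {n : ℕ} {K : Type*} [Field K] (q : ℕ) (c : K) (u v : Fin n → K) :
    Cfsg.hermForm n K q (c • u) v = c * Cfsg.hermForm n K q u v := by
  simp only [Cfsg.hermForm, Finset.mul_sum, Pi.smul_apply, smul_eq_mul, mul_assoc]

section

variable {F K : Type*} [Field F] [Fintype F] [Field K] [Fintype K] [Algebra F K] {m : ℕ}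

theorem desc_mem_sp (T : (Fin m → K) ≃ₗ[F] (Fin m ⊕ Fin m → F)) (κ : F) (hκ : κ ≠ 0) (ε : K)
    (hT : ∀ u v, κ * ((T u) ⬝ᵥ (J (Fin m) F *ᵥ (T v)))
      = - Algebra.trace F K (ε * Cfsg.hermForm m K (Fintype.card F) u v))
    (M : Matrix (Fin m) (Fin m) K)
    (hM : ∀ u v, Cfsg.hermForm m K (Fintype.card F) (M *ᵥ u) (M *ᵥ v)
      = Cfsg.hermForm m K (Fintype.card F) u v) :
    descMat T M ∈ Matrix.symplecticGroup (Fin m) F := by
  rw [mem_symplecticGroup_iff_form]
  intro x y
  apply mul_left_cancel₀ hκ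
  rw [descMat_mulVec, descMat_mulVec, hT, hM, ← hT,
    LinearEquiv.apply_symm_apply, LinearEquiv.apply_symm_apply]

theorem card_cent_desc (T : (Fin m → K) ≃ₗ[F] (Fin m ⊕ Fin m → F)) (κ : F) (hκ : κ ≠ 0) (ε : K)
    (hε : ε ≠ 0)
    (hT : ∀ u v, κ * ((T u) ⬝ᵥ (J (Fin m) F *ᵥ (T v)))
      = - Algebra.trace F K (ε * Cfsg.hermForm m K (Fintype.card F) u v))
    (ω : K) (hω : ∀ c : K, ∃ a b : F, c = algebraMap F K a + algebraMap F K b * ω)
    (x₀ : Matrix.symplecticGroup (Fin m) F)
    (hx₀ : (x₀ : Matrix (Fin m ⊕ Fin m) (Fin m ⊕ Fin m) F) = descMat T (ω • 1)) :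
    Nat.card (Subgroup.centralizer ({x₀} : Set (Matrix.symplecticGroup (Fin m) F)))
      = Nat.card (Cfsg.GU m K (Fintype.card F)) := by
  have hmem : ∀ g : ↥(Cfsg.GU m K (Fintype.card F)),
      descMat T g.1.1 ∈ Matrix.symplecticGroup (Fin m) F := fun g =>
    desc_mem_sp T κ hκ ε hT g.1.1 ((Cfsg.Agent.S2639.mem_GU g.1).1 g.2)
  symm
  refine Nat.card_congr (Equiv.ofBijective (fun g => ⟨⟨descMat T g.1.1, hmem g⟩, ?_⟩) ⟨?_, ?_⟩)
  · rw [Subgroup.mem_centralizer_singleton_iff]
    apply Subtype.ext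
    show descMat T g.1.1 * x₀.1 = x₀.1 * descMat T g.1.1
    rw [hx₀, ← map_mul, ← map_mul]
    congr 1
    simp
  · intro g h hgh
    apply Subtype.ext
    apply Units.ext
    exact descMat_injective T (congrArg (fun z => z.1.1) hgh)
  · rintro ⟨g, hg⟩
    rw [Subgroup.mem_centralizer_singleton_iff] at hg
    have hg' : g.1 * x₀.1 = x₀.1 * g.1 := congrArg Subtype.val hg
    let L : (Fin m → K) →ₗ[F] (Fin m → K) :=
      T.symm.toLinearMap ∘ₗ Matrix.toLin' g.1 ∘ₗ T.toLinearMap
    have hL : ∀ v, L v = T.symm (g.1 *ᵥ T v) := fun v => rfl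
    have hTL : ∀ v, T (L v) = g.1 *ᵥ T v := fun v => by rw [hL, LinearEquiv.apply_symm_apply]
    have hx : ∀ v, x₀.1 *ᵥ T v = T (ω • v) := by
      intro v
      rw [hx₀, descMat_mulVec, LinearEquiv.symm_apply_apply, smul_mulVec, one_mulVec]
    have hLω : ∀ v, L (ω • v) = ω • L v := by
      intro v
      apply T.injective
      rw [hTL, ← hx, ← hx, hTL, mulVec_mulVec, mulVec_mulVec, hg']
    have hLK : ∀ (c : K) v, L (c • v) = c • L v := by
      intro c v
      obtain ⟨a, b, rfl⟩ := hω c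
      rw [add_smul, add_smul, map_add, mul_smul, mul_smul, algebraMap_smul, algebraMap_smul,
        algebraMap_smul, algebraMap_smul, map_smul, map_smul, hLω]
    let LK : (Fin m → K) →ₗ[K] (Fin m → K) :=
      { toFun := L, map_add' := L.map_add, map_smul' := hLK }
    let M := LinearMap.toMatrix' LK
    have hMv : ∀ v, M *ᵥ v = L v := fun v => LinearMap.toMatrix'_mulVec LK v
    have hdM : descMat T M = g.1 := by
      apply Matrix.toLin'.injective
      apply LinearMap.ext
      intro y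
      rw [toLin'_apply, toLin'_apply, descMat_mulVec, hMv, hTL, LinearEquiv.apply_symm_apply]
    have hgu : IsUnit g.1 := by
      have := (SymplecticGroup.symplectic_det g.2)
      exact (Matrix.isUnit_iff_isUnit_det _).2 this
    have hMu : IsUnit M := by
      rw [← Matrix.mulVec_injective_iff_isUnit]
      intro u v huv
      rw [hMv, hMv] at huv
      have h1 : g.1 *ᵥ T u = g.1 *ᵥ T v := by rw [← hTL, ← hTL, huv]
      exact T.injective ((Matrix.mulVec_injective_iff_isUnit.2 hgu) h1)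
    have hMh : ∀ u v, Cfsg.hermForm m K (Fintype.card F) (M *ᵥ u) (M *ᵥ v)
        = Cfsg.hermForm m K (Fintype.card F) u v := by
      intro u v
      have h1 : ∀ u v, Algebra.trace F K (ε * Cfsg.hermForm m K (Fintype.card F) (L u) (L v))
          = Algebra.trace F K (ε * Cfsg.hermForm m K (Fintype.card F) u v) := by
        intro u v
        have h2 := (mem_symplecticGroup_iff_form g.1).1 g.2 (T u) (T v)
        rw [← hTL, ← hTL] at h2
        have h3 := congrArg (fun z => κ * z) h2
        simp only [hT] at h3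
        exact neg_injective h3
      rw [hMv, hMv]
      by_contra hne
      have hd : Cfsg.hermForm m K (Fintype.card F) (L u) (L v)
        - Cfsg.hermForm m K (Fintype.card F) u v ≠ 0 := sub_ne_zero.2 hne
      obtain ⟨θ, hθ⟩ := exists_trace_quad (F := F) (K := K) 1
      have h4 := h1 ((θ * (ε * (Cfsg.hermForm m K (Fintype.card F) (L u) (L v)
        - Cfsg.hermForm m K (Fintype.card F) u v))⁻¹) • u) v
      rw [hLK, hermForm_smul_left, hermForm_smul_left, ← sub_eq_zero, ← map_sub] at h4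
      have h5 : ε * (θ * (ε * (Cfsg.hermForm m K (Fintype.card F) (L u) (L v)
        - Cfsg.hermForm m K (Fintype.card F) u v))⁻¹ * Cfsg.hermForm m K (Fintype.card F) (L u) (L v))
        - ε * (θ * (ε * (Cfsg.hermForm m K (Fintype.card F) (L u) (L v)
        - Cfsg.hermForm m K (Fintype.card F) u v))⁻¹ * Cfsg.hermForm m K (Fintype.card F) u v) = θ := by
        field_simp
      rw [h5, hθ] at h4
      exact one_ne_zero h4
    refine ⟨⟨hMu.unit, ?_⟩, ?_⟩
    · rw [Cfsg.Agent.S2639.mem_GU]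
      exact hMh
    · apply Subtype.ext
      apply Subtype.ext
      exact hdM

end

theorem card_centralizer_of_isConj {G : Type*} [Group G] {x y : G} (h : IsConj x y) :
    Nat.card (Subgroup.centralizer ({x} : Set G)) = Nat.card (Subgroup.centralizer ({y} : Set G)) := by
  obtain ⟨c, hc⟩ := isConj_iff.1 h
  subst hc
  refine Nat.card_congr ⟨fun g => ⟨c * g.1 * c⁻¹, ?_⟩, fun g => ⟨c⁻¹ * g.1 * c, ?_⟩, ?_, ?_⟩
  · have := Subgroup.mem_centralizer_singleton_iff.1 g.2
    rw [Subgroup.mem_centralizer_singleton_iff]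
    calc c * g.1 * c⁻¹ * (c * x * c⁻¹) = c * (g.1 * x) * c⁻¹ := by group
      _ = c * (x * g.1) * c⁻¹ := by rw [this]
      _ = _ := by group
  · have := Subgroup.mem_centralizer_singleton_iff.1 g.2
    rw [Subgroup.mem_centralizer_singleton_iff]
    calc c⁻¹ * g.1 * c * x = c⁻¹ * (g.1 * (c * x * c⁻¹)) * c := by group
      _ = c⁻¹ * ((c * x * c⁻¹) * g.1) * c := by rw [this]
      _ = _ := by group
  · intro g
    apply Subtype.ext
    show c⁻¹ * (c * g.1 * c⁻¹) * c = g.1
    group
  · intro g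
    apply Subtype.ext
    show c * (c⁻¹ * g.1 * c) * c⁻¹ = g.1
    group

theorem card_GU_int {K : Type*} [Field K] [Fintype K] {q : ℕ} (hK : Fintype.card K = q ^ 2)
    (m : ℕ) : (Nat.card (Cfsg.GU m K q) : ℤ) = (q : ℤ) ^ (m * (m - 1) / 2) *
      ∏ i : Fin m, ((q : ℤ) ^ ((i : ℕ) + 1) - (-1) ^ ((i : ℕ) + 1)) := by
  have hq : 1 ≤ q := by
    rcases Nat.eq_zero_or_pos q with h | h
    · subst h
      simp at hK
    · exact h
  rw [Cfsg.Agent.Lib.Helper5.card_GU hK, Nat.cast_mul, Nat.cast_pow, Nat.cast_prod,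
    Finset.prod_range]
  congr 1
  refine Finset.prod_congr rfl fun i _ => ?_
  have h1 : 1 ≤ q ^ ((i : ℕ) + 1) := Nat.one_le_pow _ _ hq
  split_ifs with h
  · rw [Odd.neg_one_pow h.add_one]
    push_cast
    ring
  · rw [Nat.not_even_iff_odd] at h
    rw [Even.neg_one_pow h.add_one]
    push_cast [Nat.cast_sub h1]
    ring

theorem card_cent_ord3 {F : Type*} [Field F] [Fintype F] (hq : Fintype.card F % 3 = 2) {m : ℕ}
    (x : Matrix.symplecticGroup (Fin m) F) (hx3 : x ^ 3 = 1)
    (hfpf : IsUnit ((x : Matrix (Fin m ⊕ Fin m) (Fin m ⊕ Fin m) F) - 1)) :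
    ∃ (K : Type) (_ : Field K) (_ : Fintype K), Fintype.card K = Fintype.card F ^ 2 ∧
    Nat.card ↥(Subgroup.centralizer ({x} : Set ↥(Matrix.symplecticGroup (Fin m) F)))
      = Nat.card (Cfsg.GU m K (Fintype.card F)) := by
  obtain ⟨p, hpF⟩ := CharP.exists F
  obtain ⟨k, hp, hFc⟩ := FiniteField.card F p
  have := fact_iff.2 hp
  have hp3 : p ≠ 3 := by
    rintro rfl
    rw [hFc] at hq
    have : 3 ∣ 3 ^ (k : ℕ) := dvd_pow_self _ k.ne_zero
    omega
  let K := GaloisField p (2 * k)
  have : Finite K := Nat.finite_of_card_ne_zero (by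
    rw [GaloisField.card p (2 * k) (by have := k.pos; omega)]
    exact pow_ne_zero _ hp.ne_zero)
  let _ : Fintype K := Fintype.ofFinite K
  have hK : Fintype.card K = Fintype.card F ^ 2 := by
    rw [← Nat.card_eq_fintype_card, GaloisField.card p (2 * k) (by have := k.pos; omega), hFc,
      ← pow_mul, mul_comm]
  refine ⟨K, inferInstance, inferInstance, hK, ?_⟩
  obtain ⟨i⟩ := exists_ringHom_of_card_pow hK
  let _ : Algebra F K := i.toAlgebra
  have hfr : Module.finrank F K = 2 := finrank_eq_two_of_card hK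
  let b : Module.Basis (Fin 2) F K := Module.finBasisOfFinrankEq F K hfr
  obtain ⟨ε, hε0, hε⟩ := exists_trace_zero (F := F) (K := K) hfr
  let T : (Fin m → K) ≃ₗ[F] (Fin m ⊕ Fin m → F) :=
    LinearMap.linearEquivOfInjective (Cfsg.Agent.S2639.T₀ m b) (Cfsg.Agent.S2639.T₀_injective m b) (by
      rw [Module.finrank_pi_fintype]
      simp only [Module.finrank_fintype_fun_eq_card, Fintype.card_sum, Fintype.card_fin, hfr]
      simp
      ring)
  have hT : ∀ u v, Cfsg.Agent.S2639.B (F := F) ε (b 0) (b 1) * ((T u) ⬝ᵥ (J (Fin m) F *ᵥ (T v)))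
      = - Algebra.trace F K (ε * Cfsg.hermForm m K (Fintype.card F) u v) :=
    fun u v => Cfsg.Agent.S2639.form_T₀ hfr ε hε m b u v
  have hκ := Cfsg.Agent.S2639.B_ne_zero hfr ε hε0 hε b
  -- no primitive cube root of unity in `F`
  have hnoF : ∀ a : F, a ^ 2 + a + 1 ≠ 0 := by
    intro a ha
    have ha3 : a ^ 3 = 1 := by linear_combination (a - 1) * ha
    have ha0 : a ≠ 0 := by
      rintro rfl
      simp at ha3
    have ha1 : a ≠ 1 := by
      rintro rfl
      have h3 : ((3 : ℕ) : F) = 0 := by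
        push_cast
        linear_combination ha
      rw [CharP.cast_eq_zero_iff F p] at h3
      exact hp3 ((Nat.prime_dvd_prime_iff_eq hp Nat.prime_three).1 h3)
    have ho : orderOf a = 3 := orderOf_eq_prime ha3 ha1
    have h1 : a ^ (Fintype.card F - 1) = 1 := FiniteField.pow_card_sub_one_eq_one a ha0
    have h2 := orderOf_dvd_of_pow_eq_one h1
    rw [ho] at h2
    omega
  -- a primitive cube root of unity in `K`
  obtain ⟨ω, hω2⟩ : ∃ ω : K, ω ^ 2 + ω + 1 = 0 := by
    classical
    have : Fact (Nat.Prime 3) := ⟨Nat.prime_three⟩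
    have hd : 3 ∣ Fintype.card Kˣ := by
      rw [Fintype.card_units, hK]
      have h1 : Fintype.card F ^ 2 % 3 = 1 := by
        rw [Nat.pow_mod, hq]
      omega
    obtain ⟨w, hw⟩ := exists_prime_orderOf_dvd_card 3 hd
    refine ⟨(w : K), ?_⟩
    have hw3 : (w : K) ^ 3 = 1 := by
      have := pow_orderOf_eq_one w
      rw [hw] at this
      have h2 := congrArg Units.val this
      rwa [Units.val_pow_eq_pow_val, Units.val_one] at h2
    have hw1 : (w : K) - 1 ≠ 0 := by
      intro h
      have : w = 1 := Units.ext (sub_eq_zero.1 h)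
      rw [this, orderOf_one] at hw
      omega
    apply mul_left_cancel₀ hw1
    linear_combination hw3
  have hω3 : ω ^ 3 = 1 := by linear_combination (ω - 1) * hω2
  have hωq : ω * ω ^ Fintype.card F = 1 := by
    rw [← pow_succ']
    obtain ⟨j, hj⟩ : 3 ∣ Fintype.card F + 1 := by omega
    rw [hj, pow_mul, hω3, one_pow]
  have hωF : ∀ a : F, algebraMap F K a ≠ ω := by
    rintro a rfl
    apply hnoF a
    apply (algebraMap F K).injective
    simpa using hω2
  have hspan : ∀ c : K, ∃ a b : F, c = algebraMap F K a + algebraMap F K b * ω := by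
    have hli : LinearIndependent F ![(1 : K), ω] := by
      rw [LinearIndependent.pair_iff]
      intro s t hst
      have ht : t = 0 := by
        by_contra ht
        apply hωF (-s / t)
        have ht' : algebraMap F K t ≠ 0 := by simpa using ht
        rw [Algebra.smul_def, Algebra.smul_def, mul_one] at hst
        rw [map_div₀, map_neg, div_eq_iff ht']
        linear_combination -hst
      subst ht
      refine ⟨?_, rfl⟩
      simpa using hst
    let b' := basisOfLinearIndependentOfCardEqFinrank hli (by simp [hfr])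
    intro c
    refine ⟨b'.repr c 0, b'.repr c 1, ?_⟩
    conv_lhs => rw [← b'.sum_repr c]
    simp [b', Fin.sum_univ_two, Algebra.smul_def]
  have hx₀m : descMat T (ω • 1) ∈ Matrix.symplecticGroup (Fin m) F := by
    apply desc_mem_sp T _ hκ ε hT
    intro u v
    simp only [smul_mulVec, one_mulVec]
    rw [hermForm_smul_left]
    simp only [Cfsg.hermForm, Pi.smul_apply, smul_eq_mul, mul_pow]
    rw [Finset.mul_sum]
    refine Finset.sum_congr rfl fun j _ => ?_
    linear_combination (u j * v j ^ Fintype.card F) * hωq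
  let x₀ : Matrix.symplecticGroup (Fin m) F := ⟨descMat T (ω • 1), hx₀m⟩
  rw [← card_cent_desc T _ hκ ε hε0 hT ω hspan x₀ rfl]
  apply card_centralizer_of_isConj
  have hcop : (orderOf x).Coprime p := by
    have h1 : orderOf x ∣ 3 := orderOf_dvd_of_pow_eq_one hx3
    refine Nat.Coprime.coprime_dvd_left h1 ?_
    exact (Nat.coprime_primes Nat.prime_three hp).2 (Ne.symm hp3)
  rw [sp_isConj_iff_gl x x₀ hcop]
  have hirr : Irreducible (X ^ 2 + X + 1 : F[X]) := by
    have hdeg : (X ^ 2 + X + 1 : F[X]).natDegree = 2 := by compute_degree!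
    have hmon : (X ^ 2 + X + 1 : F[X]).Monic := by monicity!
    rw [hmon.irreducible_iff_roots_eq_zero_of_degree_le_three (by omega) (by omega)]
    rw [Multiset.eq_zero_iff_forall_notMem]
    intro a ha
    rw [mem_roots hmon.ne_zero] at ha
    apply hnoF a
    simpa [IsRoot] using ha
  have hxa : aeval (x : Matrix (Fin m ⊕ Fin m) (Fin m ⊕ Fin m) F) (X ^ 2 + X + 1 : F[X]) = 0 := by
    have h3 : (x : Matrix (Fin m ⊕ Fin m) (Fin m ⊕ Fin m) F) ^ 3 = 1 :=
      congrArg Subtype.val hx3
    apply hfpf.mul_left_cancel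
    simp only [map_add, map_pow, aeval_X, map_one, mul_zero]
    have h4 : ((x : Matrix (Fin m ⊕ Fin m) (Fin m ⊕ Fin m) F) - 1) * ((x : Matrix (Fin m ⊕ Fin m) (Fin m ⊕ Fin m) F) ^ 2 + (x : Matrix (Fin m ⊕ Fin m) (Fin m ⊕ Fin m) F) + 1) = (x : Matrix (Fin m ⊕ Fin m) (Fin m ⊕ Fin m) F) ^ 3 - 1 := by
      noncomm_ring
    rw [h4, h3, sub_self]
  have hx₀a : aeval (x₀ : Matrix (Fin m ⊕ Fin m) (Fin m ⊕ Fin m) F) (X ^ 2 + X + 1 : F[X]) = 0 := by
    simp only [map_add, map_pow, aeval_X, map_one]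
    apply Matrix.toLin'.injective
    apply LinearMap.ext
    intro y
    have h1 : ∀ y, (x₀ : Matrix (Fin m ⊕ Fin m) (Fin m ⊕ Fin m) F) *ᵥ y = T (ω • T.symm y) := by
      intro y
      show descMat T (ω • 1) *ᵥ y = _
      rw [descMat_mulVec, smul_mulVec, one_mulVec]
    rw [toLin'_apply, add_mulVec, add_mulVec, sq, ← mulVec_mulVec, h1, h1, one_mulVec,
      LinearEquiv.symm_apply_apply]
    conv_lhs => rw [← T.apply_symm_apply y]
    simp only [LinearEquiv.symm_apply_apply]
    rw [← map_add, ← map_add, smul_smul, ← add_smul]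
    have h5 : (ω * ω + ω) • T.symm y + T.symm y = (ω ^ 2 + ω + 1) • T.symm y := by
      rw [add_smul _ (1 : K), one_smul, sq]
    rw [h5, hω2, zero_smul, map_zero, map_zero, LinearMap.zero_apply]
  obtain ⟨P, hP⟩ := conj_of_irreducible_aeval _ _ _ hirr hxa hx₀a
  exact ⟨P, hP⟩

end Cfsg.Agent.Lib.Helper44
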