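import Cfsg.Agent.Lib.Helper44.InvolSp
import Cfsg.Agent.Lib.Helper38.QSignB

set_option autoImplicit false

namespace Cfsg.Agent.Lib.Helper44

open Module QuadraticMap Matrix Cfsg.Agent.Lib.Helper43.PO Cfsg.Agent.Lib.Helper38.QCnt

variable {F : Type*} [Field F]

/-- linear isometry from `IsoM` -/
theorem exists_linearEquiv_of_isoM {ι κ : Type} [Fintype ι] [DecidableEq ι] [Fintype κ]
    [DecidableEq κ] {P : QuadraticForm F (ι → F)} {R : QuadraticForm F (κ → F)} (h : IsoM P R) :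
    ∃ L : (κ → F) ≃ₗ[F] (ι → F), ∀ w, P (L w) = R w := by
  obtain ⟨M, N, h1, h2, h3⟩ := h
  exact ⟨Matrix.toLin'OfInv h2 h1, h3⟩

section Transport

variable {V W : Type*} [AddCommGroup V] [Module F V] [AddCommGroup W] [Module F W]
  {P : QuadraticForm F V} {R : QuadraticForm F W}

theorem polar_of_isometry (L : W ≃ₗ[F] V) (hL : ∀ w, P (L w) = R w) (x y : W) :
    polar P (L x) (L y) = polar R x y := by
  simp only [polar, ← map_add, hL]

/-- conjugating by a linear isometry -/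
def conjL (L : W ≃ₗ[F] V) (T : W ≃ₗ[F] W) : V ≃ₗ[F] V := (L.symm.trans T).trans L

theorem conjL_apply (L : W ≃ₗ[F] V) (T : W ≃ₗ[F] W) (v : V) :
    conjL L T v = L (T (L.symm v)) := rfl

theorem conjL_apply' (L : W ≃ₗ[F] V) (T : W ≃ₗ[F] W) (w : W) :
    conjL L T (L w) = L (T w) := by rw [conjL_apply, LinearEquiv.symm_apply_apply]

theorem conjL_mem_OQ (L : W ≃ₗ[F] V) (hL : ∀ w, P (L w) = R w) {T : W ≃ₗ[F] W}
    (hT : T ∈ OQ R) : conjL L T ∈ OQ P := by
  intro v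
  obtain ⟨w, rfl⟩ := L.surjective v
  rw [conjL_apply', hL, hL, mem_OQ.1 hT]

theorem conjL_mem_SpL (L : W ≃ₗ[F] V) (hL : ∀ x y, polar P (L x) (L y) = polar R x y)
    {T : W ≃ₗ[F] W} (hT : T ∈ SpL R) : conjL L T ∈ SpL P := by
  intro u v
  obtain ⟨x, rfl⟩ := L.surjective u
  obtain ⟨y, rfl⟩ := L.surjective v
  rw [conjL_apply', conjL_apply', hL, hL, mem_SpL.1 hT]

theorem conjL_pow (L : W ≃ₗ[F] V) (T : W ≃ₗ[F] W) (k : ℕ) : conjL L T ^ k = conjL L (T ^ k) := by
  induction k with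
  | zero =>
    apply LinearEquiv.ext; intro v
    simp [conjL_apply]
  | succ k ih =>
    apply LinearEquiv.ext; intro v
    rw [pow_succ, ih, LinearEquiv.mul_apply, conjL_apply, conjL_apply, conjL_apply,
      LinearEquiv.symm_apply_apply, pow_succ, LinearEquiv.mul_apply]

theorem conjL_one (L : W ≃ₗ[F] V) : conjL L 1 = 1 := by
  apply LinearEquiv.ext; intro v
  simp [conjL_apply]

theorem nilRank_conjL (L : W ≃ₗ[F] V) (T : W ≃ₗ[F] W) : nilRank (conjL L T) = nilRank T := by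
  have : LinearMap.range (((conjL L T : V ≃ₗ[F] V) : V →ₗ[F] V) - LinearMap.id)
      = (LinearMap.range ((T : W →ₗ[F] W) - LinearMap.id)).map (L : W →ₗ[F] V) := by
    ext w
    constructor
    · rintro ⟨x, rfl⟩
      refine ⟨_, ⟨L.symm x, rfl⟩, ?_⟩
      simp only [LinearMap.sub_apply, LinearEquiv.coe_coe, LinearMap.id_apply, map_sub,
        conjL_apply, LinearEquiv.apply_symm_apply]
    · rintro ⟨_, ⟨x, rfl⟩, rfl⟩
      refine ⟨L x, ?_⟩
      simp only [LinearMap.sub_apply, LinearEquiv.coe_coe, LinearMap.id_apply, map_sub,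
        conjL_apply']
  rw [nilRank, this, LinearEquiv.finrank_map_eq]
  rfl

theorem isAltInv_conjL (L : W ≃ₗ[F] V) (hL : ∀ w, P (L w) = R w) (T : W ≃ₗ[F] W) :
    IsAltInv P (conjL L T) ↔ IsAltInv R T := by
  constructor
  · intro h x
    have := h (L x)
    rwa [conjL_apply', polar_of_isometry L hL] at this
  · intro h v
    obtain ⟨x, rfl⟩ := L.surjective v
    rw [conjL_apply', polar_of_isometry L hL]
    exact h x

theorem exists_transport (L : W ≃ₗ[F] V) (hL : ∀ w, P (L w) = R w) {s : ℕ} {alt : Prop}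
    (h : ∃ T ∈ OQ R, T * T = 1 ∧ nilRank T = s ∧ (IsAltInv R T ↔ alt)) :
    ∃ T ∈ OQ P, T * T = 1 ∧ nilRank T = s ∧ (IsAltInv P T ↔ alt) := by
  obtain ⟨T, h1, h2, h3, h4⟩ := h
  refine ⟨conjL L T, conjL_mem_OQ L hL h1, ?_, by rw [nilRank_conjL, h3],
    by rw [isAltInv_conjL L hL, h4]⟩
  rw [← pow_two, conjL_pow, pow_two, h2, conjL_one]

theorem card_OQ_of_isometry (L : W ≃ₗ[F] V) (hL : ∀ w, P (L w) = R w) :
    Nat.card ↥(OQ P) = Nat.card ↥(OQ R) := by
  have hL' : ∀ v, R (L.symm v) = P v := by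
    intro v
    rw [← hL, LinearEquiv.apply_symm_apply]
  refine Nat.card_congr ⟨fun T => ⟨conjL L.symm T.1, conjL_mem_OQ L.symm hL' T.2⟩,
    fun T => ⟨conjL L T.1, conjL_mem_OQ L hL T.2⟩, ?_, ?_⟩
  · intro T
    apply Subtype.ext
    apply LinearEquiv.ext
    intro v
    simp [conjL_apply]
  · intro T
    apply Subtype.ext
    apply LinearEquiv.ext
    intro v
    simp [conjL_apply]

end Transport

theorem exists_inv_std_plus [CharP F 2] (m s : ℕ) (hs0 : 0 < s) (hs : s ≤ m) (alt : Prop)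
    (halt : alt → Even s) :
    ∃ T ∈ OQ (plusQF m F), T * T = 1 ∧ nilRank T = s ∧ (IsAltInv (plusQF m F) T ↔ alt) := by
  by_cases ha : alt
  · obtain ⟨T, h1, h2, h3, h4⟩ := (plus_hypSys m F).exists_alt s hs (halt ha).two_dvd
    exact ⟨T, h1, h2, h3, by simp [h4, ha]⟩
  · obtain ⟨T, h1, h2, h3, h4⟩ := (plus_hypSys m F).exists_nonalt s hs0 hs
    exact ⟨T, h1, h2, h3, by simp [h4, ha]⟩

theorem exists_inv_std_minus [Finite F] [CharP F 2] (k s : ℕ) {a b : F}
    (hab : ∀ z₁ z₂ : F, z₁ ^ 2 + a * z₁ * z₂ + b * z₂ ^ 2 = 0 → z₁ = 0 ∧ z₂ = 0)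
    (hs0 : 0 < s) (hs : s ≤ k + 1) (alt : Prop)
    (halt : alt → Even s ∧ s ≤ k) :
    ∃ T ∈ OQ (minusQF k F a b), T * T = 1 ∧ nilRank T = s ∧
      (IsAltInv (minusQF k F a b) T ↔ alt) := by
  have ha0 : a ≠ 0 := ne_zero_of_anisotropic_char_two hab
  by_cases ha : alt
  · obtain ⟨T, h1, h2, h3, h4⟩ := (minus_hypSys k F a b).exists_alt s (halt ha).2
      (halt ha).1.two_dvd
    exact ⟨T, h1, h2, h3, by simp [h4, ha]⟩
  · obtain ⟨T, h1, h2, h3, h4⟩ := (minus_hypSys k F a b).exists_nonalt_succ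
      (Pi.single (Sum.inr 0) 1) (a⁻¹ • Pi.single (Sum.inr 1) 1)
      (by rw [minusQF_apply]; simp)
      (by intro i; rw [minusQF_polar_single_zero]; simp)
      (by intro i; rw [minusQF_polar_single_zero]; simp)
      (by rw [polar_smul_left, minusQF_polar_single_one]; simp [ha0])
      (by intro i; rw [polar_smul_left, minusQF_polar_single_one]; simp)
      (by intro i; rw [polar_smul_left, minusQF_polar_single_one]; simp) s hs0 hs
    exact ⟨T, h1, h2, h3, by simp [h4, ha]⟩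

/-- every involution of the symplectic group is conjugate into the orthogonal group -/
theorem conj_into_OQ [Fintype F] [CharP F 2] {n : ℕ} {ι : Type} [Fintype ι] [DecidableEq ι]
    (hι : Fintype.card ι = 2 * (n + 1)) (P : QuadraticForm F (ι → F))
    (hP : (polarBilin P).Nondegenerate) (hcase : 0 < exc ⇑P ∨ Odd (n + 1))
    (T : (ι → F) ≃ₗ[F] (ι → F)) (hT : T ∈ SpL P) (h2 : T * T = 1) (h1 : T ≠ 1) :
    ∃ c ∈ SpL P, c * T * c⁻¹ ∈ OQ P := by
  have hs0 : 0 < nilRank T := nilRank_pos h1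
  have hs : nilRank T ≤ n + 1 := by
    have := two_mul_nilRank_le hP hT h2
    rw [finrank_fintype_fun_eq_card, hι] at this
    omega
  obtain ⟨T₁, hT₁, h2', hr, ha⟩ : ∃ T₁ ∈ OQ P, T₁ * T₁ = 1 ∧ nilRank T₁ = nilRank T ∧
      (IsAltInv P T₁ ↔ IsAltInv P T) := by
    rcases sign_dich hι P hP with ⟨hiso, -⟩ | ⟨hiso, hexc⟩
    · obtain ⟨L, hL⟩ := exists_linearEquiv_of_isoM hiso
      exact exists_transport L hL (exists_inv_std_plus (n + 1) _ hs0 hs _
        (fun h => even_nilRank_of_alt hP hT h2 h))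
    · have hodd : Odd (n + 1) := by
        rcases hcase with h | h
        · have := card_pow_mul_pos (F := F) n
          omega
        · exact h
      obtain ⟨ζ, hζ⟩ := exists_aniso F
      obtain ⟨L, hL⟩ := exists_linearEquiv_of_isoM (hiso 1 ζ (aniso_of_irr hζ))
      refine exists_transport L hL (exists_inv_std_minus n _ (aniso_of_irr hζ) hs0 hs _
        (fun h => ?_))
      have he := even_nilRank_of_alt hP hT h2 h
      refine ⟨he, ?_⟩
      obtain ⟨k, hk⟩ := he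
      obtain ⟨j, hj⟩ := hodd
      omega
  have hc := (isConj_SpL_iff hP ⟨T, hT⟩ ⟨T₁, OQ_le_SpL P hT₁⟩ (Subtype.ext h2)
    (Subtype.ext h2')).2 ⟨hr.symm, ha.symm⟩
  obtain ⟨c, hc⟩ := isConj_iff.1 hc
  refine ⟨c.1, c.2, ?_⟩
  have := congrArg Subtype.val hc
  simp only [Subgroup.coe_mul, InvMemClass.coe_inv] at this
  rw [this]
  exact hT₁

theorem exc_pos_of_sing [Fintype F] {n : ℕ} {ι : Type} [Fintype ι] [DecidableEq ι]
    (hι : Fintype.card ι = 2 * (n + 1)) (P : QuadraticForm F (ι → F))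
    (hP : (polarBilin P).Nondegenerate) (U : Submodule F (ι → F)) (hU : ∀ u ∈ U, P u = 0)
    (hdim : finrank F U = n + 1) : 0 < exc ⇑P := by
  rcases sign_dich hι P hP with ⟨-, hexc⟩ | ⟨hiso, -⟩
  · rw [hexc]; exact card_pow_mul_pos n
  · exfalso
    obtain ⟨ζ, hζ⟩ := exists_aniso F
    obtain ⟨L, hL⟩ := exists_linearEquiv_of_isoM (hiso 1 ζ (aniso_of_irr hζ))
    have h0 : ∀ w ∈ U.map (L.symm : (ι → F) →ₗ[F] ((Fin n ⊕ Fin n) ⊕ Fin 2 → F)),
        minusQF n F 1 ζ w = 0 := by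
      rintro _ ⟨u, hu, rfl⟩
      rw [← hL, LinearEquiv.coe_coe, LinearEquiv.apply_symm_apply]
      exact hU u hu
    have h1 := minus_finrank_sing_le (aniso_of_irr hζ) _ h0
    rw [LinearEquiv.finrank_map_eq, hdim] at h1
    omega

/-- if all involutions of type `a_d` are conjugate into the orthogonal group, it is of plus type -/
theorem sing_of_all_conj [Fintype F] [CharP F 2] (d : ℕ) (hd : 0 < d)
    (P : QuadraticForm F (Fin d ⊕ Fin d → F))
    (hpol : ∀ u v, polar P u v = polar (plusQF d F) u v) (heven : Even d)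
    (hall : ∀ T ∈ SpL P, T * T = 1 → T ≠ 1 → ∃ c ∈ SpL P, c * T * c⁻¹ ∈ OQ P) :
    ∃ U : Submodule F (Fin d ⊕ Fin d → F), (∀ u ∈ U, P u = 0) ∧ finrank F U = d := by
  obtain ⟨T₀, h1, h2, h3, h4⟩ := (plus_hypSys d F).exists_alt d le_rfl heven.two_dvd
  have hT₀ : T₀ ∈ SpL P := by
    intro x y
    rw [hpol, hpol]
    exact OQ_le_SpL _ h1 x y
  have hne : T₀ ≠ 1 := by
    rintro rfl
    rw [nilRank_one] at h3
    omega
  obtain ⟨c, hc, hcT⟩ := hall T₀ hT₀ h2 hne
  have halt : IsAltInv P (c * T₀ * c⁻¹) := by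
    rw [isAltInv_conj hc]
    intro x
    rw [hpol]
    exact h4 x
  refine ⟨_, Q_range_eq_zero_of_alt hcT halt, ?_⟩
  have := nilRank_conj c T₀
  rw [h3] at this
  exact this

end Cfsg.Agent.Lib.Helper44
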