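import Cfsg.Agent.Lib.Helper44.SpQuad1
import Cfsg.Agent.Lib.Helper5.SpOrder
import Cfsg.Agent.S0287
import Cfsg.Agent.S0288

set_option autoImplicit false

namespace Cfsg.Agent.Lib.Helper44

open Module QuadraticMap Matrix Cfsg.Agent.Lib.Helper43.PO Cfsg.Agent.Lib.Helper38.QCnt

variable {F : Type*} [Field F]

theorem spquad_arith (q n X Pr A : ℕ) (hq : 2 ≤ q) (hPi : 0 < Pr) (hA : 0 < A) :
    (2 * A * (q ^ (n + 1) - 1) * Pr * X = A * q ^ (n + 1) * (Pr * (q ^ (2 * (n + 1)) - 1)) →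
      X * 2 = q ^ (n + 1) * (q ^ (n + 1) + 1)) ∧
    (2 * A * (q ^ (n + 1) + 1) * Pr * X = A * q ^ (n + 1) * (Pr * (q ^ (2 * (n + 1)) - 1)) →
      X * 2 = q ^ (n + 1) * (q ^ (n + 1) - 1)) := by
  have h2 : 2 ≤ q ^ (n + 1) := le_trans hq (Nat.le_self_pow (by omega) q)
  obtain ⟨t, ht⟩ : ∃ t, q ^ (n + 1) = t + 1 := ⟨q ^ (n + 1) - 1, by omega⟩
  have ht0 : 0 < t := by omega
  have e1 : q ^ (2 * (n + 1)) - 1 = t * (t + 2) := by
    have : q ^ (2 * (n + 1)) = t * (t + 2) + 1 := by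
      rw [mul_comm 2, pow_mul, ht]; ring
    omega
  rw [e1, ht]
  simp only [Nat.add_sub_cancel]
  constructor
  · intro h
    apply Nat.eq_of_mul_eq_mul_left (Nat.mul_pos (Nat.mul_pos hA ht0) hPi)
    linarith
  · intro h
    apply Nat.eq_of_mul_eq_mul_left (Nat.mul_pos (Nat.mul_pos hA (by omega : 0 < t + 2)) hPi)
    linarith

theorem relIndex_formula [Fintype F] [CharP F 2] (n : ℕ)
    (P : QuadraticForm F (Fin (n + 1) ⊕ Fin (n + 1) → F)) (hP : (polarBilin P).Nondegenerate)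
    (hpol : ∀ u v, polar P u v = polar (plusQF (n + 1) F) u v) :
    (0 < exc ⇑P → (OQ P).relIndex (SpL P) * 2
      = Fintype.card F ^ (n + 1) * (Fintype.card F ^ (n + 1) + 1)) ∧
    (exc ⇑P < 0 → (OQ P).relIndex (SpL P) * 2
      = Fintype.card F ^ (n + 1) * (Fintype.card F ^ (n + 1) - 1)) := by
  have hι : Fintype.card (Fin (n + 1) ⊕ Fin (n + 1)) = 2 * (n + 1) := by
    simp only [Fintype.card_sum, Fintype.card_fin]; omega
  have hq : 2 ≤ Fintype.card F := Fintype.one_lt_card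
  set q := Fintype.card F with hqdef
  have hSp : SpL P = SpL (plusQF (n + 1) F) := by
    ext g
    simp only [mem_SpL, hpol]
  have cardSp : Nat.card ↥(SpL P) = q ^ ((n + 1) ^ 2) *
      ∏ i ∈ Finset.range (n + 1), (q ^ (2 * (i + 1)) - 1) := by
    rw [hSp, ← Nat.card_congr (spEquiv (n + 1)).toEquiv,
      Cfsg.Agent.Lib.Helper5.card_symplecticGroup]
  have key : Nat.card ↥(OQ P) * (OQ P).relIndex (SpL P) = Nat.card ↥(SpL P) := by
    have := Subgroup.relIndex_mul_relIndex ⊥ (OQ P) (SpL P) bot_le (OQ_le_SpL P)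
    rwa [Subgroup.relIndex_bot_left, Subgroup.relIndex_bot_left] at this
  have hPi : 0 < ∏ i ∈ Finset.range n, (q ^ (2 * (i + 1)) - 1) := by
    apply Finset.prod_pos
    intro i _
    have : 2 ≤ q ^ (2 * (i + 1)) := le_trans hq (Nat.le_self_pow (by omega) q)
    omega
  have hA : 0 < q ^ ((n + 1) * n) := pow_pos (by omega) _
  have hpw : q ^ ((n + 1) ^ 2) = q ^ ((n + 1) * n) * q ^ (n + 1) := by
    rw [← pow_add]; congr 1; ring
  rw [cardSp, Finset.prod_range_succ, hpw] at key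
  have har := spquad_arith q n ((OQ P).relIndex (SpL P)) _ _ hq hPi hA
  have hpos := card_pow_mul_pos (F := F) n
  rcases sign_dich hι P hP with ⟨hiso, hexc⟩ | ⟨hiso, hexc⟩
  · refine ⟨fun _ => ?_, fun h => by omega⟩
    obtain ⟨L, hL⟩ := exists_linearEquiv_of_isoM hiso
    have cardO : Nat.card ↥(OQ P) = 2 * q ^ ((n + 1) * n) * (q ^ (n + 1) - 1) *
        ∏ i ∈ Finset.range n, (q ^ (2 * (i + 1)) - 1) := by
      rw [card_OQ_of_isometry L hL, ← Nat.card_congr (isoEquiv (plusQF (n + 1) F)).toEquiv,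
        plusQF_coe]
      exact Cfsg.Agent.S0287.result rfl (n + 1) (by omega)
    rw [cardO] at key
    exact har.1 key
  · refine ⟨fun h => by omega, fun _ => ?_⟩
    obtain ⟨ζ, hζ⟩ := exists_aniso F
    obtain ⟨L, hL⟩ := exists_linearEquiv_of_isoM (hiso 1 ζ (aniso_of_irr hζ))
    have cardO : Nat.card ↥(OQ P) = 2 * q ^ ((n + 1) * n) * (q ^ (n + 1) + 1) *
        ∏ i ∈ Finset.range n, (q ^ (2 * (i + 1)) - 1) := by
      rw [card_OQ_of_isometry L hL, ← Nat.card_congr (isoEquiv (minusQF n F 1 ζ)).toEquiv,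
        minusQF_coe]
      exact Cfsg.Agent.S0288.result rfl (n + 1) (by omega) 1 ζ (aniso_of_irr hζ)
    rw [cardO] at key
    exact har.2 key

end Cfsg.Agent.Lib.Helper44
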