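import Cfsg.Agent.Lib.Helper44.RegComm
import Cfsg.Agent.Lib.Helper44.Avg

/-!
# Regular unipotent elements of the symplectic group: the adjoint and similitudes
-/

set_option autoImplicit false

namespace Cfsg.Agent.Lib.Helper44

open Matrix

theorem IsDagger.isNilpotent {M : Type*} [Ring M] {d : M → M} (hd : IsDagger d) {x : M}
    (h : IsNilpotent x) : IsNilpotent (d x) := by
  obtain ⟨k, hk⟩ := h
  exact ⟨k, by rw [← hd.pow, hk, hd.zero]⟩

/-- a unipotent element in odd characteristic has a square root among its powers. -/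
theorem exists_sqrt_unip {M : Type*} [Ring M] (p : ℕ) [Fact p.Prime] [CharP M p] (hp : p ≠ 2)
    {a : M} (ha : IsNilpotent (a - 1)) :
    ∃ i j : ℕ, a ^ i * a ^ i = a ∧ a ^ i * a ^ j = 1 ∧ a ^ j * a ^ i = 1 := by
  obtain ⟨k, hk⟩ := ha
  have h2 : 2 ≤ p := (Fact.out : p.Prime).two_le
  have hk' : k ≤ p ^ k := (Nat.lt_pow_self (by omega)).le
  have h1 : a ^ p ^ k = 1 := by
    have e : a = (a - 1) + 1 := by abel
    rw [e, add_pow_char_pow_of_commute p k (Commute.one_right _), one_pow,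
      pow_eq_zero_of_le hk' hk, zero_add]
  have hodd : Odd (p ^ k) := ((Fact.out : p.Prime).odd_of_ne_two hp).pow
  obtain ⟨l, hl⟩ := hodd
  refine ⟨l + 1, l, ?_, ?_, ?_⟩
  · rw [← pow_add, show l + 1 + (l + 1) = p ^ k + 1 by omega, pow_succ, h1, one_mul]
  · rw [← pow_add, show l + 1 + l = p ^ k by omega, h1]
  · rw [← pow_add, show l + (l + 1) = p ^ k by omega, h1]

section sp

variable {F : Type*} [Field F] {m : ℕ}

/-- the adjoint with respect to the standard symplectic form. -/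
def dJ (X : Matrix (Fin m ⊕ Fin m) (Fin m ⊕ Fin m) F) : Matrix (Fin m ⊕ Fin m) (Fin m ⊕ Fin m) F :=
  -(J (Fin m) F * Xᵀ * J (Fin m) F)

theorem isDagger_dJ :
    IsDagger (dJ : Matrix (Fin m ⊕ Fin m) (Fin m ⊕ Fin m) F → Matrix (Fin m ⊕ Fin m) (Fin m ⊕ Fin m) F) where
  add x y := by
    unfold dJ
    rw [transpose_add, mul_add, add_mul, neg_add]
  mul x y := by
    unfold dJ
    rw [transpose_mul, neg_mul_neg]
    have h : J (Fin m) F * yᵀ * J (Fin m) F * (J (Fin m) F * xᵀ * J (Fin m) F) =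
        J (Fin m) F * yᵀ * (J (Fin m) F * J (Fin m) F) * xᵀ * J (Fin m) F := by
      simp only [Matrix.mul_assoc]
    rw [h, J_squared]
    simp only [Matrix.mul_neg, Matrix.neg_mul, Matrix.mul_one, Matrix.mul_assoc]
  one := by
    unfold dJ
    rw [transpose_one, Matrix.mul_one, J_squared, neg_neg]
  invol x := by
    unfold dJ
    rw [transpose_neg, transpose_mul, transpose_mul, transpose_transpose, J_transpose]
    have h : J (Fin m) F * -(-J (Fin m) F * (x * -J (Fin m) F)) * J (Fin m) F =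
        -((J (Fin m) F * J (Fin m) F) * x * (J (Fin m) F * J (Fin m) F)) := by
      simp only [Matrix.mul_neg, Matrix.neg_mul, neg_neg, Matrix.mul_assoc]
    rw [h, J_squared]
    simp

theorem dJ_smul (c : F) (X : Matrix (Fin m ⊕ Fin m) (Fin m ⊕ Fin m) F) :
    dJ (c • X) = c • dJ X := by
  unfold dJ
  rw [transpose_smul, Matrix.mul_smul, Matrix.smul_mul, smul_neg]

theorem mem_sp_iff (g : Matrix (Fin m ⊕ Fin m) (Fin m ⊕ Fin m) F) :
    g ∈ symplecticGroup (Fin m) F ↔ g * dJ g = 1 := by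
  rw [SymplecticGroup.mem_iff]
  unfold dJ
  constructor
  · intro h
    rw [Matrix.mul_neg, ← Matrix.mul_assoc, ← Matrix.mul_assoc, h, J_squared, neg_neg]
  · intro h
    have h1 : g * J (Fin m) F * gᵀ * J (Fin m) F = -1 := by
      rw [Matrix.mul_neg, ← Matrix.mul_assoc, ← Matrix.mul_assoc, neg_eq_iff_eq_neg] at h
      exact h
    have h2 := congrArg (fun X => X * J (Fin m) F) h1
    simp only [Matrix.mul_assoc, J_squared] at h2
    simp only [Matrix.mul_neg, Matrix.mul_one, Matrix.neg_mul, Matrix.one_mul, neg_inj] at h2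
    rw [Matrix.mul_assoc]
    exact h2

theorem mem_sp_iff' (g : Matrix (Fin m ⊕ Fin m) (Fin m ⊕ Fin m) F) :
    g ∈ symplecticGroup (Fin m) F ↔ dJ g * g = 1 := by
  rw [mem_sp_iff]
  exact mul_eq_one_comm

end sp


section reg

variable {F : Type*} [Field F] {m : ℕ}

theorem card_spI : Fintype.card (Fin m ⊕ Fin m) = 2 * m := by
  simp only [Fintype.card_sum, Fintype.card_fin]
  omega

/-- two regular unipotent symplectic matrices are conjugate under a similitude. -/
theorem exists_simil_of_regU (p : ℕ) [Fact p.Prime] [CharP F p] (hp : p ≠ 2) (hm : 1 ≤ m)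
    {u u' : Matrix (Fin m ⊕ Fin m) (Fin m ⊕ Fin m) F}
    (hu : u * dJ u = 1) (hu' : u' * dJ u' = 1) (h : RegU (2 * m) u) (h' : RegU (2 * m) u') :
    ∃ (x x' : Matrix (Fin m ⊕ Fin m) (Fin m ⊕ Fin m) F) (c : F), c ≠ 0 ∧ x * x' = 1 ∧ x' * x = 1 ∧
      x * u = u' * x ∧ dJ x * x = c • 1 := by
  have hd := isDagger_dJ (F := F) (m := m)
  have : Nonempty (Fin m ⊕ Fin m) := ⟨Sum.inl ⟨0, hm⟩⟩
  obtain ⟨g, hg⟩ := RegU.exists_conj card_spI (by omega) h h'
  obtain ⟨G, G', hGG', hG'G⟩ := g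
  change G * u = u' * G at hg
  have hud' : dJ u' * u' = 1 := mul_eq_one_comm.1 hu'
  have h1 : dJ G * u' = u * dJ G := by
    have h2 := congrArg dJ hg
    rw [hd.mul, hd.mul] at h2
    calc dJ G * u' = u * (dJ u * dJ G) * u' := by rw [← mul_assoc u, hu, one_mul]
      _ = u * (dJ G * dJ u') * u' := by rw [h2]
      _ = u * dJ G := by rw [mul_assoc, mul_assoc, hud', mul_one]
  have hau : dJ G * G * u = u * (dJ G * G) := by rw [mul_assoc, hg, ← mul_assoc, h1, mul_assoc]
  have hda : dJ (dJ G * G) = dJ G * G := by rw [hd.mul, hd.invol]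
  obtain ⟨c, hc, hdet⟩ := RegU.exists_scalar card_spI (by omega) h _ hau
  have hc0 : c ≠ 0 := by
    rintro rfl
    rw [zero_pow (by omega)] at hdet
    have h3 : (dJ G * G) * (G' * dJ G') = 1 := by
      rw [mul_assoc, ← mul_assoc G, hGG', one_mul, ← hd.mul, hG'G, hd.one]
    have h4 := congrArg Matrix.det h3
    rw [det_mul, hdet, zero_mul, det_one] at h4
    exact zero_ne_one h4
  have hnil : IsNilpotent (c⁻¹ • (dJ G * G) - 1) := by
    have e : c⁻¹ • (dJ G * G) - 1 = c⁻¹ • (dJ G * G - c • 1) := by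
      rw [smul_sub, smul_smul, inv_mul_cancel₀ hc0, one_smul]
    rw [e]
    exact hc.smul c⁻¹
  obtain ⟨i, j, e1, e2, e3⟩ := exists_sqrt_unip p hp hnil
  have ha : dJ G * G = c • (c⁻¹ • (dJ G * G)) := by
    rw [smul_smul, mul_inv_cancel₀ hc0, one_smul]
  generalize hA : c⁻¹ • (dJ G * G) = a₁ at e1 e2 e3 ha
  have hda₁ : dJ a₁ = a₁ := by rw [← hA, dJ_smul, hda]
  have ha₁u : Commute a₁ u := by
    rw [← hA]
    exact Commute.smul_left hau c⁻¹
  refine ⟨G * a₁ ^ j, a₁ ^ i * G', c, hc0, ?_, ?_, ?_, ?_⟩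
  · rw [mul_assoc, ← mul_assoc (a₁ ^ j), e3, one_mul, hGG']
  · rw [mul_assoc, ← mul_assoc G', hG'G, one_mul, e2]
  · rw [mul_assoc, (ha₁u.pow_left j).eq, ← mul_assoc, hg, mul_assoc]
  · rw [hd.mul, hd.pow, hda₁, mul_assoc, ← mul_assoc (dJ G), ha, Matrix.smul_mul, Matrix.mul_smul]
    congr 1
    calc a₁ ^ j * (a₁ * a₁ ^ j) = a₁ ^ j * ((a₁ ^ i * a₁ ^ i) * a₁ ^ j) := by rw [e1]
      _ = 1 := by rw [mul_assoc, e2, mul_one, e3]

/-- a similitude with square multiplier can be rescaled to a symplectic matrix. -/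
theorem exists_sp_of_simil {u u' x : Matrix (Fin m ⊕ Fin m) (Fin m ⊕ Fin m) F} {t : F} (ht : t ≠ 0)
    (hx : x * u = u' * x) (hxx : dJ x * x = (t * t) • 1) :
    ∃ y : Matrix (Fin m ⊕ Fin m) (Fin m ⊕ Fin m) F, y ∈ symplecticGroup (Fin m) F ∧
      y * u = u' * y := by
  refine ⟨t⁻¹ • x, ?_, ?_⟩
  · rw [mem_sp_iff', dJ_smul, Matrix.smul_mul, Matrix.mul_smul, hxx, smul_smul, smul_smul]
    have : t⁻¹ * t⁻¹ * (t * t) = 1 := by field_simp
    rw [this, one_smul]
  · rw [Matrix.smul_mul, Matrix.mul_smul, hx]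

/-- the multiplier of a similitude commuting with a regular unipotent matrix is a square. -/
theorem isSquare_of_commute_regU (hm : 1 ≤ m) {u x : Matrix (Fin m ⊕ Fin m) (Fin m ⊕ Fin m) F}
    {l : F} (h : RegU (2 * m) u) (hx : x * u = u * x) (hxx : dJ x * x = l • 1) (hl : l ≠ 0) :
    ∃ c : F, IsNilpotent (x - c • 1) ∧ l = c * c := by
  have hd := isDagger_dJ (F := F) (m := m)
  have : Nonempty (Fin m ⊕ Fin m) := ⟨Sum.inl ⟨0, hm⟩⟩
  obtain ⟨c, hc, -⟩ := RegU.exists_scalar card_spI (by omega) h x hx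
  refine ⟨c, hc, ?_⟩
  have hc' : IsNilpotent (dJ x - c • 1) := by
    have := hd.isNilpotent hc
    rwa [hd.sub, dJ_smul, hd.one] at this
  have hcomm : Commute (dJ x) x := by
    have h1 : (l⁻¹ • dJ x) * x = 1 := by
      rw [Matrix.smul_mul, hxx, smul_smul, inv_mul_cancel₀ hl, one_smul]
    have h2 : x * (l⁻¹ • dJ x) = 1 := mul_eq_one_comm.1 h1
    have h3 : x * dJ x = l • 1 := by
      rw [Matrix.mul_smul] at h2
      rw [← h2, smul_smul, mul_inv_cancel₀ hl, one_smul]
    show dJ x * x = x * dJ x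
    rw [hxx, h3]
  have hcomm2 : Commute (dJ x - c • 1) (x - c • 1) := by
    apply Commute.sub_left
    · apply Commute.sub_right hcomm
      exact (Commute.one_right _).smul_right c
    · exact ((Commute.one_left _).smul_left c)
  have e : dJ x * x - (c * c) • 1 =
      (dJ x - c • 1) * (x - c • 1) + c • (x - c • 1) + c • (dJ x - c • 1) := by
    simp only [sub_mul, mul_sub, Matrix.smul_mul, Matrix.mul_smul, one_mul, mul_one, smul_sub,
      smul_smul]
    abel
  have hn : IsNilpotent (dJ x * x - (c * c) • 1) := by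
    rw [e]
    apply Commute.isNilpotent_add
    · apply Commute.add_left
      · exact ((Commute.refl _).mul_left hcomm2.symm).smul_right c |>.symm.symm
      · exact (hcomm2.symm.smul_left c).smul_right c
    · apply Commute.isNilpotent_add
      · exact ((hcomm2).mul_left (Commute.refl _)).smul_right c
      · exact hcomm2.isNilpotent_mul_right hc'
      · exact hc.smul c
    · exact hc'.smul c
  exact scalar_eq_of_nilpotent (X := dJ x * x) (by rw [hxx, sub_self]; exact IsNilpotent.zero) hn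

end reg

end Cfsg.Agent.Lib.Helper44
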