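import Cfsg.Agent.Lib.Helper44.SpRegEx
import Cfsg.Agent.Lib.Helper44.Cayley

/-!
# The centralizer of a regular unipotent element of `Sp_{2m}(q)`, `q` odd
-/

set_option autoImplicit false

namespace Cfsg.Agent.Lib.Helper44

open Matrix Module Cfsg.Agent.Lib.Helper43

section coords

variable {ι : Type*} [Fintype ι] [DecidableEq ι] {F : Type*} [Field F] {n : ℕ}

/-- polynomials of degree `< n` in `s`. -/
def polyS (s : Matrix ι ι F) (c : Fin n → F) : Matrix ι ι F := ∑ k : Fin n, c k • s ^ (k : ℕ)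

theorem commute_polyS {s X : Matrix ι ι F} (h : Commute X s) (c : Fin n → F) :
    Commute X (polyS s c) := by
  unfold polyS
  exact Commute.sum_right _ _ _ (fun k _ => (h.pow_right _).smul_right _)

variable (hcard : Fintype.card ι = n) (hn : 1 ≤ n) {s : Matrix ι ι F} (hs : s ^ n = 0)
  (hr : s.rank = n - 1)

include hcard hn hs hr

theorem exists_cyclic_basis : ∃ (v : ι → F) (b : Basis (Fin n) F (ι → F)),
    (∀ k : Fin n, b k = (s ^ (k : ℕ)) *ᵥ v) ∧
    ∀ X Y : Matrix ι ι F, X * s = s * X → Y * s = s * Y → X *ᵥ v = Y *ᵥ v → X = Y := by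
  have hfin : finrank F (ι → F) = n := by rw [Module.finrank_fintype_fun_eq_card, hcard]
  have hf : (Matrix.mulVecLin s) ^ n = 0 := by rw [← mulVecLin_pow', hs]; simp
  have hker : finrank F (LinearMap.ker (Matrix.mulVecLin s)) ≤ 1 := by
    have := finrank_ker_mulVecLin s
    rw [hcard, hr] at this
    omega
  obtain ⟨v, hv⟩ := exists_cyclic (Matrix.mulVecLin s) n hfin hn hker
  refine ⟨v, cyclicBasis _ n hfin hf hker v hv, ?_, ?_⟩
  · intro k
    rw [cyclicBasis_apply, ← mulVecLin_pow']
    rfl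
  · intro X Y hX hY h
    have := eq_of_commute_of_cyclic (Matrix.mulVecLin s) n hfin hf hker v hv
      (Matrix.mulVecLin X) (Matrix.mulVecLin Y)
      (fun x => by
        simp only [Matrix.mulVecLin_apply, Matrix.mulVec_mulVec, hX])
      (fun x => by
        simp only [Matrix.mulVecLin_apply, Matrix.mulVec_mulVec, hY]) h
    apply mulVec_ext
    intro w
    exact LinearMap.congr_fun this w

theorem polyS_injective : Function.Injective (polyS s : (Fin n → F) → Matrix ι ι F) := by
  obtain ⟨v, b, hb, -⟩ := exists_cyclic_basis hcard hn hs hr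
  intro c c' h
  have h1 : ∀ c : Fin n → F, polyS s c *ᵥ v = b.equivFun.symm c := by
    intro c
    rw [Basis.equivFun_symm_apply]
    unfold polyS
    rw [Matrix.sum_mulVec]
    apply Finset.sum_congr rfl
    intro k _
    rw [Matrix.smul_mulVec, hb]
  apply b.equivFun.symm.injective
  rw [← h1, ← h1, h]

theorem exists_polyS_eq (X : Matrix ι ι F) (hX : X * s = s * X) : ∃ c : Fin n → F, X = polyS s c := by
  obtain ⟨v, b, hb, huniq⟩ := exists_cyclic_basis hcard hn hs hr
  refine ⟨b.equivFun (X *ᵥ v), ?_⟩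
  apply huniq _ _ hX (commute_polyS (Commute.refl s) _).symm.eq
  have h1 : ∀ c : Fin n → F, polyS s c *ᵥ v = b.equivFun.symm c := by
    intro c
    rw [Basis.equivFun_symm_apply]
    unfold polyS
    rw [Matrix.sum_mulVec]
    apply Finset.sum_congr rfl
    intro k _
    rw [Matrix.smul_mulVec, hb]
  rw [h1, LinearEquiv.symm_apply_apply]

end coords

theorem card_odd_coords {F : Type*} [Field F] [Fintype F] (m : ℕ) :
    Nat.card {c : Fin (2 * m) → F // ∀ k : Fin (2 * m), Even (k : ℕ) → c k = 0} = Fintype.card F ^ m := by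
  have e : {c : Fin (2 * m) → F // ∀ k : Fin (2 * m), Even (k : ℕ) → c k = 0} ≃ (Fin m → F) :=
    { toFun := fun c j => c.1 ⟨2 * j + 1, by have := j.2; omega⟩
      invFun := fun d => ⟨fun k => if Even (k : ℕ) then 0 else d ⟨k / 2, by have := k.2; omega⟩,
        fun k hk => by simp [hk]⟩
      left_inv := by
        intro c
        apply Subtype.ext
        funext k
        by_cases hk : Even (k : ℕ)
        · simp [hk, c.2 k hk]
        · simp only [hk, if_false]
          apply congrArg c.1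
          apply Fin.ext
          have := Nat.not_even_iff_odd.1 hk
          obtain ⟨l, hl⟩ := this
          simp only
          omega
      right_inv := by
        intro d
        funext j
        have h1 : ¬ Even (2 * (j : ℕ) + 1) := by
          rw [Nat.not_even_iff_odd]; exact ⟨j, rfl⟩
        simp only [h1, if_false]
        apply congrArg d
        apply Fin.ext
        simp only
        omega }
  rw [Nat.card_congr e, Nat.card_eq_fintype_card, Fintype.card_fun, Fintype.card_fin]


section cent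

variable {F : Type*} [Field F] {m : ℕ}

theorem two_mul_half (h2 : (2 : F) ≠ 0) :
    (2 : Matrix (Fin m ⊕ Fin m) (Fin m ⊕ Fin m) F) * ((2 : F)⁻¹ • 1) = 1 := by
  have e : (2 : Matrix (Fin m ⊕ Fin m) (Fin m ⊕ Fin m) F) = 1 + 1 := one_add_one_eq_two.symm
  rw [Matrix.mul_smul, mul_one, e, smul_add, ← add_smul]
  have : (2 : F)⁻¹ + 2⁻¹ = 1 := by field_simp; norm_num
  rw [this, one_smul]

theorem half_commute (y : Matrix (Fin m ⊕ Fin m) (Fin m ⊕ Fin m) F) :
    Commute ((2 : F)⁻¹ • (1 : Matrix (Fin m ⊕ Fin m) (Fin m ⊕ Fin m) F)) y :=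
  (Commute.one_left y).smul_left _

theorem skew_regular (h2 : (2 : F) ≠ 0) {u : Matrix (Fin m ⊕ Fin m) (Fin m ⊕ Fin m) F}
    (hu : u * dJ u = 1) (h : RegU (2 * m) u) :
    (u - dJ u) ^ (2 * m) = 0 ∧ (u - dJ u).rank = 2 * m - 1 := by
  have hud : dJ u * u = 1 := mul_eq_one_comm.1 hu
  have hnil : IsNilpotent (u - 1) := ⟨_, h.1⟩
  have hunit : IsUnit (1 + u) := isUnit_one_add_of_unip (two_mul_half h2) half_commute hnil
  have hcu : Commute u (dJ u) := by
    show u * dJ u = dJ u * u
    rw [hu, hud]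
  have key := RegU.of_mul_unit (N := u - 1) (W := dJ u * (1 + u)) (B := 1 + (u - dJ u)) h.1 h.2
    (by
      apply Commute.sub_left _ (Commute.one_left _)
      exact hcu.mul_right ((Commute.one_right u).add_right (Commute.refl u)))
    (by
      rw [det_mul]
      exact ((Matrix.isUnit_iff_isUnit_det _).1 ⟨⟨dJ u, u, hud, hu⟩, rfl⟩).mul
        ((Matrix.isUnit_iff_isUnit_det _).1 hunit))
    (by
      rw [← mul_assoc, sub_mul, hu, one_mul, sub_mul, mul_add, mul_add, hud]
      simp only [mul_one, one_mul]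
      abel)
  unfold RegU at key
  rwa [add_sub_cancel_left] at key

theorem isNilpotent_of_skew (h2 : (2 : F) ≠ 0) (hm : 1 ≤ m)
    {u X : Matrix (Fin m ⊕ Fin m) (Fin m ⊕ Fin m) F} (h : RegU (2 * m) u) (hX : X * u = u * X)
    (hdX : dJ X = -X) : IsNilpotent X := by
  have hd := isDagger_dJ (F := F) (m := m)
  have : Nonempty (Fin m ⊕ Fin m) := ⟨Sum.inl ⟨0, hm⟩⟩
  obtain ⟨c, hc, -⟩ := RegU.exists_scalar card_spI (by omega) h X hX
  have h1 := (hd.isNilpotent hc).neg
  rw [hd.sub, dJ_smul, hd.one, hdX] at h1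
  have e : -(-X - c • (1 : Matrix (Fin m ⊕ Fin m) (Fin m ⊕ Fin m) F)) = X - (-c) • 1 := by
    rw [neg_smul]; abel
  rw [e] at h1
  have h3 := scalar_eq_of_nilpotent hc h1
  have h4 : c = 0 := by
    have : (2 : F) * c = 0 := by linear_combination h3
    rcases mul_eq_zero.1 this with h | h
    · exact absurd h h2
    · exact h
  rwa [h4, zero_smul, sub_zero] at hc

theorem card_skew_commutant [Fintype F] (h2 : (2 : F) ≠ 0) (hm : 1 ≤ m)
    {u : Matrix (Fin m ⊕ Fin m) (Fin m ⊕ Fin m) F} (hu : u * dJ u = 1) (h : RegU (2 * m) u) :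
    Nat.card {X : Matrix (Fin m ⊕ Fin m) (Fin m ⊕ Fin m) F // X * u = u * X ∧ dJ X = -X} =
      Fintype.card F ^ m := by
  have hd := isDagger_dJ (F := F) (m := m)
  have hud : dJ u * u = 1 := mul_eq_one_comm.1 hu
  obtain ⟨hs, hr⟩ := skew_regular h2 hu h
  have hds : dJ (u - dJ u) = -(u - dJ u) := by rw [hd.sub, hd.invol, neg_sub]
  have hcu : Commute u (dJ u) := by
    show u * dJ u = dJ u * u
    rw [hu, hud]
  have hus : Commute u (u - dJ u) := (Commute.refl u).sub_right hcu
  have hpoly : ∀ c : Fin (2 * m) → F, dJ (polyS (u - dJ u) c) =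
      polyS (u - dJ u) (fun k => (-1) ^ (k : ℕ) * c k) := by
    intro c
    unfold polyS
    rw [hd.sum]
    apply Finset.sum_congr rfl
    intro k _
    rw [dJ_smul, hd.pow, hds, ← neg_one_smul F (u - dJ u), _root_.smul_pow, smul_smul, mul_comm]
  rw [← card_odd_coords m]
  symm
  apply Nat.card_congr
  refine Equiv.ofBijective (fun c => ⟨polyS (u - dJ u) c.1, ?_, ?_⟩) ⟨?_, ?_⟩
  · exact (commute_polyS hus c.1).symm.eq
  · rw [hpoly]
    unfold polyS
    rw [← Finset.sum_neg_distrib]
    apply Finset.sum_congr rfl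
    intro k _
    show ((-1) ^ (k : ℕ) * c.1 k) • (u - dJ u) ^ (k : ℕ) = -(c.1 k • (u - dJ u) ^ (k : ℕ))
    by_cases hk : Even (k : ℕ)
    · rw [c.2 k hk, mul_zero, zero_smul, neg_zero]
    · rw [(Nat.not_even_iff_odd.1 hk).neg_one_pow, neg_one_mul, neg_smul]
  · intro c c' hcc
    apply Subtype.ext
    apply polyS_injective card_spI (by omega) hs hr
    exact congrArg Subtype.val hcc
  · rintro ⟨X, hX, hdX⟩
    have hXd : X * dJ u = dJ u * X := by
      calc X * dJ u = dJ u * (u * X) * dJ u := by rw [← mul_assoc, hud, one_mul]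
        _ = dJ u * X * (u * dJ u) := by rw [← hX]; simp only [mul_assoc]
        _ = dJ u * X := by rw [hu, mul_one]
    obtain ⟨c, rfl⟩ := exists_polyS_eq card_spI (by omega) hs hr X (by
      rw [mul_sub, sub_mul, hX, hXd])
    refine ⟨⟨c, ?_⟩, rfl⟩
    intro k hk
    rw [hpoly] at hdX
    have e : -polyS (u - dJ u) c = polyS (u - dJ u) (fun k => -c k) := by
      unfold polyS
      rw [← Finset.sum_neg_distrib]
      apply Finset.sum_congr rfl
      intro k _
      rw [neg_smul]
    rw [e] at hdX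
    have h3 := congrFun (polyS_injective card_spI (by omega) hs hr hdX) k
    simp only [hk.neg_one_pow, one_mul] at h3
    have : (2 : F) * c k = 0 := by linear_combination h3
    rcases mul_eq_zero.1 this with h | h
    · exact absurd h h2
    · exact h

theorem card_signs (h2 : (2 : F) ≠ 0) : Nat.card {e : F // e * e = 1} = 2 := by
  have hset : {e : F | e * e = 1} = {1, -1} := by
    ext e
    show e * e = 1 ↔ e = 1 ∨ e = -1
    exact mul_self_eq_one_iff
  have hne : (1 : F) ≠ -1 := by
    intro h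
    apply h2
    linear_combination h
  have := Set.ncard_pair hne
  rw [← hset] at this
  exact this

theorem card_cent_regU [Fintype F] (h2 : (2 : F) ≠ 0) (hm : 1 ≤ m)
    {u : Matrix (Fin m ⊕ Fin m) (Fin m ⊕ Fin m) F} (hu : u * dJ u = 1) (h : RegU (2 * m) u) :
    Nat.card {g : Matrix (Fin m ⊕ Fin m) (Fin m ⊕ Fin m) F // g * u = u * g ∧ dJ g * g = 1} =
      2 * Fintype.card F ^ m := by
  have hd := isDagger_dJ (F := F) (m := m)
  have : Nonempty (Fin m ⊕ Fin m) := ⟨Sum.inl ⟨0, hm⟩⟩
  have ht := two_mul_half (m := m) h2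
  have htc := half_commute (F := F) (m := m)
  rw [← card_skew_commutant h2 hm hu h, ← card_signs h2, ← Nat.card_prod]
  symm
  apply Nat.card_congr
  have hnil : ∀ x : {X : Matrix (Fin m ⊕ Fin m) (Fin m ⊕ Fin m) F // X * u = u * X ∧ dJ X = -X},
      IsNilpotent x.1 := fun x => isNilpotent_of_skew h2 hm h x.2.1 x.2.2
  refine Equiv.ofBijective (fun ex => ⟨ex.1.1 • cay ex.2.1, ?_, ?_⟩) ⟨?_, ?_⟩
  · have h1 : Commute u (cay ex.2.1) := commute_cay (hnil ex.2).isUnit_one_add ex.2.2.1.symm
    rw [Matrix.smul_mul, Matrix.mul_smul, h1.eq]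
  · rw [dJ_smul, Matrix.smul_mul, Matrix.mul_smul, dagger_cay_mul hd (hnil ex.2) ex.2.2.2, smul_smul,
      ex.1.2, one_smul]
  · rintro ⟨e, x⟩ ⟨e', x'⟩ hh
    have hh' : e.1 • cay x.1 = e'.1 • cay x'.1 := congrArg Subtype.val hh
    have hn1 : IsNilpotent (e.1 • cay x.1 - e.1 • 1) := by
      rw [← smul_sub]
      exact (isNilpotent_cay_sub_one (hnil x)).smul _
    have hn2 : IsNilpotent (e.1 • cay x.1 - e'.1 • 1) := by
      rw [hh', ← smul_sub]
      exact (isNilpotent_cay_sub_one (hnil x')).smul _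
    have he : e.1 = e'.1 := scalar_eq_of_nilpotent hn1 hn2
    have hc : cay x.1 = cay x'.1 := by
      rw [← he] at hh'
      have := congrArg (fun y => e.1 • y) hh'
      simpa only [smul_smul, e.2, one_smul] using this
    have hx : x.1 = x'.1 := by
      rw [← cay_cay ht htc (hnil x).isUnit_one_add, hc, cay_cay ht htc (hnil x').isUnit_one_add]
    exact Prod.ext (Subtype.ext he) (Subtype.ext hx)
  · rintro ⟨g, hg, hgg⟩
    obtain ⟨c, hc, hcc⟩ := isSquare_of_commute_regU (l := 1) hm h hg (by rw [hgg, one_smul])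
      one_ne_zero
    have hna : IsNilpotent (c • g - 1) := by
      have e : c • g - 1 = c • (g - c • 1) := by
        rw [smul_sub, smul_smul, ← hcc, one_smul]
      rw [e]
      exact hc.smul c
    have hua : IsUnit (1 + c • g) := isUnit_one_add_of_unip ht htc hna
    have h1 : dJ (c • g) * (c • g) = 1 := by
      rw [dJ_smul, Matrix.smul_mul, Matrix.mul_smul, hgg, smul_smul, ← hcc, one_smul]
    have h1' : (c • g) * dJ (c • g) = 1 := mul_eq_one_comm.1 h1
    have hcomm : Commute u (c • g) := (Commute.smul_right (show Commute u g from hg.symm) c)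
    refine ⟨⟨⟨c, hcc.symm⟩, ⟨cay (c • g), (commute_cay hua hcomm).symm.eq,
      dagger_cay hd hua h1 h1'⟩⟩, ?_⟩
    apply Subtype.ext
    show c • cay (cay (c • g)) = g
    rw [cay_cay ht htc hua, smul_smul, ← hcc, one_smul]

end cent

end Cfsg.Agent.Lib.Helper44
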