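import Cfsg.Agent.Lib.Helper44.SpRegEx
import Cfsg.Agent.Lib.Helper14.StdMinus

/-!
# The two classes of regular unipotent elements of `Sp_{2m}(q)`, `q` odd
-/

set_option autoImplicit false

namespace Cfsg.Agent.Lib.Helper44

open Matrix

variable {F : Type*} [Field F] {m : ℕ}

theorem simD_mul_dJ (l : F) : simD m l * dJ (simD m l) = l • 1 := by
  unfold simD
  rw [dJ_fromBlocks, fromBlocks_multiply, ← fromBlocks_one, fromBlocks_smul]
  simp

theorem isConj_sp_of_mul_eq {U U' : ↥(symplecticGroup (Fin m) F)}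
    {y : Matrix (Fin m ⊕ Fin m) (Fin m ⊕ Fin m) F} (hy : y ∈ symplecticGroup (Fin m) F)
    (h : y * U.1 = U'.1 * y) : IsConj U U' := by
  rw [isConj_iff]
  refine ⟨⟨y, hy⟩, ?_⟩
  rw [mul_inv_eq_iff_eq_mul]
  exact Subtype.ext h

theorem sp_regU_classes [Fintype F] (hodd : Odd (Fintype.card F)) (hm : 1 ≤ m) :
    ∃ U₀ U₁ : ↥(symplecticGroup (Fin m) F), RegU (2 * m) U₀.1 ∧ RegU (2 * m) U₁.1 ∧
      ¬ IsConj U₀ U₁ ∧ ∀ U : ↥(symplecticGroup (Fin m) F), RegU (2 * m) U.1 →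
        IsConj U₀ U ∨ IsConj U₁ U := by
  have hd := isDagger_dJ (F := F) (m := m)
  have h2 : (2 : F) ≠ 0 := by
    intro h2
    have : CharP F 2 := CharTwo.of_one_ne_zero_of_two_eq_zero one_ne_zero h2
    have h3 : ringChar F = 2 := ringChar.eq F 2
    have := FiniteField.even_card_iff_char_two.1 h3
    rw [Nat.odd_iff] at hodd
    omega
  obtain ⟨p, hp⟩ := CharP.exists F
  have hpp : p.Prime := by
    rcases CharP.char_is_prime_or_zero F p with h | h
    · exact h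
    · subst h
      have := CharP.charP_to_charZero F
      exact absurd (inferInstance : Finite F) (not_finite_iff_infinite.2 inferInstance)
  have : Fact p.Prime := ⟨hpp⟩
  have hp2 : p ≠ 2 := by
    rintro rfl
    exact h2 (by exact_mod_cast CharP.cast_eq_zero F 2)
  have hrc : ringChar F ≠ 2 := by
    rw [ringChar.eq F p]
    exact hp2
  obtain ⟨l, hl⟩ := FiniteField.exists_nonsquare hrc
  have hl0 : l ≠ 0 := by
    rintro rfl
    exact hl IsSquare.zero
  obtain ⟨u₀, hu₀, hr₀⟩ := exists_regU_sp (F := F) h2 hm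
  have hδ1 : simD m l * simD m l⁻¹ = 1 := simD_mul_simD l l⁻¹ (mul_inv_cancel₀ hl0)
  have hδ2 : simD m l⁻¹ * simD m l = 1 := simD_mul_simD l⁻¹ l (inv_mul_cancel₀ hl0)
  have hr₁ : RegU (2 * m) (simD m l * u₀ * simD m l⁻¹) := hr₀.conj hδ1
  have hu₁ : (simD m l * u₀ * simD m l⁻¹) * dJ (simD m l * u₀ * simD m l⁻¹) = 1 := by
    rw [hd.mul, hd.mul]
    calc simD m l * u₀ * simD m l⁻¹ * (dJ (simD m l⁻¹) * (dJ u₀ * dJ (simD m l)))
        = simD m l * u₀ * (simD m l⁻¹ * dJ (simD m l⁻¹)) * dJ u₀ * dJ (simD m l) := by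
          simp only [mul_assoc]
      _ = l⁻¹ • (simD m l * (u₀ * dJ u₀) * dJ (simD m l)) := by
          rw [simD_mul_dJ]
          simp only [Matrix.mul_smul, Matrix.smul_mul, mul_one, mul_assoc]
      _ = 1 := by rw [hu₀, mul_one, simD_mul_dJ, smul_smul, inv_mul_cancel₀ hl0, one_smul]
  refine ⟨⟨u₀, (mem_sp_iff _).2 hu₀⟩, ⟨_, (mem_sp_iff _).2 hu₁⟩, hr₀, hr₁, ?_, ?_⟩
  · intro hc
    rw [isConj_iff] at hc
    obtain ⟨k, hk⟩ := hc
    rw [mul_inv_eq_iff_eq_mul] at hk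
    have hk' : k.1 * u₀ = simD m l * u₀ * simD m l⁻¹ * k.1 := congrArg Subtype.val hk
    have hkk : dJ k.1 * k.1 = 1 := (mem_sp_iff' _).1 k.2
    obtain ⟨c, -, hc⟩ := isSquare_of_commute_regU (x := simD m l⁻¹ * k.1) (l := l⁻¹) hm hr₀
      (by
        rw [mul_assoc, hk']
        simp only [← mul_assoc]
        rw [hδ2, one_mul])
      (by
        rw [hd.mul, mul_assoc, ← mul_assoc (dJ (simD m l⁻¹)), dJ_simD_mul, Matrix.smul_mul, one_mul,
          Matrix.mul_smul, hkk])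
      (inv_ne_zero hl0)
    apply hl
    refine ⟨c⁻¹, ?_⟩
    rw [← mul_inv, ← hc, inv_inv]
  · intro U hU
    obtain ⟨x, x', c, hc0, -, -, hxu, hxx⟩ := exists_simil_of_regU p hp2 hm hu₀
      ((mem_sp_iff _).1 U.2) hr₀ hU
    by_cases hcs : IsSquare c
    · left
      obtain ⟨t, rfl⟩ := hcs
      have ht : t ≠ 0 := by
        rintro rfl
        exact hc0 (mul_zero _)
      obtain ⟨y, hy, hyu⟩ := exists_sp_of_simil ht hxu hxx
      exact isConj_sp_of_mul_eq hy hyu
    · right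
      obtain ⟨t, ht⟩ := Cfsg.Agent.Lib.Helper14.isSquare_mul_of_not F hcs hl
      have ht0 : t ≠ 0 := by
        rintro rfl
        rw [mul_zero] at ht
        exact (mul_ne_zero hc0 hl0) ht
      obtain ⟨y, hy, hyu⟩ := exists_sp_of_simil (u := simD m l * u₀ * simD m l⁻¹) (u' := U.1)
        (x := x * simD m l⁻¹) (t := t * l⁻¹) (mul_ne_zero ht0 (inv_ne_zero hl0))
        (by
          calc x * simD m l⁻¹ * (simD m l * u₀ * simD m l⁻¹)
              = x * (simD m l⁻¹ * simD m l) * u₀ * simD m l⁻¹ := by simp only [mul_assoc]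
            _ = U.1 * (x * simD m l⁻¹) := by rw [hδ2, mul_one, hxu, mul_assoc])
        (by
          rw [hd.mul, mul_assoc, ← mul_assoc (dJ x), hxx, Matrix.smul_mul, one_mul, Matrix.mul_smul,
            dJ_simD_mul, smul_smul]
          congr 1
          have : t * l⁻¹ * (t * l⁻¹) = (t * t) * (l⁻¹ * l⁻¹) := by ring
          rw [this, ← ht]
          field_simp)
      exact isConj_sp_of_mul_eq hy hyu

end Cfsg.Agent.Lib.Helper44
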