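import Mathlib

/-!
# 2-parts and `n`-th roots of `-1` in a finite field
-/

namespace Cfsg.Agent.Lib.Helper44

theorem two_part {N : ℕ} (hN : N ≠ 0) : ∃ m : ℕ, Odd m ∧ N = 2 ^ padicValNat 2 N * m := by
  obtain ⟨m, hm⟩ := pow_padicValNat_dvd (p := 2) (n := N)
  refine ⟨m, ?_, hm⟩
  rw [← Nat.not_even_iff_odd]
  rintro ⟨k, hk⟩
  apply pow_succ_padicValNat_not_dvd (p := 2) hN
  refine ⟨k, ?_⟩
  rw [pow_succ]
  nth_rewrite 1 [hm]
  rw [hk]
  ring

theorem exists_pow_eq_neg_one_iff {F : Type*} [Field F] [Fintype F] (hq : Odd (Fintype.card F))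
    {n : ℕ} (hn : 1 ≤ n) :
    (∃ c : F, c ^ n = -1) ↔ padicValNat 2 n < padicValNat 2 (Fintype.card F - 1) := by
  have hcard : 1 < Fintype.card F := Fintype.one_lt_card
  have hchar : ringChar F ≠ 2 := by
    intro h
    have := FiniteField.even_card_iff_char_two.1 h
    rw [Nat.odd_iff] at hq
    omega
  have hne : (-1 : F) ≠ 1 := by
    intro h
    exact Ring.neg_one_ne_one_of_char_ne_two hchar h
  obtain ⟨m', hm', hq1⟩ := two_part (N := Fintype.card F - 1) (by omega)
  obtain ⟨n', hn', hn1⟩ := two_part (N := n) (by omega)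
  set e := padicValNat 2 (Fintype.card F - 1) with he
  set a := padicValNat 2 n with ha
  constructor
  · rintro ⟨c, hc⟩
    by_contra hcon
    push Not at hcon
    have hc0 : c ≠ 0 := by
      rintro rfl
      rw [zero_pow (by omega)] at hc
      exact neg_ne_zero.2 one_ne_zero hc.symm
    have h1 : (c ^ n) ^ m' = 1 := by
      rw [← pow_mul]
      have : n * m' = (Fintype.card F - 1) * (2 ^ (a - e) * n') := by
        rw [hq1]
        nth_rewrite 1 [hn1]
        have : (2 : ℕ) ^ a = 2 ^ e * 2 ^ (a - e) := by rw [← pow_add]; congr 1; omega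
        rw [this]; ring
      rw [this, pow_mul, FiniteField.pow_card_sub_one_eq_one c hc0, one_pow]
    rw [hc, hm'.neg_one_pow] at h1
    exact hne h1
  · intro hlt
    obtain ⟨g, hg⟩ := FiniteField.exists_nonsquare hchar
    have hg0 : g ≠ 0 := by
      rintro rfl
      exact hg (IsSquare.zero)
    have h1 : g ^ (Fintype.card F / 2) = -1 := by
      rcases FiniteField.pow_dichotomy hchar hg0 with h | h
      · exact absurd ((FiniteField.isSquare_iff hchar hg0).2 h) hg
      · exact h
    refine ⟨g ^ (2 ^ (e - a - 1) * m'), ?_⟩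
    rw [← pow_mul]
    have h2 : 2 ^ (e - a - 1) * m' * n = (Fintype.card F / 2) * n' := by
      have h3 : Fintype.card F / 2 = 2 ^ (e - 1) * m' := by
        have h4 : (2 : ℕ) ^ e = 2 * 2 ^ (e - 1) := by rw [← pow_succ']; congr 1; omega
        rw [h4] at hq1
        rw [Nat.odd_iff] at hq
        have : Fintype.card F = 2 * (2 ^ (e - 1) * m') + 1 := by
          rw [← mul_assoc]; omega
        omega
      rw [h3]
      nth_rewrite 1 [hn1]
      have : (2 : ℕ) ^ (e - 1) = 2 ^ (e - a - 1) * 2 ^ a := by rw [← pow_add]; congr 1; omega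
      rw [this]; ring
    rw [h2, pow_mul, h1, hn'.neg_one_pow]

end Cfsg.Agent.Lib.Helper44
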