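import Cfsg.Agent.Lib.Helper45.SimGL
import Cfsg.Agent.Lib.Helper43.RegNilp

/-!
# Similarity of unipotent matrices: ranks of the powers of `A - 1` decide
-/

namespace Cfsg.Agent.Lib.Helper44

open Cfsg.Agent.Lib.Helper45 Cfsg.Agent.Lib.Helper43 Polynomial Module

variable {K : Type*} [Field K] {n : Type*} [Fintype n] [DecidableEq n]

theorem rank_map_invol (σ : K →+* K) (hσ : ∀ x, σ (σ x) = x) (A : Matrix n n K) :
    (A.map σ).rank = A.rank := by
  have hmm : (A.map σ).map σ = A := by
    ext i j
    simp [hσ]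
  have key : ∀ (B : Matrix n n K) (v : n → K), B.mulVec v = 0 → (B.map σ).mulVec (σ ∘ v) = 0 := by
    intro B v hv
    funext i
    rw [← RingHom.map_mulVec, hv]
    simp
  let j : ↥(LinearMap.ker (Matrix.mulVecLin A)) ≃+ ↥(LinearMap.ker (Matrix.mulVecLin (A.map σ))) :=
    { toFun := fun x => ⟨σ ∘ x.1, key A x.1 x.2⟩
      invFun := fun y => ⟨σ ∘ y.1, by
        have := key (A.map σ) y.1 y.2
        rw [hmm] at this
        exact this⟩
      left_inv := by
        intro x
        apply Subtype.ext
        ext i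
        simp [hσ]
      right_inv := by
        intro x
        apply Subtype.ext
        ext i
        simp [hσ]
      map_add' := by
        intro x y
        apply Subtype.ext
        ext i
        simp }
  have hbij : Function.Bijective σ :=
    ⟨σ.injective, fun x => ⟨σ x, hσ x⟩⟩
  have h1 := rank_eq_of_equiv_equiv (R := K) (R' := K) σ j hbij (by
    intro r m
    apply Subtype.ext
    ext i
    simp [j])
  have h2 : finrank K ↥(LinearMap.ker (Matrix.mulVecLin A))
      = finrank K ↥(LinearMap.ker (Matrix.mulVecLin (A.map σ))) := by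
    unfold Module.finrank
    rw [h1]
  have h3 := finrank_ker_mulVecLin A
  have h4 := finrank_ker_mulVecLin (A.map σ)
  omega

theorem rank_aeval_of_unipotent {A : Matrix n n K} (hA : IsNilpotent (A - 1)) {f : K[X]}
    (hf : f ≠ 0) : (aeval A f).rank = ((A - 1) ^ f.rootMultiplicity 1).rank := by
  obtain ⟨g, hg1, hg2⟩ := exists_eq_pow_rootMultiplicity_mul_and_not_dvd f hf 1
  have hg3 : g.eval 1 ≠ 0 := by
    intro h
    exact hg2 (dvd_iff_isRoot.2 h)
  have hg4 : g = C (g.eval 1) + (X - C 1) * (g /ₘ (X - C 1)) := by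
    conv_lhs => rw [← modByMonic_add_div g (X - C 1), modByMonic_X_sub_C_eq_C_eval]
  have hunit : IsUnit (aeval A g) := by
    rw [hg4, map_add, map_mul, aeval_C, map_sub, aeval_X, aeval_C, map_one]
    apply IsNilpotent.isUnit_add_left_of_commute
    · have hc : Commute (A - 1) (aeval A (g /ₘ (X - C 1))) := by
        have h1 : A - 1 = aeval A (X - C 1 : K[X]) := by simp
        rw [h1]
        change _ * _ = _ * _
        rw [← map_mul, ← map_mul, mul_comm]
      exact hc.isNilpotent_mul_right hA
    · exact (isUnit_iff_ne_zero.2 hg3).map (algebraMap K (Matrix n n K))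
    · exact (Algebra.commutes _ _).symm
  conv_lhs => rw [hg1]
  rw [map_mul, map_pow, map_sub, aeval_X, aeval_C, map_one,
    Matrix.rank_mul_eq_left_of_isUnit_det _ _ ((Matrix.isUnit_iff_isUnit_det _).1 hunit)]

theorem exists_conj_of_unipotent {A B : Matrix n n K} (hA : IsNilpotent (A - 1))
    (hB : IsNilpotent (B - 1)) (h : ∀ k : ℕ, ((A - 1) ^ k).rank = ((B - 1) ^ k).rank) :
    ∃ P : GL n K, (P : Matrix n n K) * A = B * (P : Matrix n n K) := by
  have h1 : typ A = typ B := by
    apply (hasType_typ A).eq_of_rank_eq (hasType_typ B)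
    intro f
    by_cases hf : f = 0
    · rw [hf, map_zero, map_zero]
    · rw [rank_aeval_of_unipotent hA hf, rank_aeval_of_unipotent hB hf, h]
  exact (hasType_typ A).conj (h1 ▸ hasType_typ B)

theorem sub_one_pow_char_eq_zero (p : ℕ) [Fact p.Prime] [CharP K p] {A : Matrix n n K}
    (h : A ^ p = 1) : (A - 1) ^ p = 0 := by
  have h1 : (A - 1) ^ p = aeval A ((X - 1 : K[X]) ^ p) := by simp
  rw [h1, sub_pow_char, one_pow]
  simp [h]

/-- a unipotent matrix is similar to the inverse of its `σ`-conjugate transpose. -/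
theorem exists_conj_dagger_inv (σ : K →+* K) (hσ : ∀ x, σ (σ x) = x) {A A' : Matrix n n K}
    (hA : IsNilpotent (A - 1)) (hAA' : A * A' = 1) :
    ∃ P : GL n K, (P : Matrix n n K) * A = (A'.map σ).transpose * (P : Matrix n n K) := by
  have hA'A : A' * A = 1 := mul_eq_one_comm.1 hAA'
  have hcomm : Commute A' (A - 1) := by
    change A' * (A - 1) = (A - 1) * A'
    rw [mul_sub, sub_mul, hAA', hA'A, mul_one, one_mul]
  have h1 : A' - 1 = -A' * (A - 1) := by
    rw [neg_mul, mul_sub, hA'A, mul_one]
    abel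
  have hcomm' : Commute (-A') (A - 1) := hcomm.neg_left
  have hpow : ∀ k : ℕ, (A' - 1) ^ k = (-A') ^ k * (A - 1) ^ k := by
    intro k
    rw [h1, hcomm'.mul_pow]
  have hunit : ∀ k : ℕ, IsUnit ((-A') ^ k).det := by
    intro k
    rw [← Matrix.isUnit_iff_isUnit_det]
    apply IsUnit.pow
    apply IsUnit.neg
    exact ⟨⟨A', A, hA'A, hAA'⟩, rfl⟩
  have hd : ∀ k : ℕ, ((A'.map σ).transpose - 1) ^ k = (((A' - 1) ^ k).map σ).transpose := by
    intro k
    have h2 : (A'.map σ).transpose - 1 = ((A' - 1).map σ).transpose := by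
      ext i j
      simp [Matrix.one_apply, eq_comm, apply_ite σ]
    rw [h2, ← Matrix.transpose_pow]
    congr 1
    exact (map_pow σ.mapMatrix (A' - 1) k).symm
  apply exists_conj_of_unipotent hA
  · obtain ⟨k, hk⟩ := hA
    refine ⟨k, ?_⟩
    rw [hd, hpow, hk, mul_zero]
    ext i j
    simp
  · intro k
    rw [hd, Matrix.rank_transpose, rank_map_invol σ hσ, hpow,
      Matrix.rank_mul_eq_right_of_isUnit_det _ _ (hunit k)]

end Cfsg.Agent.Lib.Helper44
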